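import Mathlib
import Cfsg.Agent.CH.Real

/-! Blichfeldt's theorem on elements whose eigenvalues lie within `60°` of one of them (`arc`), and
the consequence for an element of prime order with few distinct eigenvalues (`le_of_few`). -/

set_option autoImplicit false
set_option linter.unusedVariables false
set_option linter.unusedSectionVars false

namespace Cfsg.Agent.CH

open scoped Matrix.Norms.L2Operator MatrixOrder ComplexOrder

theorem arc {G A : Type*} [Group G] [Finite G] [CStarAlgebra A] (U : G →* A)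
    (hU : ∀ g, U g ∈ unitary A) {x : G} {c : ℂ} (hc : ‖c‖ = 1) {P : A} (hP : IsStarProjection P)
    (hy : c • U x * P = P) (hn : ‖c • U x - 1‖ < 1) (hcm : ∀ T, Commute (U x) T → Commute P T)
    (a : G) : Commute (U (a * x * a⁻¹)) P := by
  have hst : ∀ g, star (U g) = U g⁻¹ := fun g => by
    rw [← mul_one (star (U g)), ← map_one U, ← mul_inv_cancel g, map_mul, ← mul_assoc, (hU g).1,
      one_mul]
  have hi : ∀ g, U g * U g⁻¹ = 1 := fun g => by rw [← map_mul, mul_inv_cancel, map_one]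
  have hi' : ∀ g, U g⁻¹ * U g = 1 := fun g => by rw [← map_mul, inv_mul_cancel, map_one]
  have hi2 : ∀ g T, U g⁻¹ * (U g * T) = T := fun g T => by rw [← mul_assoc, hi', one_mul]
  have hi3 : ∀ g T, U g * (U g⁻¹ * T) = T := fun g T => by rw [← mul_assoc, hi, one_mul]
  set Q := fun g => U g * P * U g⁻¹ with hQ
  have hQp : ∀ g, IsStarProjection (Q g) := fun g => ⟨by
    simp only [IsIdempotentElem, hQ, mul_assoc, hi2]
    rw [← mul_assoc P, hP.isIdempotentElem.eq], by
    simp only [IsSelfAdjoint, hQ, star_mul, hst, inv_inv, hP.isSelfAdjoint.star_eq, mul_assoc]⟩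
  have hQm : ∀ g b, Q (g * b) = U g * Q b * U g⁻¹ := fun g b => by simp [hQ, mul_assoc]
  set r := ‖c • U x - 1‖
  set D := fun a b => max ‖(1 - Q a) * Q b‖ ‖(1 - Q b) * Q a‖ with hD
  have key : ∀ a b, D b (a * x * a⁻¹ * b) ≤ r * D a b := fun a b => by
    have k1 : ∀ z : A, z * Q a = Q a → ‖z - 1‖ = r → ‖(1 - Q b) * z * Q b‖ ≤ r * D a b := by
      intro z h1 h2
      have e : (1 - Q b) * z * Q b = (1 - Q b) * ((z - 1) * ((1 - Q a) * Q b)) := by
        rw [← mul_assoc (z - 1), mul_sub (z - 1), sub_mul z 1 (Q a), h1, one_mul, sub_self, sub_zero,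
          mul_one, sub_mul z, mul_sub, one_mul, (hQp b).one_sub_mul_self, sub_zero, mul_assoc]
      rw [e, ← h2]
      refine (norm_mul_le _ _).trans ((mul_le_of_le_one_left (norm_nonneg _)
        (hQp b).one_sub.norm_le).trans ((norm_mul_le _ _).trans ?_))
      exact mul_le_mul_of_nonneg_left (le_max_left _ _) (norm_nonneg _)
    set w := a * x * a⁻¹ with hw
    have a1 : c • U w * Q a = Q a := by
      conv_rhs => rw [hQ]; simp only; rw [← hy]
      simp [hw, hQ, mul_assoc, hi2]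
    have a2 : ‖c • U w - 1‖ = r := by
      rw [show c • U w - 1 = U a * (c • U x - 1) * U a⁻¹ by simp [hw, mul_sub, sub_mul, hi],
        CStarRing.norm_mul_mem_unitary _ (hU _), CStarRing.norm_mem_unitary_mul _ (hU _)]
    have hcc : star c * c = 1 := by
      rw [Complex.star_def, Complex.conj_mul', hc]; simp
    have a3 := k1 (star c • U w⁻¹) (by
      conv_lhs => rw [← a1, smul_mul_assoc, smul_mul_assoc, mul_smul_comm, smul_smul, hcc, hi2,
        one_smul]) (by rw [← a2, ← norm_star, star_sub, star_smul, star_star, hst, inv_inv, star_one])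
    have a4 := k1 _ a1 a2
    rw [mul_smul_comm, smul_mul_assoc, norm_smul] at a3 a4
    rw [norm_star] at a3
    rw [hc, one_mul] at a3 a4
    refine max_le ?_ ?_
    · rwa [hQm, ← mul_assoc, ← mul_assoc, CStarRing.norm_mul_mem_unitary _ (hU _)]
    · rwa [hQm, show (1 - U w * Q b * U w⁻¹) * Q b = U w * ((1 - Q b) * U w⁻¹ * Q b) by
        simp [mul_sub, sub_mul, mul_assoc, hi3], CStarRing.norm_mem_unitary_mul _ (hU _)]
  have hD0 : ∀ a b, D a b ≤ 0 → Q a = Q b := fun a b h => by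
    have h1 := norm_le_zero_iff.1 ((le_max_left _ _).trans h)
    have h2 := norm_le_zero_iff.1 ((le_max_right _ _).trans h)
    rw [sub_mul, one_mul, sub_eq_zero] at h1 h2
    rw [← (hQp a).isSelfAdjoint.star_eq, h2, star_mul, (hQp a).isSelfAdjoint.star_eq,
      (hQp b).isSelfAdjoint.star_eq, ← h1]
  have hbad : ∀ a b, ¬ Commute (U (a * x * a⁻¹)) (Q b) → Q b ≠ Q (a * x * a⁻¹ * b) :=
    fun a b h e => h (by
      rw [hQm] at e
      rw [commute_iff_eq]
      conv_rhs => rw [e, mul_assoc, hi', mul_one])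
  have h1 : Q 1 = P := by simp [hQ]
  by_contra h
  obtain ⟨⟨u, v⟩, huv, hmin⟩ := Set.exists_min_image {s : G × G | Q s.1 ≠ Q s.2}
    (fun s => D s.1 s.2) (Set.toFinite _) ⟨(1, _), hbad a 1 (h1 ▸ h)⟩
  have hr0 : 0 ≤ r := norm_nonneg _
  have hD1 : ∀ a b, D a b ≤ 1 := fun a b => max_le
    ((norm_mul_le _ _).trans (mul_le_one₀ (hQp a).one_sub.norm_le (norm_nonneg _) (hQp b).norm_le))
    ((norm_mul_le _ _).trans (mul_le_one₀ (hQp b).one_sub.norm_le (norm_nonneg _) (hQp a).norm_le))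
  have h2 : D u v < 1 := ((hmin (1, _) (hbad a 1 (h1 ▸ h))).trans (key a 1)).trans_lt
    ((mul_le_of_le_one_right hr0 (hD1 _ _)).trans_lt hn)
  have h3 : 0 < D u v := not_le.1 fun h => huv (hD0 u v h)
  by_cases h4 : Commute (U (u * x * u⁻¹)) (Q v)
  · have h5 : Commute (Q u) (Q v) := by
      have := hcm (U u⁻¹ * Q v * U u) (by
        have := congrArg (fun T => U u⁻¹ * T * U u) h4.eq
        simpa [commute_iff_eq, mul_assoc, hi2, hi'] using this)
      have := congrArg (fun T => U u * T * U u⁻¹) this.eq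
      simpa [commute_iff_eq, hQ, mul_assoc, hi3, hi] using this
    have h6 : ∀ e : A, IsIdempotentElem e → ‖e‖ < 1 → ‖e‖ ≤ 0 := fun e he h => by
      have := norm_mul_le e e
      rw [he.eq] at this
      nlinarith [norm_nonneg e]
    exact h3.not_ge (max_le (h6 _ (.mul_of_commute ((Commute.one_left _).sub_left h5)
      (hQp u).one_sub.1 (hQp v).1) ((le_max_left _ _).trans_lt h2))
      (h6 _ (.mul_of_commute ((Commute.one_left _).sub_left h5.symm) (hQp v).one_sub.1 (hQp u).1)
        ((le_max_right _ _).trans_lt h2)))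
  · have := (hmin (v, _) (hbad u v h4)).trans (key u v)
    simp only at this
    nlinarith

theorem norm_sub_one_lt_one {u w : ℂ} (hu : ‖u‖ = 1) (hw : ‖w‖ = 1)
    (h : ⌈(u.arg + Real.pi) / (Real.pi / 3)⌉ = ⌈(w.arg + Real.pi) / (Real.pi / 3)⌉) :
    ‖u⁻¹ * w - 1‖ ^ 2 < 1 := by
  have h1 : |(u.arg + Real.pi) / (Real.pi / 3) - (w.arg + Real.pi) / (Real.pi / 3)| < 1 := by
    generalize (u.arg + Real.pi) / (Real.pi / 3) = a, (w.arg + Real.pi) / (Real.pi / 3) = b at h
    have := Int.le_ceil a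
    have := Int.ceil_lt_add_one a
    rw [h] at *
    exact abs_sub_lt_iff.2 ⟨by linarith [Int.ceil_lt_add_one b], by linarith [Int.le_ceil b]⟩
  have hp : 0 < Real.pi / 3 := by positivity
  rw [← sub_div, add_sub_add_right_eq_sub, abs_div, abs_of_pos hp, div_lt_one hp, abs_sub_comm] at h1
  have h2 : u⁻¹ * w = Complex.exp ((w.arg - u.arg : ℝ) * Complex.I) := by
    conv_lhs => rw [← Complex.norm_mul_exp_arg_mul_I u, ← Complex.norm_mul_exp_arg_mul_I w, hu, hw]
    push_cast
    rw [one_mul, one_mul, ← Complex.exp_neg, ← Complex.exp_add]; congr 1; ring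
  have h3 := Real.cos_lt_cos_of_nonneg_of_le_pi (abs_nonneg _) (by linarith [Real.pi_pos]) h1
  rw [Real.cos_pi_div_three, Real.cos_abs] at h3
  rw [h2, Complex.sq_norm, Complex.normSq_apply]
  simp only [Complex.sub_re, Complex.exp_ofReal_mul_I_re, Complex.one_re, Complex.sub_im,
    Complex.exp_ofReal_mul_I_im, Complex.one_im]
  nlinarith [Real.sin_sq_add_cos_sq (w.arg - u.arg)]

open Cfsg.Agent.Char in
open scoped Classical in
theorem le_of_few {G : Type*} [Group G] [Finite G] [IsSimpleGroup G] {χ : G → ℂ}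
    (hχ : IsIrrCharacter G χ) (hZ : charCenter χ = ⊥) {z : G} {p m : ℕ} (hp : 0 < p)
    (hz : orderOf z = p) (h : ∀ (n : ℕ) (ζ : Fin n → ℂ), χ 1 = n → (∀ i, ζ i ^ p = 1) →
      (∀ k : ℤ, χ (z ^ k) = ∑ i, ζ i ^ k) → (Finset.univ.image ζ).card ≤ m) : p ≤ 6 ^ (m - 1) := by
  haveI := Fintype.ofFinite G
  obtain ⟨n, U, hU, rfl⟩ := exists_unitary hχ.isCharacter
  obtain ⟨b, ζ, h1, h2⟩ := exists_eigenbasis_elem (matrixRep U) z
  rw [hz] at h1
  have h3 := h _ ζ (by simp) h1 fun k => by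
    rw [← trace_eq_sum_of_eigenbasis b _ _ (h2 k)]
    exact congrFun (character_matrixRep U).symm _
  obtain ⟨i⟩ : Nonempty (Fin (Module.finrank ℂ (Fin n → ℂ))) := by
    have := hχ.apply_one_ne_zero
    exact Fin.pos_iff_nonempty.1 (by simpa [Nat.pos_iff_ne_zero] using this)
  have hn : ∀ j, ‖ζ j‖ = 1 := fun j => norm_eq_one_of_pow_orderOf (g := z) (hz ▸ h1 j)
  have h0 : ∀ j, ζ j ≠ 0 := fun j e => by simpa [e] using hn j
  set S := (Finset.univ.image ζ).erase (ζ i)
  have hS : S.card ≤ m - 1 := by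
    rw [Finset.card_erase_of_mem (by simp)]
    omega
  have hπ : 0 < Real.pi / 3 := by positivity
  have hm : ∀ z : ℂ, ⌈(z.arg + Real.pi) / (Real.pi / 3)⌉ ∈ Finset.Icc (1 : ℤ) 6 := fun z =>
    Finset.mem_Icc.2 ⟨Int.one_le_ceil_iff.2 (div_pos (by linarith [z.neg_pi_lt_arg]) hπ),
      Int.ceil_le.2 ((div_le_iff₀ hπ).2 (by push_cast; linarith [z.arg_le_pi]))⟩
  by_contra hlt
  obtain ⟨k, l, hkl, e⟩ := Fintype.exists_ne_map_eq_of_card_lt
    (fun (k : Fin p) (s : S) => (⟨_, hm ((s / ζ i) ^ (k : ℤ))⟩ : Finset.Icc (1 : ℤ) 6)) (by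
      simpa using (Nat.pow_le_pow_right (by norm_num) hS).trans_lt (not_le.1 hlt))
  set d : ℤ := -k + l with hd
  set y := (ζ i ^ d)⁻¹ • U (z ^ d) with hy
  have hc : ‖(ζ i ^ d)⁻¹‖ = 1 := by simp [hn]
  have hyb : ∀ j, Matrix.toLin' y (b j) = (ζ j / ζ i) ^ d • b j := fun j => by
    rw [hy, map_smul, LinearMap.smul_apply, ← matrixRep_apply, h2, smul_smul, div_zpow,
      div_eq_inv_mul]
  have hyu : y ∈ unitary _ := by
    have e : star (ζ i ^ d)⁻¹ * (ζ i ^ d)⁻¹ = 1 := by
      rw [Complex.star_def, Complex.conj_mul', hc]; simp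
    have : star y * y = 1 := by rw [hy, star_smul, smul_mul_smul_comm, e, (hU _).1, one_smul]
    exact ⟨this, mul_eq_one_comm.1 this⟩
  have hy1 : ‖y - 1‖ < 1 := by
    refine lt_of_pow_lt_pow_left₀ 2 zero_le_one ((norm_lt_of_eigenbasis hyu b _ hyb one_pos
      fun j => ?_).trans_eq (one_pow 2).symm)
    by_cases hj : ζ j = ζ i
    · simp [hj, h0]
    rw [hd, zpow_add₀ (div_ne_zero (h0 j) (h0 i)), zpow_neg]
    exact norm_sub_one_lt_one (by simp [hn]) (by simp [hn])
      (congrArg Subtype.val (congrFun e ⟨ζ j, by simp [S, hj]⟩))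
  have hyp : y ^ p = 1 := by
    rw [hy, smul_pow, ← map_pow, ← zpow_natCast (z ^ d), ← zpow_mul, mul_comm, zpow_mul,
      zpow_natCast, ← hz, pow_orderOf_eq_one, hz, one_zpow, map_one, inv_pow, ← zpow_natCast,
      ← zpow_mul, mul_comm, zpow_mul, zpow_natCast, h1, one_zpow, inv_one, one_smul]
  have hp' : (p : ℂ) ≠ 0 := by exact_mod_cast hp.ne'
  set P := (p : ℂ)⁻¹ • ∑ k ∈ Finset.range p, y ^ k with hP
  have a1 : y * P = P := by
    have := mul_geom_sum y p
    rw [hyp, sub_self, sub_mul, one_mul, sub_eq_zero] at this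
    rw [hP, mul_smul_comm, this]
  have a2 : ∀ w, w * P = P → ((p : ℂ)⁻¹ • ∑ k ∈ Finset.range p, w ^ k) * P = P := fun w hw => by
    have : ∀ k : ℕ, w ^ k * P = P := fun k => by
      induction k with
      | zero => simp
      | succ k ih => rw [pow_succ, mul_assoc, hw, ih]
    rw [smul_mul_assoc, Finset.sum_mul, Finset.sum_congr rfl fun k _ => this k, Finset.sum_const,
      Finset.card_range, ← Nat.cast_smul_eq_nsmul ℂ, inv_smul_smul₀ hp']
  have a3 : star P * P = P := by
    have := a2 (star y) (by conv_lhs => rw [← a1, ← mul_assoc, hyu.1, one_mul])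
    rwa [show ((p : ℂ)⁻¹ • ∑ k ∈ Finset.range p, star y ^ k) = star P by simp [hP]] at this
  have a3' : star P = P := by rw [← a3, star_mul, star_star]
  have a4 := arc U hU hc ⟨a2 y a1, a3'⟩ a1 hy1
    fun T hT => (Commute.sum_left _ _ _ fun k _ => (hT.smul_left _).pow_left k).smul_left _
  have hzd : z ^ d ≠ 1 := fun e => hkl (Fin.ext (by
    have := orderOf_dvd_iff_zpow_eq_one.2 e
    rw [hz] at this
    have := Int.eq_zero_of_abs_lt_dvd this (abs_lt.2 ⟨by omega, by omega⟩)
    omega))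
  have a5 : ∀ g, P * U g = U g * P := fun g => by
    have : g ∈ Subgroup.normalClosure {z ^ d} :=
      (Subgroup.normalClosure_normal.eq_bot_or_eq_top.resolve_left fun e =>
        hzd (Subgroup.mem_bot.1 (e.le (Subgroup.subset_normalClosure (Set.mem_singleton _))))).ge (Subgroup.mem_top g)
    refine Subgroup.closure_induction (p := fun g _ => Commute P (U g)) (fun g hg => ?_) (by simp)
      (fun a b _ _ ha hb => map_mul U a b ▸ ha.mul_right hb) (fun a _ ha => ?_) this
    · obtain ⟨_, rfl, hc⟩ := Group.mem_conjugatesOfSet_iff.1 hg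
      obtain ⟨c, rfl⟩ := isConj_iff.1 hc
      exact (a4 c).symm
    · rw [← pow_orderOf_eq_one a |> fun h => inv_eq_of_mul_eq_one_right
        ((mul_pow_sub_one (orderOf_pos a).ne' a).trans h) |>.symm, map_pow]
      exact ha.pow_right _
  obtain ⟨s, hs⟩ := exists_smul_one U hχ P a5
  have a6 : s ≠ 0 := by
    rintro rfl
    have e1 : ∀ k : ℕ, Matrix.toLin' (y ^ k) (b i) = b i := fun k => by
      induction k with
      | zero => simp
      | succ k ih => rw [pow_succ, Matrix.toLin'_mul_apply, hyb, div_self (h0 i), one_zpow,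
          one_smul, ih]
    have := congrArg (fun T => Matrix.toLin' T (b i)) hs
    simp only [hP, map_smul, map_sum, LinearMap.smul_apply, LinearMap.sum_apply, e1, zero_smul,
      Finset.sum_const, Finset.card_range, ← Nat.cast_smul_eq_nsmul ℂ, inv_smul_smul₀ hp'] at this
    exact b.ne_zero i (by simpa using this)
  rw [hs, mul_smul_comm, mul_one, (smul_right_inj a6), hy,
    inv_smul_eq_iff₀ (zpow_ne_zero _ (h0 i))] at a1
  refine hzd (Subgroup.mem_bot.1 (hZ ▸ hχ.isCharacter.mem_charCenter.2 ?_))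
  simp [a1, hn]

end Cfsg.Agent.CH
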