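import Cfsg.Agent.CH.Ito2

/-! Weight spaces of an operator of finite order `e` (`Wt`, `pr`), and the commutative identity
bounding the large Jordan blocks of a tensor square (`pow_mul_pow_eq`). -/

namespace Cfsg.Agent.CH.Deg

open Module Finset Polynomial

section
variable {k W : Type*} [Field k] [AddCommGroup W] [Module k W] {α : k} {e : ℕ} {u : End k W}

/-- Weight space of weight `α ^ r`. -/
def Wt (u : End k W) (α : k) (r : ℕ) : Submodule k W := LinearMap.ker (u - α ^ r • 1)

theorem mem_Wt {r : ℕ} {w : W} : w ∈ Wt u α r ↔ u w = α ^ r • w := by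
  simp [Wt, sub_eq_zero]

/-- Projection to a weight space. -/
noncomputable def pr (u : End k W) (α : k) (e r : ℕ) : End k W :=
  (e : k)⁻¹ • ∑ j ∈ range e, ((α ^ r)⁻¹ ^ j) • u ^ j

theorem geom {β : k} (h : β ^ e = 1) [Decidable (β = 1)] :
    ∑ j ∈ range e, β ^ j = if β = 1 then (e : k) else 0 := by
  split_ifs with h1
  · simp [h1]
  · have := mul_neg_geom_sum β e
    rw [h, sub_self] at this
    exact (mul_eq_zero.1 this).resolve_left (sub_ne_zero.2 (Ne.symm h1))

theorem pow_eq_iff (hα : IsPrimitiveRoot α e) (he : 0 < e) {i j : ℕ} : α ^ i = α ^ j ↔ i % e = j % e := by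
  have h1 : ∀ i, α ^ i = α ^ (i % e) := fun i => by
    conv_lhs => rw [← Nat.div_add_mod i e, pow_add, pow_mul, hα.pow_eq_one, one_pow, one_mul]
  exact ⟨fun h => hα.pow_inj (Nat.mod_lt _ he) (Nat.mod_lt _ he) (by rw [← h1, ← h1, h]),
    fun h => by rw [h1 i, h1 j, h]⟩

theorem Wt_congr (hα : IsPrimitiveRoot α e) (he : 0 < e) {i j : ℕ} (h : i % e = j % e) :
    Wt u α i = Wt u α j := by
  rw [Wt, Wt, (pow_eq_iff hα he).2 h]

theorem pr_apply (hα : IsPrimitiveRoot α e) (he : (e : k) ≠ 0) (r : ℕ) {i : ℕ} {w : W}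
    (hw : w ∈ Wt u α i) : pr u α e r w = if i % e = r % e then w else 0 := by
  classical
  have he0 : 0 < e := Nat.pos_of_ne_zero fun h => he (by simp [h])
  have h0 : α ≠ 0 := hα.ne_zero he0.ne'
  have h1 : ∀ j, (u ^ j) w = (α ^ i) ^ j • w := fun j => by
    induction j with
    | zero => simp
    | succ j ih => rw [pow_succ', End.mul_apply, ih, map_smul, mem_Wt.1 hw, smul_smul, pow_succ]
  simp only [pr, LinearMap.smul_apply, LinearMap.sum_apply, h1, smul_smul, ← mul_pow, ← sum_smul]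
  rw [geom (by rw [mul_pow, inv_pow, ← pow_mul, ← pow_mul, mul_comm r, mul_comm i, pow_mul, pow_mul,
    hα.pow_eq_one]; simp)]
  simp only [inv_mul_eq_one₀ (pow_ne_zero r h0), @eq_comm _ (α ^ r), pow_eq_iff hα he0]
  split_ifs <;> simp [he]

theorem pr_mem (hα : IsPrimitiveRoot α e) (he : 0 < e) (hu : u ^ e = 1) (r : ℕ) (w : W) :
    pr u α e r w ∈ Wt u α r := by
  have h0 : α ^ r ≠ 0 := pow_ne_zero r (hα.ne_zero he.ne')
  refine Submodule.smul_mem _ _ (mem_Wt.2 ?_)
  have h1 := (sum_range_succ (fun j => (α ^ r)⁻¹ ^ j • (u ^ j) w) e).symm.trans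
    (sum_range_succ' (fun j => (α ^ r)⁻¹ ^ j • (u ^ j) w) e)
  rw [hu, inv_pow, ← pow_mul, mul_comm r, pow_mul, hα.pow_eq_one] at h1
  simp only [one_pow, inv_one, pow_zero, add_left_inj] at h1
  simp only [LinearMap.sum_apply, LinearMap.smul_apply]
  conv_rhs => rw [h1]
  rw [map_sum, smul_sum]
  refine sum_congr rfl fun j _ => ?_
  rw [map_smul, smul_smul, pow_succ' u, End.mul_apply, pow_succ', ← mul_assoc, mul_inv_cancel₀ h0, one_mul]

theorem sum_pr (hα : IsPrimitiveRoot α e) (he : (e : k) ≠ 0) (w : W) :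
    ∑ r ∈ range e, pr u α e r w = w := by
  classical
  have he0 : 0 < e := Nat.pos_of_ne_zero fun h => he (by simp [h])
  simp only [pr, LinearMap.smul_apply, LinearMap.sum_apply, ← smul_sum]
  rw [sum_comm, sum_eq_single 0 (fun j hj h0 => ?_) (by simp [he0.ne'])]
  · simp [← Nat.cast_smul_eq_nsmul k, smul_smul, he]
  · have h1 : ∀ i, (α ^ i)⁻¹ ^ j = (α⁻¹ ^ j) ^ i := fun i => by rw [← inv_pow, ← pow_mul, mul_comm, pow_mul]
    simp only [h1, ← sum_smul]
    rw [geom (by rw [← pow_mul, mul_comm, pow_mul, inv_pow, hα.pow_eq_one]; simp), if_neg, zero_smul]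
    rw [inv_pow, inv_eq_one]
    exact hα.pow_ne_one_of_pos_of_lt h0 (mem_range.1 hj)

theorem pr_mem_of_inv {S : Submodule k W} (hS : ∀ w ∈ S, u w ∈ S) (r : ℕ) {w : W} (hw : w ∈ S) :
    pr u α e r w ∈ S := by
  refine S.smul_mem _ ?_
  rw [LinearMap.sum_apply]
  refine S.sum_mem fun j _ => S.smul_mem _ ?_
  induction j with
  | zero => exact hw
  | succ j ih => rw [pow_succ', End.mul_apply]; exact hS _ (ih (by simp_all; omega))

theorem exists_wt (hα : IsPrimitiveRoot α e) (he : (e : k) ≠ 0) (hu : u ^ e = 1) {A S : Submodule k W}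
    (hA : ∀ w ∈ A, u w ∈ A) (h : ¬ A ≤ S) : ∃ r y, y ∈ Wt u α r ∧ y ∈ A ∧ y ∉ S := by
  have he0 : 0 < e := Nat.pos_of_ne_zero fun h => he (by simp [h])
  by_contra! h1
  refine h fun w hw => ?_
  rw [← sum_pr (u := u) hα he w]
  exact S.sum_mem fun r _ => h1 r _ (pr_mem hα he0 hu r w) (pr_mem_of_inv hA r hw)

theorem exists_compl [FiniteDimensional k W] (hα : IsPrimitiveRoot α e) (he : (e : k) ≠ 0) (hu : u ^ e = 1)
    (b : ℕ) (S : Submodule k W) (h : finrank k W ≤ finrank k S + b) :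
    ∃ (y : Fin b → W) (r : Fin b → ℕ), (∀ i, y i ∈ Wt u α (r i)) ∧ S ⊔ Submodule.span k (Set.range y) = ⊤ := by
  induction b generalizing S with
  | zero =>
    refine ⟨Fin.elim0, Fin.elim0, fun i => i.elim0, ?_⟩
    rw [Submodule.eq_top_of_finrank_eq (le_antisymm (Submodule.finrank_le S) h), top_sup_eq]
  | succ b ih =>
    by_cases hS : S = ⊤
    · exact ⟨0, 0, fun i => Submodule.zero_mem _, by rw [hS, top_sup_eq]⟩
    obtain ⟨r, y, h1, -, h2⟩ := exists_wt hα he hu (A := ⊤) (S := S) (fun _ _ => trivial) (by simpa using hS)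
    obtain ⟨y', r', h3, h4⟩ := ih (S ⊔ Submodule.span k {y}) (by
      have := Submodule.finrank_lt_finrank_of_lt (show S < S ⊔ Submodule.span k {y} from
        lt_of_le_of_ne le_sup_left fun e => h2 (e ▸ Submodule.mem_sup_right (Submodule.mem_span_singleton_self y)))
      omega)
    refine ⟨Fin.cons y y', Fin.cons r r', fun i => by induction i using Fin.cases <;> simp [h1, h3], ?_⟩
    rw [Fin.range_cons, Submodule.span_insert, ← sup_assoc, h4]

theorem finrank_le_sum [FiniteDimensional k W] (hα : IsPrimitiveRoot α e) (he : (e : k) ≠ 0) (hu : u ^ e = 1)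
    (q r : ℕ) : q * finrank k W ≤ ∑ j ∈ range (e * q), finrank k (Wt u α (r + j)) := by
  have he0 : 0 < e := Nat.pos_of_ne_zero fun h => he (by simp [h])
  have h1 : ∀ r, ∑ j ∈ range e, finrank k (Wt u α (r + j)) = ∑ j ∈ range e, finrank k (Wt u α j) := fun r => by
    induction r with
    | zero => exact sum_congr rfl fun j _ => by rw [zero_add]
    | succ r ih =>
      have h2 := (sum_range_succ (fun j => finrank k (Wt u α (r + j))) e).symm.trans
        (sum_range_succ' (fun j => finrank k (Wt u α (r + j))) e)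
      rw [Wt_congr hα he0 (Nat.add_mod_right r e), add_zero, add_left_inj] at h2
      rw [← ih, h2]
      exact sum_congr rfl fun j _ => by rw [add_assoc, add_comm 1]
  have h2 : finrank k W ≤ ∑ j ∈ range e, finrank k (Wt u α j) := by
    rw [sum_range, ← finrank_pi_fintype k]
    refine LinearMap.finrank_le_finrank_of_surjective
      (f := ∑ j : Fin e, (Wt u α j).subtype ∘ₗ LinearMap.proj j) fun w =>
      ⟨fun j => ⟨_, pr_mem hα he0 hu j w⟩, ?_⟩
    simpa [sum_range] using sum_pr (u := u) hα he w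
  induction q with
  | zero => simp
  | succ q ih =>
    rw [Nat.mul_succ, sum_range_add, add_mul, one_mul]
    have h3 := (sum_congr rfl fun j _ => by rw [add_assoc]).symm.trans (h1 (r + e * q))
    omega

theorem finrank_inf_le (hα : IsPrimitiveRoot α e) (he : (e : k) ≠ 0) {I : Type*} (f : I → W) (r : I → ℕ)
    (hf : ∀ i, f i ∈ Wt u α (r i)) {S : Submodule k W} (s : Finset I) (hS : S ≤ Submodule.span k (f '' s))
    (r₀ : ℕ) (s' : Finset I) (hs : ∀ i ∈ s, r i % e = r₀ % e → i ∈ s') :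
    finrank k ↥(Wt u α r₀ ⊓ S) ≤ #s' := by
  classical
  refine le_trans (Submodule.finrank_mono (t := Submodule.span k (s'.image f : Set W)) ?_)
    ((finrank_span_finset_le_card _).trans card_image_le)
  rintro w ⟨h1, h2⟩
  have h3 := pr_apply hα he r₀ h1
  rw [if_pos rfl] at h3
  rw [← h3]
  refine Submodule.mem_comap.1 ((Submodule.span_le (p := Submodule.comap (pr u α e r₀) _)).2 ?_ (hS h2))
  rintro _ ⟨i, hi, rfl⟩
  rw [SetLike.mem_coe, Submodule.mem_comap, pr_apply hα he r₀ (hf i)]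
  split_ifs with h4
  · exact Submodule.subset_span (by simpa using ⟨i, hs i hi h4, rfl⟩)
  · exact Submodule.zero_mem _

end

theorem ring_id {A : Type*} [CommRing A] {d e : ℕ} (he : e ≤ d) (hd : 2 * e ≤ d + 1) (Y g : A) :
    ∃ F r h, (Y + g) ^ d = Y ^ e * F + g ^ e * r ∧ Y ^ (d - e) - F = g * h := by
  obtain ⟨h, h5⟩ : g ∣ Y ^ (d - e) -
      ∑ i ∈ range (d - e + 1), Y ^ (e + i - e) * g ^ (d - (e + i)) * (d.choose (e + i) : A) := by
    rw [sum_range_succ, show e + (d - e) = d by omega, Nat.sub_self, pow_zero, Nat.choose_self, Nat.cast_one,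
      mul_one, mul_one, sub_add_cancel_right, dvd_neg]
    exact dvd_sum fun i hi => ((dvd_pow_self g (by have := mem_range.1 hi; omega)).mul_left _).mul_right _
  refine ⟨_, ∑ i ∈ range e, Y ^ i * g ^ (d - i - e) * (d.choose i : A), h, ?_, h5⟩
  rw [add_pow, show d + 1 = e + (d - e + 1) by omega, sum_range_add, add_comm, mul_sum, mul_sum]
  refine congrArg₂ (· + ·) (sum_congr rfl fun i _ => ?_) (sum_congr rfl fun i hi => ?_)
  · rw [← mul_assoc, ← mul_assoc, ← pow_add, Nat.add_sub_cancel_left]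
  · rw [← mul_assoc, mul_left_comm, ← pow_add, show e + (d - i - e) = d - i by have := mem_range.1 hi; omega]

theorem poly_id (k : Type*) [Field k] {p d e : ℕ} [hp : Fact p.Prime] [CharP k p] (hp' : d + e = p)
    (he : e ≤ d) (hd : 2 * e ≤ d + 1) : ∃ h₁ h₂ h₃ : k[X][X], C X ^ d * (X - C X) ^ (d - e) =
      X ^ d * h₁ + h₂ * (X - C X) ^ d + C X ^ (d + 1) * h₃ := by
  obtain ⟨F, r, h₃, h1, h5⟩ := ring_id he hd (X - C X : k[X][X]) (C X)
  have h2 : (X - C X : k[X][X]) ^ p = X ^ p - C X ^ p := sub_pow_char _ _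
  rw [sub_add_cancel] at h1
  rw [← hp', pow_add, pow_add, pow_add] at h2
  have h3 : X ^ d ∣ C (X ^ e) * (C X ^ d * F - r * (X - C X) ^ d) := ⟨X ^ e * F - (X - C X) ^ d, by
    rw [map_pow]
    linear_combination F * h2 + (X - C X) ^ d * h1⟩
  obtain ⟨h₁, h4⟩ : X ^ d ∣ C X ^ d * F - r * (X - C X) ^ d := by
    rw [X_pow_dvd_iff] at h3 ⊢
    intro j hj
    have := h3 j hj
    rwa [coeff_C_mul, mul_eq_zero, or_iff_right (pow_ne_zero _ X_ne_zero)] at this
  exact ⟨h₁, r, h₃, by linear_combination C X ^ d * h5 + h4⟩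

theorem pow_mul_pow_eq {k S : Type*} [Field k] [Ring S] [Algebra k S] {p d e : ℕ} [hp : Fact p.Prime]
    [CharP k p] (hp' : d + e = p) (he : e ≤ d) (hd : 2 * e ≤ d + 1) {Y g : S} (hc : Commute g Y) (h1 : Y ^ d = 0)
    (h2 : (Y + g) ^ d = 0) : ∃ h, g ^ d * Y ^ (d - e) = g ^ (d + 1) * h := by
  obtain ⟨h₁, h₂, h₃, h⟩ := poly_id k hp' he hd
  let f := eval₂RingHom' (aeval g : k[X] →ₐ[k] S).toRingHom (Y + g) fun a => by
    induction a using Polynomial.induction_on' with
    | add a b ha hb => rw [map_add]; exact ha.add_left hb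
    | monomial n c =>
      change Commute (aeval g (monomial n c)) _
      rw [aeval_monomial]
      exact (Algebra.commute_algebraMap_left c _).mul_left ((hc.add_right (Commute.refl g)).pow_left n)
  have hX : f X = Y + g := by simp [f, eval₂RingHom']
  have hC : f (C X) = g := by simp [f, eval₂RingHom']
  have h3 := congrArg f h
  simp only [map_mul, map_add, map_pow, map_sub, hX, hC, add_sub_cancel_right, h1, h2, zero_mul, mul_zero,
    zero_add] at h3
  exact ⟨_, h3⟩

end Cfsg.Agent.CH.Deg
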