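import Cfsg.Agent.CH.Deg9
import Cfsg.Agent.S4504

/-! Faithful characters of degree less than `p - 1` of groups with a non-normal Sylow subgroup of order `p`
(`low_degree`). -/

namespace Cfsg.Agent.CH.Deg

open Finset Cfsg.Agent.Small Cfsg.Agent.CH.Low Cfsg.Agent.Char Cfsg.Agent.CharDeep

variable {p : ℕ} [hp : Fact p.Prime] {G : Type*} [Group G] [Finite G] {x : G} {K : Subgroup G}

theorem low_degree (h : DefOne p x K) (hn : ¬ (Subgroup.zpowers x).Normal) (h7 : 7 < p) {ζ : G → ℂ}
    (hζ : IsIrrCharacter G ζ) (hf : ∀ g, ζ g = ζ 1 → g = 1) (hd : charDegree ζ + 1 < p) :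
    (Nonempty (G ⧸ Subgroup.center G ≃* Matrix.ProjectiveSpecialLinearGroup (Fin 2) (ZMod p)) ∧
      (2 * charDegree ζ = p + 1 ∨ 2 * charDegree ζ + 1 = p) ∧ E[h].index = 2) ∨
    (charDegree ζ + Nat.card E[h] = p ∧ 3 ≤ E[h].index ∧
      (Nat.card E[h] = 2 ∨ Nat.card E[h] + 3 ≤ E[h].index ∧ ¬ Odd (Nat.card (Subgroup.center G)))) := by
  have := Fintype.ofFinite K
  have := Fintype.ofFinite G
  have := Fintype.ofFinite (Subgroup.normalClosure {x})
  have hχ := hζ.isCharacter
  have hker : charKer ζ = ⊥ := eq_bot_iff.2 fun g hg => hf g (hχ.mem_charKer.1 hg)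
  have hE0 : 0 < Nat.card E[h] := Nat.card_pos
  have ht := index_mul_card_EE E[h]
  have h11 : 11 ≤ p := by
    by_contra! e
    have := hp.out
    interval_cases p <;> norm_num at this
  obtain ⟨θ, X, φ, δ, ε, a, s, ha, ⟨rfl, h6⟩ | ⟨rfl, h1, -, h2, h3, h4⟩⟩ := h.low_cases (χ := ⟨ζ, hζ⟩) hd
    fun e => ne_one h (hf x e)
  · obtain rfl : ζ = (φ a).1 := by rw [ha]
    obtain ⟨φ₀, h1, h2⟩ := h.exists_nonlinear hn hχ hf
    obtain ⟨K', h'⟩ := h.exists_defOne_subgroup (H := Subgroup.normalClosure {x}) (Subgroup.subset_normalClosure rfl)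
    have := Fintype.ofFinite K'
    have h3 := h'.le_two_mul_degree_of_gen h.eq_top_normalClosure h1
    obtain ⟨m, hm⟩ := (hχ.restrict _).exists_nat_classInner φ₀.2.isCharacter
    have h4 := apply_one_eq_mul_index _ hζ φ₀.2 h2
    rw [hm, hχ.apply_one_eq_charDegree, φ₀.2.apply_one_eq_charDegree] at h4
    have h5 : charDegree (φ a).1 = m * (inertia _ φ₀.1).index * charDegree φ₀.1 := by exact_mod_cast h4
    have h8 : charDegree (φ a).1 ≤ charDegree φ₀.1 := by
      generalize m * (inertia _ φ₀.1).index = c at h5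
      rcases le_or_gt c 1 with e | e
      · exact h5 ▸ (Nat.mul_le_mul_right _ e).trans (one_mul _).le
      · have := Nat.mul_le_mul_right (charDegree φ₀.1) e
        omega
    have hres : IsIrrCharacter _ fun g : Subgroup.normalClosure {x} => (φ a).1 g :=
      eq_of_constituent_of_re_le (hχ.restrict _) φ₀.2 h2 (by
        rw [OneMemClass.coe_one, hχ.apply_one_eq_charDegree, φ₀.2.apply_one_eq_charDegree]
        exact_mod_cast h8) ▸ φ₀.2
    have hE : Nat.card E[h] ≠ 1 := fun e => by
      have h7 := s.mem_charCenter_of_card a rfl h6 e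
      rw [hζ.charCenter_eq_center hker] at h7
      exact hn (h.normal_of_forall_mem_Nx fun g => mem_Nx_of_comm (Subgroup.mem_center_iff.1 h7 _).symm)
    obtain ⟨h9, h10, -⟩ := s.core a rfl h6 (by omega) hd fun β e1 e2 => by
      have h7 : IsIrrCharacter G β.1 ∧ ∀ n ∈ Subgroup.normalClosure {x}, β.1 n = β.1 1 := by
        have := β.2.isClassFunction.normal_charKer
        refine ⟨β.2, fun n hn => β.2.isCharacter.mem_charKer.1 (Subgroup.normalClosure_le_normal
          (N := charKer β.1) ?_ hn)⟩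
        rintro _ rfl
        exact β.2.isCharacter.mem_charKer.2 e2
      have h8 := gallagher_bijOn_one _ hχ hres
      rw [classInner_mul_left] at e1
      have h9 := hζ.eq_of_classInner_ne_zero (h8.mapsTo h7).1 (by
        convert e1 using 2
        ext g
        simp [mul_comm])
      exact Subtype.ext (h8.injOn h7 ⟨isIrrCharacter_one, fun _ _ => rfl⟩ (h9.symm.trans (by ext g; simp)))
    have h12 := s.degree_φ_of_fixd a rfl h6
    rw [h9, mul_one] at h12
    exact .inl ⟨S4504.result p hp.out h.dvd_card (h.not_sq_dvd hp.out.pos) (fun H _ e => hn (by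
      rwa [Subgroup.eq_of_le_of_card_ge (Subgroup.zpowers_le.2 (h.mem_of_dvd_card H e.symm.dvd))
        (by rw [e, Nat.card_zpowers, h.ord])])) _ hχ hf (by omega), .inr (by omega),
      Nat.eq_of_mul_eq_mul_right hE0 (by omega)⟩
  obtain rfl : ζ = (φ a).1 := by rw [ha]
  have hK : K ≤ Subgroup.center G := hζ.charCenter_eq_center hker ▸ le_charCenter s a rfl h2 h3
  obtain rfl : K = Subgroup.center G := le_antisymm hK (center_le h hn)
  rw [EE_eq hK] at h3 h4
  simp only at h1 h3
  rcases lt_or_ge E[h].index 3 with h5 | h5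
  · have h6 : E[h].index = 2 := by
      have := hp.out.eq_two_or_odd
      interval_cases E[h].index <;> omega
    rw [h6] at ht
    obtain ⟨⟨_, n, rfl⟩, h8⟩ := Subgroup.ne_bot_iff_exists_ne_one.1 (show E[h] ≠ ⊥ from fun e => by
      rw [e, Subgroup.card_bot] at ht; omega)
    obtain ⟨F, _, _, _, f, f1, f2⟩ := exists_pgl_of_half h hK h11 hζ (by omega) (n := n) fun e => h8 (Subtype.ext e)
    obtain ⟨h₁, hE', hO, hs⟩ := quot_center h hχ hf hd hn
    refine .inl ⟨psl_of_pgl h₁ (by omega) hO hs (by rw [hE']; omega) (QuotientGroup.lift _ f f2) ?_ (ZMod.card p),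
      .inl (by omega), h6⟩
    rw [← MonoidHom.ker_eq_bot_iff]
    exact Solv.eq_bot_of_pPrimeCore_eq_bot hO (hp.out.coprime_iff_not_dvd.2 fun e =>
      f1 (h₁.mem_of_dvd_card _ e)).symm
  have h6 := Nat.mul_le_mul_right (Nat.card E[h]) h5
  let θ' : IrrCharacter (Subgroup.center G) := ⟨θ.1 * θ.1, θ.2.mul_of_apply_one θ.2.isCharacter (apply_one hK θ)⟩
  obtain ⟨X', ξ, δ', ε, s'⟩ := h.exists_shape θ'
  have h8 := fun b e => s'.fixd_φ_pos b e
  simp only [inert_eq hK, EE_eq hK, deg_one hK, Subgroup.index_top, mul_one] at h8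
  refine .inr ⟨h3, h5, (core_neg hK s s' rfl h1 rfl (by omega) (by rw [mul_comm]; omega) h5 rfl h3 fun e => ?_).symm.imp_right
    fun ⟨e, h9⟩ => ⟨h9, fun ho => ?_⟩⟩
  · rcases s'.ε_sign with rfl | rfl
    · have h9 := h8 1 rfl
      have h10 := le_two_mul h hn hχ hf hd (ξ 1).2.isCharacter fun e' => by
        have := fixd_eq_of_apply_eq h.ord (ξ 1).2.isCharacter e'
        have := (ξ 1).2.charDegree_pos
        omega
      rw [e] at h9
      omega
    · have := s'.mult_φ_pos 1 rfl
      have h9 := s'.le_fixd_φ 1 rfl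
      rw [inert_eq hK, deg_one hK, Subgroup.index_top] at h9
      omega
  · obtain ⟨σ, hσ⟩ := exists_ringEquiv_pow (n := Nat.card (Subgroup.center G)) (m := 2) Nat.card_pos.ne'
      (Nat.coprime_two_left.2 ho)
    let χ : IrrCharacter G := ⟨_, hζ.map_ringHom σ.toRingHom⟩
    have h10 : χ.1 1 = charDegree (φ a).1 := by simp [χ, hζ.apply_one_eq_charDegree]
    have h12 := charDegree_eq_of_apply_one h10
    obtain ⟨ψ, hψ⟩ := h.exists_mem_blk (χ := χ) (h12 ▸ Nat.not_dvd_of_pos_of_lt hζ.charDegree_pos (by omega))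
    obtain rfl : ψ = θ' := Subtype.ext (funext fun y => mul_left_cancel₀ χ.2.apply_one_ne_zero (by
      obtain ⟨l, hl⟩ := θ.2.isCharacter.exists_hom_of_apply_one (apply_one hK θ)
      rw [← apply_central (h := h) hK hψ]
      simp only [χ, apply_central (h := h) hK (s.φ_mem a), map_mul, θ', Pi.mul_apply, ← pow_two]
      exact congrArg _ (hσ _ (by rw [hl, ← Units.val_pow_eq_pow_val, ← map_pow, pow_card_eq_one', map_one]; rfl))))
    rcases (s'.mem_blk χ).1 hψ with h13 | ⟨b, h13⟩
    · rcases s'.δ_sign χ h13 with h14 | h14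
      · have h15 := s'.fixd_X_pos h13 h14
        rw [inert_eq hK, deg_one hK, Subgroup.index_top, h12] at h15
        rcases le_or_gt (fixd p x χ.1) 1 with h16 | h16 <;> have := Nat.mul_le_mul_left p h16 <;> omega
      · have h15 := s'.fixd_X_neg h13 h14
        rw [inert_eq hK, deg_one hK, Subgroup.index_top, h12] at h15
        omega
    · have h15 := h8 b e
      rw [h13, h12] at h15
      rcases Nat.eq_zero_or_pos (fixd p x χ.1) with h16 | h16
      · rw [h16] at h15; omega
      · have := Nat.mul_le_mul_left p h16; omega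

end Cfsg.Agent.CH.Deg
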