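import Cfsg.Agent.CH.Deg1

/-! Modules with at most one non-free Jordan block have an equivariant Jordan basis (`exists_basis`); the number of
free summands of a `Hom` module (`hom_bound`). -/

namespace Cfsg.Agent.CH.Deg

open Module Finset Polynomial Cfsg.Agent.Small Cfsg.Agent.CH.Low

section
variable {k U : Type*} [Field k] [AddCommGroup U] [Module k U] {α : k} {e : ℕ} {u D : End k U}

theorem eq_top_of_sup {S : Submodule k U} {m : ℕ} (hD : D ^ m = 0) (hS : ∀ w ∈ S, D w ∈ S)
    (h : LinearMap.range D ⊔ S = ⊤) : S = ⊤ := by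
  have h1 : ∀ j w, ∃ v, w - (D ^ j) v ∈ S := fun j => by
    induction j with
    | zero => exact fun w => ⟨w, by simp⟩
    | succ j ih =>
      intro w
      obtain ⟨_, ⟨a, rfl⟩, s, hs, rfl⟩ := Submodule.mem_sup.1 (h.ge (Submodule.mem_top (x := w)))
      obtain ⟨v, hv⟩ := ih a
      refine ⟨v, ?_⟩
      convert S.add_mem (hS _ hv) hs using 1
      rw [map_sub, pow_succ', End.mul_apply]; abel
  exact eq_top_iff.2 fun w _ => by obtain ⟨v, hv⟩ := h1 m w; simpa [hD] using hv

theorem Wt_pow (h : u * D = α • (D * u)) {r : ℕ} {w : U} (hw : w ∈ Wt u α r) (j : ℕ) :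
    (D ^ j) w ∈ Wt u α (r + j) := by
  induction j with
  | zero => exact hw
  | succ j ih =>
    rw [mem_Wt, pow_succ', End.mul_apply, ← End.mul_apply u, h, LinearMap.smul_apply, End.mul_apply, mem_Wt.1 ih,
      map_smul, smul_smul, ← add_assoc, pow_succ']

theorem exists_basis [FiniteDimensional k U] (hα : IsPrimitiveRoot α e) (he : (e : k) ≠ 0) (hu : u ^ e = 1)
    (h : u * D = α • (D * u)) {p b l : ℕ} (hD : D ^ p = 0) (hl : 0 < l) (hl' : l < p)
    (hn : finrank k U = b * p + l)
    (hT : finrank k (LinearMap.ker D) ≤ finrank k (LinearMap.range (D ^ (p - 1))) + 1) :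
    ∃ (y : Fin b → U) (r : Fin b → ℕ) (z : U) (r₀ : ℕ) (B : Basis ((Fin b × Fin p) ⊕ Fin l) k U),
      (∀ i, y i ∈ Wt u α (r i)) ∧ z ∈ Wt u α r₀ ∧ (D ^ l) z = 0 ∧
      (∀ i j, B (.inl (i, j)) = (D ^ (j : ℕ)) (y i)) ∧ ∀ j, B (.inr j) = (D ^ (j : ℕ)) z := by
  classical
  have he0 : 0 < e := Nat.pos_of_ne_zero fun h => he (by simp [h])
  let R : ℕ → ℕ := fun j => finrank k (LinearMap.range (D ^ j))
  let s : ℕ → ℕ := fun j => finrank k ↥(LinearMap.ker D ⊓ LinearMap.range (D ^ j))
  have h1 : ∀ j, R (j + 1) + s j = R j := rk_step D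
  have h2 : ∀ i j, i ≤ j → s j ≤ s i := fun i j hij => Submodule.finrank_mono (inf_le_inf_left _ (by
    obtain ⟨c, rfl⟩ := Nat.exists_eq_add_of_le hij
    rw [pow_add]; exact LinearMap.range_comp_le_range _ _))
  have h3 : s 0 = finrank k (LinearMap.ker D) := by
    simp only [s]; rw [pow_zero, End.one_eq_id, LinearMap.range_id, inf_top_eq]
  have h4 : R 0 = finrank k U := by
    simp only [R]; rw [pow_zero, End.one_eq_id, LinearMap.range_id, finrank_top]
  have h5 : R p = 0 := by simp only [R]; rw [hD, LinearMap.range_zero, finrank_bot]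
  have h6 : s (p - 1) = R (p - 1) := by
    have := h1 (p - 1); rw [Nat.sub_add_cancel (by omega), h5] at this; omega
  have hex : ∃ j, s j ≤ R (p - 1) := ⟨_, h6.le⟩
  have h7 : Nat.find hex ≤ p - 1 := Nat.find_min' hex h6.le
  have h8 : ∀ j ≤ p, R 0 = R j + j * R (p - 1) + min j (Nat.find hex) := fun j hj => by
    induction j with
    | zero => simp
    | succ j ih =>
      have e1 := h2 j (p - 1) (by omega)
      have e2 := h2 0 j (by omega)
      have e3 := h1 j
      rw [ih (by omega), add_mul]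
      rcases lt_or_ge j (Nat.find hex) with e | e
      · have := Nat.find_min hex e
        change finrank k _ ≤ R (p - 1) + 1 at hT
        omega
      · have := (h2 _ _ e).trans (Nat.find_spec hex)
        omega
  have h9 := h8 p le_rfl
  rw [h4, hn, h5, zero_add, min_eq_right (by omega), mul_comm b] at h9
  have h10 : b = R (p - 1) := by
    have := congrArg (· / p) h9
    simpa [Nat.mul_add_div (show p > 0 by omega), Nat.div_eq_of_lt hl',
      Nat.div_eq_of_lt (show Nat.find hex < p by omega)] using this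
  have h11 : l = Nat.find hex := by rw [h10] at h9; omega
  have h12 : s l < s 0 := (h11 ▸ Nat.find_spec hex).trans_lt (lt_of_not_ge (Nat.find_min hex (h11 ▸ hl)))
  obtain ⟨r₀, z, hz1, hz2, hz3⟩ := exists_wt hα he hu (A := LinearMap.ker (D ^ l)) (S := LinearMap.range D)
    (fun w hw => by
      have e1 : ∀ j, u * D ^ j = α ^ j • (D ^ j * u) := fun j => by
        induction j with
        | zero => simp
        | succ j ih => rw [pow_succ, ← mul_assoc, ih, smul_mul_assoc, mul_assoc, h, mul_smul_comm, smul_smul,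
            ← mul_assoc, pow_succ]
      have e2 := congrArg (· w) (e1 l)
      simp only [End.mul_apply, LinearMap.mem_ker.1 hw, map_zero, LinearMap.smul_apply] at e2
      exact (smul_eq_zero.1 e2.symm).resolve_left (pow_ne_zero _ (hα.ne_zero he0.ne')))
    (fun hle => h12.ne (by
      rw [h3]
      refine congrArg (fun S : Submodule k U => finrank k S) (inf_eq_left.2 fun v hv => ?_)
      have e1 : ∀ i ≤ l, v ∈ LinearMap.range (D ^ i) := fun i hi => by
        induction i with
        | zero => exact ⟨v, rfl⟩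
        | succ i ih =>
          obtain ⟨w, rfl⟩ := ih (by omega)
          obtain ⟨w, rfl⟩ := hle (show w ∈ LinearMap.ker (D ^ l) by
            obtain ⟨c, rfl⟩ := Nat.exists_eq_add_of_le' hi
            rw [LinearMap.mem_ker, pow_add, pow_succ', End.mul_apply, End.mul_apply, LinearMap.mem_ker.1 hv, map_zero])
          exact ⟨w, by rw [pow_succ, End.mul_apply]⟩
      exact e1 l le_rfl))
  obtain ⟨y, r, hy, hS⟩ := exists_compl hα he hu b (LinearMap.range D ⊔ Submodule.span k {z}) (by
    have e1 := Submodule.finrank_lt_finrank_of_lt (show LinearMap.range D < LinearMap.range D ⊔ Submodule.span k {z}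
      from lt_of_le_of_ne le_sup_left fun e => hz3 (e ▸ Submodule.mem_sup_right (Submodule.mem_span_singleton_self z)))
    have := D.finrank_range_add_finrank_ker
    change finrank k _ ≤ R (p - 1) + 1 at hT
    omega)
  let f : (Fin b × Fin p) ⊕ Fin l → U := Sum.elim (fun i => (D ^ (i.2 : ℕ)) (y i.1)) fun j => (D ^ (j : ℕ)) z
  have hf : Submodule.span k (Set.range f) = ⊤ := by
    refine eq_top_of_sup hD (fun w hw => ?_) (eq_top_iff.2 (hS.ge.trans ?_))
    · refine Submodule.mem_comap.1 ((Submodule.span_le (p := Submodule.comap D _)).2 ?_ hw)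
      rintro _ ⟨⟨i, j⟩ | j, rfl⟩
      · change D ((D ^ (j : ℕ)) (y i)) ∈ Submodule.span k (Set.range f)
        rw [← End.mul_apply, ← pow_succ']
        rcases (Nat.succ_le_of_lt j.2).eq_or_lt with e | e
        · rw [Nat.succ_eq_add_one] at e; rw [e, hD]; exact Submodule.zero_mem _
        · exact Submodule.subset_span ⟨.inl (i, ⟨_, e⟩), rfl⟩
      · change D ((D ^ (j : ℕ)) z) ∈ Submodule.span k (Set.range f)
        rw [← End.mul_apply, ← pow_succ']
        rcases (Nat.succ_le_of_lt j.2).eq_or_lt with e | e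
        · rw [Nat.succ_eq_add_one] at e; rw [e, LinearMap.mem_ker.1 hz2]; exact Submodule.zero_mem _
        · exact Submodule.subset_span ⟨.inr ⟨_, e⟩, rfl⟩
    · rw [sup_assoc]
      refine sup_le_sup_left (sup_le (Submodule.span_mono ?_) (Submodule.span_mono ?_)) _
      · rintro _ rfl; exact ⟨.inr ⟨0, hl⟩, rfl⟩
      · rintro _ ⟨i, rfl⟩; exact ⟨.inl (i, ⟨0, by omega⟩), rfl⟩
  exact ⟨y, r, z, r₀, basisOfTopLeSpanOfCardEqFinrank f hf.ge (by simp [hn]), hy, hz1, hz2,
    fun i j => by simp [f], fun j => by simp [f]⟩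

end

variable {k U W G : Type*} [Field k] [AddCommGroup U] [Module k U] [AddCommGroup W] [Module k W] [Group G]
  {p : ℕ} [hp : Fact p.Prime] [CharP k p] {x : G}

/-- An eigenvector for the normalizer generating the augmentation ideal. -/
noncomputable def DD (p : ℕ) [Fact p.Prime] [CharP k p] (σ : Representation k G U) (x : G) : End k U :=
  -∑ s : ZMod p, ZMod.castHom dvd_rfl k s⁻¹ • σ (xp x s)

theorem mul_DD (σ : Representation k G U) {n : G} {a : (ZMod p)ˣ} 
    (h : ∀ j : ZMod p, n * xp x j * n⁻¹ = xp x ((a : ZMod p) * j)) :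
    σ n * DD p σ x = ZMod.castHom dvd_rfl k (a : ZMod p) • (DD p σ x * σ n) := by
  rw [DD, mul_neg, neg_mul, smul_neg, neg_inj, mul_sum, sum_mul, smul_sum]
  refine Fintype.sum_equiv (Units.mulLeft a) _ _ fun s => ?_
  rw [mul_smul_comm, smul_mul_assoc, smul_smul, ← map_mul, ← map_mul, ← map_mul, Units.mulLeft_apply, ← h, mul_inv,
    ← mul_assoc, mul_inv_cancel₀ a.ne_zero, one_mul, inv_mul_cancel_right]

theorem comp_DD {σ : Representation k G U} {π : Representation k G W} {f : U →ₗ[k] W}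
    (h : ∀ w, f (σ x w) = π x (f w)) (j : ℕ) (w : U) : f ((DD p σ x ^ j) w) = (DD p π x ^ j) (f w) := by
  have h1 : ∀ (j : ℕ) w, f (σ (x ^ j) w) = π (x ^ j) (f w) := fun j => by
    induction j with
    | zero => simp
    | succ j ih => intro w; rw [pow_succ, map_mul, map_mul, End.mul_apply, End.mul_apply, ih, h]
  have h2 : ∀ w, f (DD p σ x w) = DD p π x (f w) := fun w => by
    simp only [DD, LinearMap.neg_apply, LinearMap.sum_apply, LinearMap.smul_apply, xp, map_neg, map_sum, map_smul, h1]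
  induction j with
  | zero => simp
  | succ j ih => rw [pow_succ', pow_succ', End.mul_apply, End.mul_apply, ← ih, h2]

theorem exists_DD [Finite G] (h2 : 2 < p) (hx : orderOf x = p) (σ : Representation k G U) :
    ∃ w : k[X], w.coeff 0 = 1 ∧ IsUnit (aeval (σ x - 1) w) ∧ DD p σ x = (σ x - 1) * aeval (σ x - 1) w := by
  classical
  let c : ZMod p →+* k := ZMod.castHom dvd_rfl k
  let l : k[X] := ∑ s : ZMod p, C (c s⁻¹) * (1 + X) ^ s.val
  have hl0 : l.coeff 0 = 0 := by
    simp only [l, finsetSum_coeff, coeff_C_mul, coeff_one_add_X_pow, Nat.choose_zero_right,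
      Nat.cast_one, mul_one]
    rw [← map_sum, Fintype.sum_equiv (Equiv.inv _) _ (fun s => s ^ 1) (by simp),
      FiniteField.sum_pow_lt_card_sub_one _ _ (by rw [ZMod.card]; omega), map_zero]
  have hl1 : l.coeff 1 = -1 := by
    simp only [l, finsetSum_coeff, coeff_C_mul, coeff_one_add_X_pow, Nat.choose_one_right]
    rw [Finset.sum_congr rfl (g := fun s => 1 - if s = 0 then 1 else 0) fun s _ => ?_]
    · simp
    · rw [← map_natCast c, ZMod.natCast_zmod_val, ← map_mul]
      split_ifs with h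
      · simp [h]
      · simp [h]
  have hl : l = X * l.divX := by simpa [hl0] using (X_mul_divX_add l).symm
  have hL : aeval (σ x - 1) l = ∑ s : ZMod p, c s⁻¹ • σ (xp x s) := by
    simp only [l, map_sum, map_mul, map_pow, map_add, map_one, aeval_X, aeval_C, add_sub_cancel, xp,
      Algebra.smul_def]
  have h0 : (-l.divX).coeff 0 = 1 := by simp [coeff_divX, hl1]
  refine ⟨-l.divX, h0, ?_, by
    rw [DD, ← hL, map_neg, mul_neg, neg_inj]; conv_lhs => rw [hl, map_mul, aeval_X]⟩
  rw [← X_mul_divX_add (-l.divX), h0, map_add, map_mul, aeval_X, aeval_C, map_one]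
  have hc : Commute (σ x - 1) (aeval (σ x - 1) (-l.divX).divX) := by
    simpa only [aeval_X] using (Commute.all X (-l.divX).divX).map (aeval (σ x - 1))
  exact IsNilpotent.isUnit_add_one (hc.isNilpotent_mul_right ⟨p, pow_char_zero σ hx⟩)

theorem DD_pow [Finite G] (h2 : 2 < p) (hx : orderOf x = p) (σ : Representation k G U) (j : ℕ) :
    LinearMap.range (DD p σ x ^ j) = LinearMap.range ((σ x - 1) ^ j) ∧
      LinearMap.ker (DD p σ x ^ j) = LinearMap.ker ((σ x - 1) ^ j) := by
  obtain ⟨w, -, h1, h3⟩ := exists_DD h2 hx σ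
  have hc : Commute (σ x - 1) (aeval (σ x - 1) w) := by simpa using (Commute.all X w).map (aeval (σ x - 1))
  have h4 := (Module.End.isUnit_iff _).1 (h1.pow j)
  rw [h3, hc.mul_pow]
  exact ⟨LinearMap.range_comp_of_range_eq_top _ (LinearMap.range_eq_top.2 h4.2), by
    rw [(hc.pow_pow j j).eq]; exact LinearMap.ker_comp_of_ker_eq_bot _ (LinearMap.ker_eq_bot.2 h4.1)⟩

/-- Intertwiners of `u` and `u'`. -/
def Fx (u : End k U) (u' : End k W) : Submodule k (U →ₗ[k] W) :=
  LinearMap.eqLocus (LinearMap.lcomp k W u) (LinearMap.llcomp k U W W u')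

omit hp [CharP k p] in
theorem mem_Fx {u : End k U} {u' : End k W} {f : U →ₗ[k] W} : f ∈ Fx u u' ↔ ∀ w, f (u w) = u' (f w) :=
  LinearMap.ext_iff

omit hp [CharP k p] in
theorem norm_apply (σ : Representation k G U) (π : Representation k G W) {l : ℕ} {z : U}
    (hz : ((σ x - 1) ^ l) z = 0) (f : U →ₗ[k] W) :
    ((σ.linHom π x - 1) ^ (p - 1)) f z ∈ LinearMap.range ((π x - 1) ^ (p - l)) := by
  let L : End k (U →ₗ[k] W) := LinearMap.llcomp k U W W (π x - 1)
  let R : End k (U →ₗ[k] W) := LinearMap.lcomp k W (σ x⁻¹)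
  have h1 : σ.linHom π x - 1 = L * R + (R - 1) := by ext; simp [L, R]
  have h2 : Commute L R := by ext; simp [L, R]
  have h3 : Commute (L * R) (R - 1) := (h2.mul_left (Commute.refl R)).sub_right (Commute.one_right _)
  have h4 : ∀ (j : ℕ) g w, (L ^ j) g w = ((π x - 1) ^ j) (g w) := fun j => by
    induction j with
    | zero => simp
    | succ j ih => intro g w; rw [pow_succ, pow_succ, End.mul_apply, ih]; rfl
  have h5 : ∀ (j : ℕ) g w, ((R - 1) ^ j) g w = g (((σ x⁻¹ - 1) ^ j) w) := fun j => by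
    induction j with
    | zero => simp
    | succ j ih => intro g w; rw [pow_succ, pow_succ', End.mul_apply, ih]; simp [R]
  rw [h1, h3.add_pow, LinearMap.sum_apply, LinearMap.sum_apply]
  refine Submodule.sum_mem _ fun j hj => ?_
  rcases le_or_gt (p - l) j with h | h
  · obtain ⟨c, rfl⟩ := Nat.exists_eq_add_of_le h
    rw [h2.mul_pow, mul_assoc, mul_assoc, End.mul_apply, h4, pow_add]
    exact ⟨_, rfl⟩
  · have hc : Commute (σ x⁻¹) (σ x - 1) := (((Commute.refl x).inv_left).map σ).sub_right (Commute.one_right _)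
    obtain ⟨c, hc'⟩ := Nat.exists_eq_add_of_le' (show l ≤ p - 1 - j by omega)
    rw [(h3.pow_pow _ _).eq, mul_assoc, End.mul_apply, h5, show σ x⁻¹ - 1 = -σ x⁻¹ * (σ x - 1) by
      rw [neg_mul, mul_sub, ← map_mul]; simp, hc.neg_left.mul_pow, End.mul_apply, hc', pow_add (σ x - 1),
      End.mul_apply, End.mul_apply, hz]
    simp

theorem hom_bound [Finite G] [FiniteDimensional k U] [FiniteDimensional k W] (h2 : 2 < p) (hx : orderOf x = p)
    (σ : Representation k G U) (π : Representation k G W) {α : k} {e t : ℕ} (hα : IsPrimitiveRoot α e)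
    (ht : e * t + 1 = p) {u : End k U} {u' : End k W} (hu : u ^ e = 1) (hu' : u' ^ e = 1)
    (h : u * DD p σ x = α • (DD p σ x * u)) {b l : ℕ} (hl : 0 < l) (hl' : l < p) (hn : finrank k U = b * p + l)
    (hT : finrank k (LinearMap.ker (σ x - 1)) ≤ finrank k (LinearMap.range ((σ x - 1) ^ (p - 1))) + 1) :
    ∃ r, finrank k ↥(LinearMap.range ((σ.linHom π x - 1) ^ (p - 1)) ⊓ Fx u u') + b * (t * finrank k W) +
      ∑ j ∈ range l, finrank k (Wt u' α (r + j)) ≤
      finrank k (Fx u u') + finrank k ↥(Wt u' α r ⊓ LinearMap.range ((π x - 1) ^ (p - l))) := by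
  have he : (e : k) ≠ 0 := fun h0 => by
    have := congrArg (Nat.cast (R := k)) ht
    simp [h0] at this
  obtain ⟨y, r, z, r₀, B, hy, hz, hz', hB, hB'⟩ := exists_basis hα he hu h (p := p) (LinearMap.range_eq_bot.1 (by
    rw [(DD_pow h2 hx σ p).1, pow_char_zero σ hx, LinearMap.range_zero])) hl hl' hn (by
    rwa [(DD_pow h2 hx σ _).1, ← pow_one (DD p σ x), (DD_pow h2 hx σ _).2, pow_one])
  let w : (Fin b × Fin p) ⊕ Fin l → ℕ := Sum.elim (fun i => r i.1 + i.2) fun j => r₀ + j
  have hw : ∀ s, B s ∈ Wt u α (w s) := by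
    rintro (⟨i, j⟩ | j)
    · rw [hB]; exact Wt_pow h (hy i) j
    · rw [hB']; exact Wt_pow h hz j
  have h1 : ∑ s, finrank k (Wt u' α (w s)) ≤ finrank k (Fx u u') := by
    rw [← finrank_pi_fintype k]
    refine LinearMap.finrank_le_finrank_of_injective (f := LinearMap.codRestrict _
      ((B.constr k).toLinearMap ∘ₗ LinearMap.pi fun s => (Wt u' α (w s)).subtype ∘ₗ LinearMap.proj s) fun a =>
      B.ext fun s => ?_) fun a a' e => funext fun s => Subtype.ext ?_
    · simp [mem_Wt.1 (hw s), mem_Wt.1 (a s).2]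
    · exact (B.constr_basis k (fun s => (a s).1) s).symm.trans ((congrArg (fun f : Fx u u' => f.1 (B s)) e).trans
        (B.constr_basis k (fun s => (a' s).1) s))
  have hF : ∀ (f : Fx u u') {i w}, w ∈ Wt u α i → f.1 w ∈ Wt u' α i := fun f i w hw => by
    rw [mem_Wt, ← mem_Fx.1 f.2, mem_Wt.1 hw, map_smul]
  let S := LinearMap.range ((σ.linHom π x - 1) ^ (p - 1)) ⊓ Fx u u'
  have h3 : finrank k S ≤ ∑ i, finrank k (Wt u' α (r i)) +
      finrank k ↥(Wt u' α r₀ ⊓ LinearMap.range ((π x - 1) ^ (p - l))) := by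
    rw [← finrank_pi_fintype k, ← finrank_prod]
    refine LinearMap.finrank_le_finrank_of_injective (f := LinearMap.prod
      (LinearMap.pi fun i => LinearMap.codRestrict _ (LinearMap.applyₗ (y i) ∘ₗ S.subtype) fun f =>
        hF ⟨f.1, f.2.2⟩ (hy i))
      (LinearMap.codRestrict _ (LinearMap.applyₗ z ∘ₗ S.subtype) fun f => ⟨hF ⟨f.1, f.2.2⟩ hz, by
        obtain ⟨f, ⟨g, rfl⟩, -⟩ := f
        exact norm_apply σ π (by rwa [← LinearMap.mem_ker, ← (DD_pow h2 hx σ _).2]) g⟩))
      ((injective_iff_map_eq_zero _).2 fun f hf => Subtype.ext (B.ext fun s => ?_))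
    have e1 : ∀ i, f.1 (y i) = 0 := fun i => congrArg (fun a => (a.1 i).1) hf
    have e2 : f.1 z = 0 := congrArg (fun a => a.2.1) hf
    have e3 : ∀ w, f.1 (σ x w) = π x (f.1 w) := fun w => by
      obtain ⟨f, ⟨g, rfl⟩, -⟩ := f
      have e4 := congrArg (fun F => F g (σ x w)) (pow_char_zero (σ.linHom π) hx)
      rw [← Nat.sub_add_cancel hp.out.pos, pow_succ'] at e4
      exact (sub_eq_zero.1 (by simpa [← End.mul_apply (σ x⁻¹), ← map_mul] using e4)).symm
    rcases s with ⟨i, j⟩ | j
    · rw [hB, comp_DD e3, e1]; simp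
    · rw [hB', comp_DD e3, e2]; simp
  have h4 : ∀ i, finrank k (Wt u' α (r i)) + t * finrank k W ≤ ∑ j : Fin p, finrank k (Wt u' α (r i + j)) :=
    fun i => by
    have e1 := finrank_le_sum hα he hu' t (r i + 1)
    rw [← sum_range fun j => finrank k (Wt u' α (r i + j)), ← ht, sum_range_succ', add_comm]
    exact add_le_add (e1.trans (sum_congr rfl fun j _ => by rw [add_assoc, add_comm 1]).le) le_rfl
  refine ⟨r₀, ?_⟩
  have h5 := sum_le_sum fun i (_ : i ∈ univ) => h4 i
  rw [Fintype.sum_sum_type, Fintype.sum_prod_type] at h1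
  rw [sum_add_distrib, sum_const, card_univ, Fintype.card_fin, smul_eq_mul] at h5
  rw [sum_range fun j => finrank k (Wt u' α (r₀ + j))]
  change finrank k S + _ + _ ≤ _
  change ∑ i : Fin b, ∑ j : Fin p, finrank k (Wt u' α (r i + j)) + ∑ j : Fin l, finrank k (Wt u' α (r₀ + j)) ≤ _ at h1
  omega

end Cfsg.Agent.CH.Deg
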