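import Cfsg.Agent.CH.Deg2

/-! The tensor square of a single Jordan block of size `p - e` (`bound_pos`, `bound_neg`) and the resulting bound for
the free part of `Hom (U, V ⊗ V)` (`mod_bound`). -/

namespace Cfsg.Agent.CH.Deg

open Module Finset Polynomial Cfsg.Agent.Small Cfsg.Agent.CH.Low TensorProduct

variable {k U V G : Type*} [Field k] [AddCommGroup U] [Module k U] [AddCommGroup V] [Module k V] [Group G]
  {p : ℕ} [hp : Fact p.Prime] [CharP k p] {x : G} {α : k} {e d : ℕ} {u : End k V}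

theorem DD_mem (σ : Representation k G U) {S : Submodule k U} (h : ∀ w ∈ S, σ x w ∈ S) {w : U} (hw : w ∈ S) :
    DD p σ x w ∈ S := by
  have h1 : ∀ j : ℕ, σ (x ^ j) w ∈ S := fun j => by
    induction j with
    | zero => simpa using hw
    | succ j ih => rw [pow_succ', map_mul]; exact h _ ih
  simp only [DD, LinearMap.neg_apply, LinearMap.sum_apply, LinearMap.smul_apply]
  exact S.neg_mem (S.sum_mem fun s _ => S.smul_mem _ (h1 _))

theorem smul_mul_DD {n : G} {a : (ZMod p)ˣ} (hn : ∀ j : ZMod p, n * xp x j * n⁻¹ = xp x ((a : ZMod p) * j))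
    (τ : Representation k G U) (c : k) :
    (c • τ n) * DD p τ x = ZMod.castHom dvd_rfl k (a : ZMod p) • (DD p τ x * (c • τ n)) := by
  rw [smul_mul_assoc, mul_DD τ hn, mul_smul_comm, smul_comm]

omit hp [CharP k p] in
theorem tmul_mem_Wt {i j : ℕ} {a b : V} (ha : a ∈ Wt u α i) (hb : b ∈ Wt u α j) :
    a ⊗ₜ[k] b ∈ Wt (map u u) α (i + j) := by
  rw [mem_Wt, map_tmul, mem_Wt.1 ha, mem_Wt.1 hb, smul_tmul_smul, pow_add]

variable [Finite G] (h2 : 2 < p) (hx : orderOf x = p) (ρ : Representation k G V) (hα : IsPrimitiveRoot α e)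
  (he : (e : k) ≠ 0) (hu : u * DD p ρ x = α • (DD p ρ x * u))
  (hu' : map u u * DD p (ρ.tprod ρ) x = α • (DD p (ρ.tprod ρ) x * map u u)) {z : V} {r₀ : ℕ} (hz : z ∈ Wt u α r₀)
  (B : Basis (Fin d) k V) (hB : ∀ j, B j = (DD p ρ x ^ (j : ℕ)) z) (hD : (DD p ρ x ^ d) z = 0)
include h2 hx hα he hu hu' hz hB hD

theorem bound_pos (hd : d + e = p) (he' : e ≤ d) (hd' : 2 * e ≤ d + 1) (r : ℕ) :
    finrank k ↥(Wt (map u u) α r ⊓ LinearMap.range ((ρ.tprod ρ x - 1) ^ d)) ≤ d - e := by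
  classical
  set Δ := DD p (ρ.tprod ρ) x
  set D := DD p ρ x
  have hT : (ρ x - 1) ^ d = 0 := LinearMap.range_eq_bot.1 (by
    rw [← (DD_pow h2 hx ρ d).1, LinearMap.range_eq_bot]
    exact B.ext fun j => by rw [hB, ← End.mul_apply, ← pow_add, add_comm, pow_add, End.mul_apply, hD]; simp)
  let S := LinearMap.range ((TensorProduct.mk k V V).flip z) ⊔ LinearMap.range (ρ.tprod ρ x - 1)
  have h1 : ∀ w, w ∈ S := by
    let A : Submodule k V := ⨅ a, S.comap (TensorProduct.mk k V V a)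
    have hA : ∀ b, b ∈ A ↔ ∀ a, a ⊗ₜ[k] b ∈ S := fun b => Submodule.mem_iInf _
    have e1 : ∀ j, (D ^ j) z ∈ A := fun j => by
      induction j with
      | zero => exact (hA _).2 fun a => Submodule.mem_sup_left ⟨a, rfl⟩
      | succ j ih =>
        rw [pow_succ', End.mul_apply]
        refine DD_mem ρ (fun b hb => (hA _).2 fun a => ?_) ih
        convert S.add_mem ((hA _).1 hb (ρ x⁻¹ a)) (Submodule.mem_sup_right ⟨ρ x⁻¹ a ⊗ₜ b, rfl⟩) using 1
        simp
    have e2 : A = ⊤ := eq_top_iff.2 (B.span_eq.ge.trans (Submodule.span_le.2 (by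
      rintro _ ⟨j, rfl⟩; rw [hB]; exact e1 j)))
    intro w
    induction w with
    | zero => exact S.zero_mem
    | tmul a b => exact (hA b).1 (e2.ge trivial) a
    | add a b ha hb => exact S.add_mem ha hb
  obtain ⟨g, hg⟩ := pow_mul_pow_eq (k := k) hd he' hd' (Y := LinearMap.rTensor V (ρ x - 1))
    (g := -(ρ.tprod ρ x - 1)) (by ext; simp [sub_tmul, tmul_sub]; abel) (by rw [LinearMap.rTensor_pow, hT]; simp) (by
      have e1 : LinearMap.rTensor V (ρ x - 1) + -(ρ.tprod ρ x - 1) = map (ρ x) (-(ρ x - 1)) := by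
        ext; simp [sub_tmul, tmul_sub]
      rw [e1, TensorProduct.map_pow, neg_pow, hT]; simp)
  obtain ⟨q, -, -, hq : Δ = _⟩ := exists_DD h2 hx (ρ.tprod ρ)
  have hc : Commute (ρ.tprod ρ x - 1) (aeval (ρ.tprod ρ x - 1) q) := by
    simpa only [aeval_X] using (Commute.all X q).map (aeval (ρ.tprod ρ x - 1))
  let f : ℕ × ℕ → V ⊗[k] V := fun i => (Δ ^ (d + i.1)) ((D ^ i.2) z ⊗ₜ z)
  have h3 : ∀ j i, i + j = e → LinearMap.range (Δ ^ (d + i)) ≤
      Submodule.span k (f '' (range e ×ˢ range (d - e) : Finset (ℕ × ℕ))) := fun j => by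
    induction j with
    | zero =>
      intro i hi
      rw [(DD_pow h2 hx _ _).1, show d + i = p by omega, pow_char_zero _ hx, LinearMap.range_zero]
      exact bot_le
    | succ j ih =>
      rintro i hi _ ⟨w, rfl⟩
      have e1 := ih (i + 1) (by omega)
      rw [(DD_pow h2 hx _ _).1] at e1
      have e2 : Δ ^ (d + i) = (ρ.tprod ρ x - 1) ^ i * (aeval (ρ.tprod ρ x - 1) q ^ (d + i) *
          (ρ.tprod ρ x - 1) ^ d) := by
        rw [hq, hc.mul_pow, add_comm d, pow_add, mul_assoc, (hc.pow_pow _ _).eq]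
      have e4 : ∀ v v', ((ρ.tprod ρ x - 1) ^ d) v = ((ρ.tprod ρ x - 1) ^ (d + 1)) v' → (Δ ^ (d + i)) v ∈
          Submodule.span k (f '' (range e ×ˢ range (d - e) : Finset (ℕ × ℕ))) := fun v v' h => e1 ⟨
        (aeval (ρ.tprod ρ x - 1) q ^ (d + i)) v', by
          rw [e2, End.mul_apply, End.mul_apply, h, ← End.mul_apply (aeval _ q ^ _), ← (hc.pow_pow _ _).eq,
            End.mul_apply, ← End.mul_apply (_ ^ i), ← pow_add, show i + (d + 1) = d + (i + 1) by omega]⟩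
      obtain ⟨_, ⟨a, rfl⟩, _, ⟨v, rfl⟩, rfl⟩ := Submodule.mem_sup.1 (h1 w)
      rw [map_add]
      refine Submodule.add_mem _ ?_ (e4 _ v (by rw [pow_succ, End.mul_apply]))
      refine Submodule.mem_comap.1 ((Submodule.span_le (p := Submodule.comap
        ((Δ ^ (d + i)) ∘ₗ (TensorProduct.mk k V V).flip z) _)).2 ?_ (B.mem_span a))
      rintro _ ⟨l, rfl⟩
      rcases lt_or_ge (l : ℕ) (d - e) with h | h
      · exact Submodule.subset_span ⟨(i, l), by simp; omega, by rw [hB]; rfl⟩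
      · obtain ⟨a, ha⟩ : B l ∈ LinearMap.range ((ρ x - 1) ^ (d - e)) := by
          obtain ⟨c, hc⟩ := Nat.exists_eq_add_of_le h
          rw [← (DD_pow h2 hx _ _).1, hB, hc, pow_add]
          exact ⟨_, rfl⟩
        refine e4 _ (-g (a ⊗ₜ z)) ?_
        have e5 := congrArg (· (a ⊗ₜ z)) hg
        simp only [End.mul_apply, LinearMap.rTensor_pow, LinearMap.rTensor_tmul, ha, neg_pow (ρ.tprod ρ x - 1),
          pow_succ' (-1 : End k (V ⊗[k] V))] at e5
        refine (End.isUnit_iff _).1 ((isUnit_one (M := End k (V ⊗[k] V))).neg.pow d) |>.1 ?_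
        rw [map_neg, map_neg]
        simpa [← End.mul_apply] using e5
  rw [← (DD_pow h2 hx _ _).1]
  refine (finrank_inf_le hα he f (fun i => r₀ + i.2 + r₀ + (d + i.1))
    (fun i => Wt_pow hu' (tmul_mem_Wt (Wt_pow hu hz _) hz) _) _ (h3 e 0 (zero_add e)) r
    ((range e ×ˢ range (d - e)).filter fun i => (r₀ + i.2 + r₀ + (d + i.1)) % e = r % e)
    fun i hi h => mem_filter.2 ⟨hi, h⟩).trans ?_
  refine (card_le_card_of_injOn (t := range (d - e)) Prod.snd (fun i hi => ?_) fun i hi j hj h => ?_).trans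
    (card_range _).le
  · exact (mem_product.1 (mem_filter.1 hi).1).2
  · obtain ⟨e1, e2⟩ := mem_filter.1 hi
    obtain ⟨e3, e4⟩ := mem_filter.1 hj
    rw [← e4, h, ← add_assoc, ← add_assoc] at e2
    exact Prod.ext (Nat.ModEq.eq_of_lt_of_lt (Nat.ModEq.add_left_cancel' _ e2) (mem_range.1 (mem_product.1 e1).1)
      (mem_range.1 (mem_product.1 e3).1)) h

theorem bound_neg (he' : e ≤ d) (r : ℕ) :
    finrank k ↥(Wt (map u u) α r ⊓ LinearMap.range ((ρ.tprod ρ x - 1) ^ e)) + (d - e / 2) ≤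
      finrank k (Wt (map u u) α r) := by
  classical
  have := Module.Finite.of_basis B
  have he0 : 0 < e := Nat.pos_of_ne_zero fun h => he (by simp [h])
  set Δ := DD p (ρ.tprod ρ) x
  set D := DD p ρ x
  let b := B.tensorProduct B
  let F : ℕ → Submodule k (V ⊗[k] V) := fun m => Submodule.span k (b '' {i | m ≤ i.1 + i.2})
  have hF : ∀ {m m'}, m ≤ m' → F m' ≤ F m := fun h => Submodule.span_mono (Set.image_mono fun i hi => h.trans hi)
  have h1 : ∀ i : ℕ, LinearMap.range ((ρ x - 1) ^ i) ≤ Submodule.span k (B '' {l | i ≤ l}) := fun i => by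
    rw [← (DD_pow h2 hx _ _).1, LinearMap.range_eq_map, ← B.span_eq, Submodule.map_span_le]
    rintro _ ⟨j, rfl⟩
    rw [hB, ← End.mul_apply, ← pow_add]
    rcases lt_or_ge (i + j) d with h | h
    · exact Submodule.subset_span ⟨⟨_, h⟩, by simp, hB _⟩
    · obtain ⟨c, hc⟩ := Nat.exists_eq_add_of_le' h
      rw [hc, pow_add, End.mul_apply, hD, map_zero]; exact Submodule.zero_mem _
  have h3 : ∀ (i j : ℕ) a a', a ∈ LinearMap.range ((ρ x - 1) ^ i) → a' ∈ LinearMap.range ((ρ x - 1) ^ j) →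
      a ⊗ₜ[k] a' ∈ F (i + j) := fun i j a a' ha ha' => by
    have e1 := Submodule.apply_mem_map₂ (TensorProduct.mk k V V) (h1 i ha) (h1 j ha')
    rw [Submodule.map₂_span_span] at e1
    refine Submodule.span_mono ?_ e1
    rintro _ ⟨_, ⟨l, hl, rfl⟩, _, ⟨l', hl', rfl⟩, rfl⟩
    exact ⟨(l, l'), add_le_add (show i ≤ l from hl) (show j ≤ l' from hl'), B.tensorProduct_apply' B _⟩
  have h4 : ∀ j : Fin d, B j ∈ LinearMap.range ((ρ x - 1) ^ (j : ℕ)) := fun j => by
    rw [← (DD_pow h2 hx _ _).1]; exact ⟨z, (hB j).symm⟩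
  have h5 : ∀ {j : ℕ} {a}, a ∈ LinearMap.range ((ρ x - 1) ^ j) →
      (ρ x - 1) a ∈ LinearMap.range ((ρ x - 1) ^ (j + 1)) := by
    rintro j _ ⟨a, rfl⟩; exact ⟨a, by rw [pow_succ', End.mul_apply]⟩
  have h6 : ∀ m, ∀ w ∈ F m, (ρ.tprod ρ x - 1) w ∈ F (m + 1) := fun m w hw => by
    refine Submodule.mem_comap.1 ((Submodule.span_le (p := Submodule.comap (ρ.tprod ρ x - 1) _)).2 ?_ hw)
    rintro _ ⟨⟨i, j⟩, hi, rfl⟩
    have e1 : (i : ℕ) + j ≥ m := hi
    have e2 := (F (m + 1)).add_mem ((F (m + 1)).add_mem (hF (by omega) (h3 _ _ _ _ (h5 (h4 i)) (h5 (h4 j))))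
      (hF (by omega) (h3 _ _ _ _ (h5 (h4 i)) (h4 j)))) (hF (by omega) (h3 _ _ _ _ (h4 i) (h5 (h4 j))))
    rw [SetLike.mem_coe, Submodule.mem_comap]
    convert e2 using 1
    simp [b, sub_tmul, tmul_sub]
  obtain ⟨q, -, -, hq : Δ = _⟩ := exists_DD h2 hx (ρ.tprod ρ)
  have h7 : ∀ j m, ∀ w ∈ F m, (Δ ^ j) w ∈ F (m + j) := fun j m w hw => by
    induction j with
    | zero => exact hw
    | succ j ih =>
      rw [pow_succ', End.mul_apply, hq, End.mul_apply]
      exact h6 _ _ (aeval_apply_smul_mem_of_le_comap (hq ▸ ih) q _ fun v hv => hF (Nat.le_succ _) (h6 _ v hv))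
  obtain ⟨j₀, h8, h9, h10⟩ : ∃ j₀, d - 1 - e / 2 ≤ j₀ ∧ j₀ ≤ d - 1 + e / 2 ∧ (2 * r₀ + j₀) % e = r % e := by
    have e1 := Nat.mod_lt (r + (2 * r₀ + (d - 1 - e / 2)) * (e - 1)) he0
    refine ⟨_, Nat.le_add_right _ ((r + (2 * r₀ + (d - 1 - e / 2)) * (e - 1)) % e), by omega, ?_⟩
    rw [← add_assoc, Nat.add_mod_mod, add_left_comm, ← mul_one_add, add_tsub_cancel_of_le he0, Nat.add_mul_mod_self_right]
  have hb : ∀ i, b i ∈ Wt (map u u) α (2 * r₀ + (i.1 + i.2)) := fun i => by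
    have := tmul_mem_Wt (Wt_pow hu hz i.1) (Wt_pow hu hz i.2)
    rwa [← hB, ← hB, ← B.tensorProduct_apply', show r₀ + i.1 + (r₀ + i.2) = 2 * r₀ + (i.1 + i.2) by ring] at this
  let s : Finset (Fin d × Fin d) := univ.filter fun i => (2 * r₀ + (i.1 + i.2)) % e = r % e
  have h11 : #s ≤ finrank k (Wt (map u u) α r) := by
    rw [← Fintype.card_coe]
    refine LinearIndependent.fintype_card_le_finrank (b := fun i : s => (⟨b i.1, ?_⟩ : Wt (map u u) α r)) ?_
    · rw [← Wt_congr hα he0 (mem_filter.1 i.2).2]; exact hb _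
    · exact LinearIndependent.of_comp (Submodule.subtype _) (b.linearIndependent.comp _ Subtype.val_injective)
  have h12 := finrank_inf_le (u := map u u) hα he (fun i => if (i.1 : ℕ) + i.2 < j₀ then (Δ ^ e) (b i) else b i)
    (fun i => 2 * r₀ + (i.1 + i.2)) (fun i => by
      split_ifs
      · rw [← Wt_congr hα he0 (Nat.add_mod_right _ e)]; exact Wt_pow hu' (hb i) e
      · exact hb i) (S := LinearMap.range (Δ ^ e))
    (univ.filter fun i => (i.1 : ℕ) + i.2 < j₀ ∨ j₀ + e ≤ i.1 + i.2) (by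
      rw [LinearMap.range_eq_map, ← b.span_eq, Submodule.map_span_le]
      rintro _ ⟨i, rfl⟩
      rcases lt_or_ge ((i.1 : ℕ) + i.2) j₀ with h | h
      · exact Submodule.subset_span ⟨i, by simp [h], if_pos h⟩
      · refine Submodule.span_mono ?_ (h7 e j₀ _ (Submodule.subset_span ⟨i, h, rfl⟩))
        rintro _ ⟨l, hl, rfl⟩
        have e1 : j₀ + e ≤ l.1 + l.2 := hl
        exact ⟨l, by simp [e1], if_neg (by omega)⟩) r (s.filter fun i => ¬ (i.1 : ℕ) + i.2 = j₀)
    fun i hi h => mem_filter.2 ⟨mem_filter.2 ⟨mem_univ _, h⟩, by have := (mem_filter.1 hi).2; omega⟩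
  have h13 : d - e / 2 ≤ #(s.filter fun i => (i.1 : ℕ) + i.2 = j₀) := by
    rw [← Fintype.card_fin (d - e / 2), ← card_univ]
    refine card_le_card_of_injOn (fun t => (⟨t + (j₀ + 1 - d), by omega⟩, ⟨j₀ - (t + (j₀ + 1 - d)), by omega⟩))
      (fun t _ => ?_) fun t _ t' _ h => Fin.ext (by simpa using congrArg (fun a => (a.1 : ℕ)) h)
    have e1 : (t : ℕ) + (j₀ + 1 - d) + (j₀ - (t + (j₀ + 1 - d))) = j₀ := by omega
    exact mem_coe.2 (mem_filter.2 ⟨mem_filter.2 ⟨mem_univ _, by rw [e1, h10]⟩, e1⟩)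
  have h14 := card_filter_add_card_filter_not (s := s) fun i => (i.1 : ℕ) + i.2 = j₀
  rw [(DD_pow h2 hx _ _).1] at h12
  omega

omit hα he hu hu' hz hB hD in
theorem mod_bound [FiniteDimensional k U] [FiniteDimensional k V] (σ : Representation k G U) {t : ℕ}
    (ht : e * t + 1 = p) (h3 : 3 ≤ t) {n : G} {a : (ZMod p)ˣ}
    (hn : ∀ j : ZMod p, n * xp x j * n⁻¹ = xp x ((a : ZMod p) * j)) (ha : orderOf a = e) {s : k}
    (hρ : ρ (n ^ e) = s • 1) (hσ : σ (n ^ e) = s ^ 2 • 1) (hV : finrank k V = d) (hd : d + e = p)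
    (hTV : finrank k (LinearMap.ker (ρ x - 1)) ≤ finrank k (LinearMap.range ((ρ x - 1) ^ (p - 1))) + 1)
    (hTU : finrank k (LinearMap.ker (σ x - 1)) ≤ finrank k (LinearMap.range ((σ x - 1) ^ (p - 1))) + 1)
    {b l : ℕ} (hU : finrank k U = b * p + l) (hl : l = e ∨ l = d) :
    finrank k ↥(LinearMap.range ((σ.linHom (ρ.tprod ρ) x - 1) ^ (p - 1)) ⊓
        LinearMap.ker (σ.linHom (ρ.tprod ρ) n - 1)) + b * (t * d ^ 2) +
      (if l = e then d ^ 2 - (d - e) else (t - 1) * d ^ 2 + (d - e / 2)) ≤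
      finrank k (LinearMap.ker (σ.linHom (ρ.tprod ρ) n - 1)) := by
  have he0 : 0 < e := ha ▸ orderOf_pos a
  have h4 : e * 3 ≤ e * t := Nat.mul_le_mul_left e h3
  have he : (e : k) ≠ 0 := fun h0 => by
    have := congrArg (Nat.cast (R := k)) ht
    simp [h0] at this
  have hα : IsPrimitiveRoot (ZMod.castHom dvd_rfl k (a : ZMod p)) e :=
    (IsPrimitiveRoot.coe_units_iff.2 (ha ▸ IsPrimitiveRoot.orderOf a)).map_of_injective (RingHom.injective _)
  have hT : (ρ x - 1) ^ (p - 1) = 0 := pow_eq_zero_of_le (by omega) (pow_finrank_zero ρ hx)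
  have : Nontrivial V := Module.nontrivial_of_finrank_pos (R := k) (by omega)
  obtain ⟨c, hc0, hc⟩ : ∃ c : k, c ≠ 0 ∧ c ^ e = s := by
    rw [hT, LinearMap.range_zero, finrank_bot] at hTV
    obtain ⟨v, hv, h0⟩ := Submodule.exists_mem_ne_zero_of_ne_bot (p := LinearMap.ker (DD p ρ x)) fun h => by
      have e1 := (LinearMap.ker_eq_bot.1 h).iterate (p - 1)
      obtain ⟨w, hw⟩ := exists_ne (0 : V)
      refine hw (e1 ?_)
      simp only [← End.pow_apply, map_zero]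
      rw [← LinearMap.mem_ker, (DD_pow h2 hx ρ _).2, hT]; trivial
    rw [← pow_one (ρ x - 1), ← (DD_pow h2 hx ρ _).2, pow_one] at hTV
    obtain ⟨c, hc⟩ := (finrank_le_one_iff.1 hTV).elim fun w hw => show ∃ c : k, ρ n v = c • v by
      obtain ⟨c₁, e1⟩ := hw ⟨v, hv⟩
      obtain ⟨c₂, e2⟩ := hw ⟨ρ n v, by
        have e3 := congrArg (· v) (mul_DD ρ hn)
        simp only [End.mul_apply, LinearMap.mem_ker.1 hv, map_zero, LinearMap.smul_apply] at e3
        exact (smul_eq_zero.1 e3.symm).resolve_left (hα.ne_zero he0.ne')⟩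
      have e3 : c₁ • w.1 = v := congrArg Subtype.val e1
      have e4 : c₂ • w.1 = ρ n v := congrArg Subtype.val e2
      exact ⟨c₂ / c₁, by rw [← e4, ← e3, smul_smul, div_mul_cancel₀ _ fun e => h0 (by rw [← e3, e, zero_smul])]⟩
    have e1 : ∀ j, ρ (n ^ j) v = c ^ j • v := fun j => by
      induction j with
      | zero => simp
      | succ j ih => rw [pow_succ', map_mul, End.mul_apply, ih, map_smul, hc, smul_smul, pow_succ]
    refine ⟨c, fun e => h0 (by simpa [e] using congrArg (ρ n⁻¹) hc), smul_left_injective k h0 ?_⟩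
    simp only [← e1, hρ, LinearMap.smul_apply, End.one_apply]
  have hs : s ≠ 0 := hc ▸ pow_ne_zero _ hc0
  have hu : (c⁻¹ • ρ n) ^ e = 1 := by rw [_root_.smul_pow, ← map_pow, hρ, smul_smul, inv_pow, hc, inv_mul_cancel₀ hs, one_smul]
  have hm : map (c⁻¹ • ρ n) (c⁻¹ • ρ n) = (c ^ 2)⁻¹ • ρ.tprod ρ n := by
    ext; simp [smul_tmul', smul_smul, pow_two]
  obtain ⟨-, -, z, r₀, B, -, hz, hD, -, hB⟩ := exists_basis hα he hu (smul_mul_DD hn ρ _) (p := p) (b := 0) (l := d)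
    (LinearMap.range_eq_bot.1 (by rw [(DD_pow h2 hx ρ p).1, pow_char_zero ρ hx, LinearMap.range_zero]))
    (by omega) (by omega) (by omega) (by
    rwa [(DD_pow h2 hx ρ _).1, ← pow_one (DD p ρ x), (DD_pow h2 hx ρ _).2, pow_one])
  let B' := B.reindex (Equiv.emptySum _ _)
  have hB' : ∀ j, B' j = (DD p ρ x ^ (j : ℕ)) z := fun j => by rw [Basis.reindex_apply]; exact hB j
  have hu' := smul_mul_DD hn (ρ.tprod ρ) (c ^ 2)⁻¹
  rw [← hm] at hu'
  have hw : map (c⁻¹ • ρ n) (c⁻¹ • ρ n) ^ e = 1 := by rw [TensorProduct.map_pow, hu]; exact TensorProduct.map_one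
  obtain ⟨r, hr⟩ := hom_bound h2 hx σ (ρ.tprod ρ) hα ht (u := (c ^ 2)⁻¹ • σ n) (by
    rw [_root_.smul_pow, ← map_pow, hσ, smul_smul, inv_pow, ← pow_mul, mul_comm 2, pow_mul, hc,
      inv_mul_cancel₀ (pow_ne_zero _ hs), one_smul]) hw (smul_mul_DD hn σ _) (by omega) (by omega) hU hTU
  have e2 : Fx ((c ^ 2)⁻¹ • σ n) (map (c⁻¹ • ρ n) (c⁻¹ • ρ n)) = LinearMap.ker (σ.linHom (ρ.tprod ρ) n - 1) := by
    ext f
    rw [mem_Fx, hm, LinearMap.mem_ker, LinearMap.sub_apply, sub_eq_zero, LinearMap.ext_iff]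
    simp only [LinearMap.smul_apply, map_smul, (smul_right_injective _ (inv_ne_zero (pow_ne_zero 2 hc0))).eq_iff]
    exact ⟨fun h w => by simpa using (h (σ n⁻¹ w)).symm, fun h w => by simpa using (h (σ n w)).symm⟩
  rw [e2, finrank_tensorProduct, hV, ← pow_two] at hr
  split_ifs with h
  · have e3 := bound_pos h2 hx ρ hα he (smul_mul_DD hn ρ _) hu' hz B' hB' hD hd (by omega) (by omega) r
    have e4 := finrank_le_sum hα he hw 1 r
    rw [finrank_tensorProduct, hV, ← pow_two, mul_one] at e4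
    rw [h, show p - e = d by omega] at hr
    have := Nat.le_self_pow two_ne_zero d
    omega
  · obtain rfl := hl.resolve_left h
    have e3 := bound_neg h2 hx ρ hα he (smul_mul_DD hn ρ _) hu' hz B' hB' hD (by omega) r
    have e4 := (finrank_le_sum hα he hw (t - 1) (r + 1)).trans
      (sum_congr rfl fun j _ => by rw [add_assoc, add_comm 1]).le
    rw [finrank_tensorProduct, hV, ← pow_two] at e4
    rw [show p - l = e by omega, show range l = range (e * (t - 1) + 1) by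
      rw [Nat.mul_sub_one]; congr 1; omega, sum_range_succ', add_zero] at hr
    omega

end Cfsg.Agent.CH.Deg
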