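import Cfsg.Agent.CH.Deg3
import Mathlib.LinearAlgebra.Matrix.Vec
import Mathlib.LinearAlgebra.TensorProduct.Matrix

/-! Fixed points of lattices and their reductions (`finrank_map_inv`, `lattice_bound`); a common modular system for two
characters (`exists_model₂`). -/

namespace Cfsg.Agent.CH.Deg

open Module Finset Cfsg.Agent.Small Cfsg.Agent.CH.Low Cfsg.Agent.Char IsLocalRing

section
variable {R k T M G : Type*} [CommRing R] [IsDomain R] [IsPrincipalIdealRing R] [Field k] {red : R →+* k}
  [RingHomSurjective red] [AddCommGroup T] [Module R T] [Module.Finite R T] [Module.Free R T] [AddCommGroup M]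
  [Module k M] [Group G] (C : Representation R G T) (ρ : T →ₛₗ[red] M)

/-- The reduction of the fixed points of a subgroup. -/
noncomputable abbrev Inv (H : Subgroup G) : Submodule k M := (Representation.invariants (C.comp H.subtype)).map ρ

theorem finrank_map_inv (hker : ∀ v, ρ v = 0 → ∀ L : T →ₗ[R] R, red (L v) = 0) (H : Subgroup G) [Fintype H] :
    (finrank k (Inv C ρ H) : R) * Nat.card H = ∑ h : H, LinearMap.trace R T (C h) := by
  classical
  let S := Representation.invariants (C.comp H.subtype)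
  let f : T →ₗ[R] H → T := LinearMap.pi fun h => C h - 1
  have hf : ∀ v, f v = 0 ↔ v ∈ S := fun v => by simp [f, S, funext_iff, sub_eq_zero]
  obtain ⟨s, hs⟩ := projective_lifting_property f.rangeRestrict LinearMap.id f.surjective_rangeRestrict
  let π : T →ₗ[R] S := LinearMap.codRestrict S (1 - s ∘ₗ f.rangeRestrict) fun v => (hf _).1 (by
    have := congrArg Subtype.val (LinearMap.congr_fun hs (f.rangeRestrict v))
    rw [LinearMap.sub_apply, map_sub, sub_eq_zero]
    exact this.symm)
  have hπ : ∀ v : S, π v = v := fun v => Subtype.ext (by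
    have : f.rangeRestrict v = 0 := Subtype.ext ((hf _).2 v.2)
    simp [π, this])
  let b := Module.finBasis R S
  have h1 : finrank k (Inv C ρ H) = finrank R S := by
    have e1 : Inv C ρ H = Submodule.span k (Set.range fun i => ρ (b i)) := by
      change S.map ρ = _
      conv_lhs => rw [← S.range_subtype, LinearMap.range_eq_map, ← b.span_eq, Submodule.map_span,
        Submodule.map_span, ← Set.range_comp, ← Set.range_comp]
      rfl
    rw [e1, finrank_span_eq_card (Fintype.linearIndependent_iff.2 fun c hc i => ?_), Fintype.card_fin]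
    choose c' hc' using fun i => RingHomSurjective.is_surjective (σ := red) (c i)
    have e2 := hker (∑ i, c' i • b i : S) (by simp [map_smulₛₗ, hc', hc]) (b.coord i ∘ₗ π)
    rw [LinearMap.comp_apply, hπ] at e2
    simpa [Finsupp.single_apply, hc'] using e2
  have h2 : ∀ v, (∑ h : H, C h) v ∈ S := fun v g => by
    simp only [LinearMap.sum_apply, map_sum]
    exact Fintype.sum_equiv (Equiv.mulLeft g) _ _ fun h => by simp
  have h3 : ∑ h : H, C h = S.subtype ∘ₗ (π ∘ₗ ∑ h : H, C h) := LinearMap.ext fun v =>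
    (congrArg Subtype.val (hπ ⟨_, h2 v⟩)).symm
  have h4 : (π ∘ₗ ∑ h : H, C h) ∘ₗ S.subtype = (Nat.card H : R) • 1 := LinearMap.ext fun v => by
    have : ∀ h : H, C h v = v := v.2
    simp [LinearMap.sum_apply, this, hπ, Nat.cast_smul_eq_nsmul]
  rw [← map_sum, h3, LinearMap.trace_comp_comm', h4, h1, map_smul, LinearMap.trace_one, smul_eq_mul, mul_comm]

omit [IsDomain R] [IsPrincipalIdealRing R] [Module.Finite R T] [Module.Free R T] in
theorem lattice_bound [Finite G] [FiniteDimensional k M] {p : ℕ} [hp : Fact p.Prime] [CharP k p] {x : G}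
    {K : Subgroup G} (h : DefOne p x K) (π : Representation k G M) (hρ : ∀ g v, ρ (C g v) = π g (ρ v))
    (hs : Function.Surjective ρ) (hu : ∀ r, red r ≠ 0 → IsUnit r) {u : G} (h1 : u ∈ Nx x) (h2 : ¬ p ∣ orderOf u) :
    finrank k (Inv C ρ (Nx x)) + finrank k (LinearMap.ker (π u - 1)) ≤ finrank k (Inv C ρ ⊤) +
      finrank k (Inv C ρ (Subgroup.zpowers u)) +
      finrank k ↥(LinearMap.range ((π x - 1) ^ (p - 1)) ⊓ LinearMap.ker (π u - 1)) := by
  classical
  have := Fintype.ofFinite (G ⧸ Nx x)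
  have := Fintype.ofFinite (Subgroup.zpowers u)
  have h3 : LinearMap.ker (π u - 1) ≤ Inv C ρ (Subgroup.zpowers u) := fun m hm => by
    obtain ⟨v, rfl⟩ := hs m
    obtain ⟨c, hc⟩ := (hu (Nat.card (Subgroup.zpowers u)) (by
      rwa [map_natCast, Ne, CharP.cast_eq_zero_iff k p, Nat.card_zpowers])).exists_left_inv
    refine ⟨c • ∑ g : Subgroup.zpowers u, C g v, Submodule.smul_mem _ _ fun g => ?_, ?_⟩
    · rw [map_sum]
      exact Fintype.sum_equiv (Equiv.mulLeft g) _ _ fun h => by simp
    · rw [map_smulₛₗ, map_sum, sum_congr rfl fun (g : Subgroup.zpowers u) _ => (hρ g v).trans (apply_eq_of_mem_zpowers π u g.2 hm),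
        sum_const, card_univ, ← Nat.card_eq_fintype_card, ← Nat.cast_smul_eq_nsmul k, smul_smul,
        ← map_natCast red, ← map_mul, hc, map_one, one_smul]
  have h4 : Inv C ρ (Nx x) ≤ Inv C ρ ⊤ ⊔ LinearMap.range ((π x - 1) ^ (p - 1)) ⊓ LinearMap.ker (π u - 1) := by
    rintro _ ⟨w, hw, rfl⟩
    let F : G ⧸ Nx x → T := fun q => C q.out w
    have hF : ∀ g : G, F g = C g w := fun g => by
      obtain ⟨n, hn⟩ := QuotientGroup.mk_out_eq_mul (Nx x) g
      simp only [F, hn, map_mul, End.mul_apply]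
      exact congrArg _ (hw n)
    have hF' : ∀ (g : G) q, F (g • q) = C g (F q) := fun g q => by
      obtain ⟨a, rfl⟩ := QuotientGroup.mk_surjective q
      rw [MulAction.Quotient.smul_mk, hF, hF, smul_eq_mul, map_mul, End.mul_apply]
    have e1 : ∀ g, C g (∑ q, F q) = ∑ q, F q := fun g => by
      rw [map_sum]; exact Fintype.sum_equiv (MulAction.toPerm g) _ _ fun q => (hF' g q).symm
    have e2 : ∀ q : G ⧸ Nx x, x • q = q → q = (1 : G) := fun q hq => by
      obtain ⟨a, rfl⟩ := QuotientGroup.mk_surjective q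
      rw [MulAction.Quotient.smul_mk, eq_comm, QuotientGroup.eq, smul_eq_mul, ← mul_assoc] at hq
      rw [QuotientGroup.eq, mul_one]
      refine mem_Nx_of_conj_xp h.ord one_ne_zero (by
        rw [xp_one h.ord, inv_inv]
        exact h.mem_zpowers_of_mem_Nx hq (by simpa [h.ord] using orderOf_conj' a⁻¹ x))
    have e3 : x • ((1 : G) : G ⧸ Nx x) = (1 : G) := by
      rw [MulAction.Quotient.smul_mk, eq_comm, QuotientGroup.eq]; simpa using mem_Nx_self x
    have e4 := sum_mem_of_free_orbits (LinearMap.range ((π x - 1) ^ (p - 1))).toAddSubgroup hp.out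
      (fun q : G ⧸ Nx x => x • q) (fun q => by rw [smul_iterate_apply, ← h.ord, pow_orderOf_eq_one, one_smul])
      (fun q => ρ (F q)) (univ.erase ((1 : G) : G ⧸ Nx x))
      (fun q hq => mem_erase.2 ⟨fun e => (mem_erase.1 hq).1 (smul_left_cancel x (e.trans e3.symm)), mem_univ _⟩)
      (fun q hq e => (mem_erase.1 hq).1 (e2 q e)) fun q _ => ⟨ρ (F q), by
        rw [sub_one_pow_eq_geom_sum (k := k), LinearMap.sum_apply]
        exact sum_congr rfl fun i _ => by rw [smul_iterate_apply, hF', hρ (x ^ i), map_pow]⟩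
    have e5 : ρ w = ρ (∑ q, F q) - ∑ q ∈ univ.erase ((1 : G) : G ⧸ Nx x), ρ (F q) := by
      rw [map_sum, ← add_sum_erase _ _ (mem_univ ((1 : G) : G ⧸ Nx x)), hF]; simp
    rw [e5]
    refine Submodule.sub_mem _ (Submodule.mem_sup_left ⟨_, fun g => e1 g, rfl⟩) (Submodule.mem_sup_right ⟨e4, ?_⟩)
    rw [← sub_sub_cancel (ρ (∑ q, F q)) (∑ q ∈ _, _), ← e5, SetLike.mem_coe, LinearMap.mem_ker, map_sub,
      LinearMap.sub_apply, LinearMap.sub_apply, ← hρ, ← hρ, e1, show C u w = w from hw ⟨u, h1⟩]
    simp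
  have h5 := (Submodule.finrank_mono h4).trans (Submodule.finrank_add_le_finrank_add_finrank _ _)
  have h6 := Submodule.finrank_mono h3
  omega

end

theorem comm_quot {G : Type*} [Group G] {p : ℕ} [hp : Fact p.Prime] {x : G} {K : Subgroup G} (h : DefOne p x K)
    (hK : K ≤ Subgroup.center G) : IsMulCommutative (Nx x ⧸ (Subgroup.zpowers x).subgroupOf (Nx x)) := by
  let P' := (Subgroup.zpowers x).subgroupOf (Nx x)
  exact (QuotientGroup.lift P' (expo h.ord) fun u hu => by
    obtain ⟨j, hj⟩ := hu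
    rw [MonoidHom.mem_ker, expo_eq_one_iff, ← show x ^ j = u from hj]
    exact ((Commute.refl x).zpow_right j).eq).isMulCommutative_of_isCyclic_of_ker_le_center (by
      intro c hc
      obtain ⟨c, rfl⟩ := QuotientGroup.mk_surjective c
      obtain ⟨a, y, hy⟩ := h.dec c ((expo_eq_one_iff h.ord c).1 hc)
      have h1 : (c : Nx x ⧸ P') = (⟨y, h.K_le y.2⟩ : Nx x) := QuotientGroup.eq.2 (by
        change (c : G)⁻¹ * y ∈ Subgroup.zpowers x
        rw [hy, h.comm_xp, mul_inv_rev, mul_assoc, inv_mul_cancel, mul_one]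
        exact Subgroup.inv_mem _ (xp_mem x a))
      rw [h1, Subgroup.mem_center_iff]
      intro g
      obtain ⟨g, rfl⟩ := QuotientGroup.mk_surjective g
      rw [← QuotientGroup.mk_mul, ← QuotientGroup.mk_mul]
      exact congrArg _ (Subtype.ext (Subgroup.mem_center_iff.1 (hK y.2) g)))

theorem comm_le {G : Type*} [Group G] {p : ℕ} [hp : Fact p.Prime] {x : G} {K : Subgroup G} (h : DefOne p x K)
    (hK : K ≤ Subgroup.center G) : commutator (Nx x) ≤ (Subgroup.zpowers x).subgroupOf (Nx x) :=
  Subgroup.Normal.quotient_commutative_iff_commutator_le.1 (comm_quot h hK)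

theorem tate_le {R k V G : Type*} [CommRing R] [Field k] [AddCommGroup V] [Module k V] [Group G] [Finite G] {p : ℕ}
    [hp : Fact p.Prime] {x : G} {ι : R →+* ℂ} {red : R →+* k} [FiniteDimensional k V] [CharP k p] [Finite k]
    (hms : ModSys (Nat.card G) ι red) {K : Subgroup G} (h : DefOne p x K) (hK : K ≤ Subgroup.center G)
    (ρ : Representation k G V) (hloc : ∀ φ : End k V, (∀ g, φ * ρ g = ρ g * φ) → IsUnit φ ∨ IsUnit (1 - φ)) :
    finrank k (LinearMap.ker (ρ x - 1)) ≤ finrank k (LinearMap.range ((ρ x - 1) ^ (p - 1))) + 1 := by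
  have hlocT := tate_local ρ x h.ord h.notdvd hloc
  let P' := (Subgroup.zpowers x).subgroupOf (Nx x)
  let τ' : Representation k (Nx x ⧸ P') (Tate ρ x p) :=
    QuotientGroup.lift P' (tateRep ρ x p) fun u hu => tateRep_of_mem_zpowers ρ x p u hu
  have hcard : (Nat.card (Nx x ⧸ P') : k) ≠ 0 := by
    rw [Ne, CharP.cast_eq_zero_iff k p]
    exact fun h1 => h.notdvd (h1.trans (Subgroup.relIndex_dvd_index_of_le Subgroup.le_normalizer))
  have hm' : ∀ a : Nx x ⧸ P', a ^ Nat.card G = 1 := fun a => by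
    obtain ⟨a, rfl⟩ := QuotientGroup.mk_surjective a
    rw [← QuotientGroup.mk_pow, show a ^ Nat.card G = 1 from Subtype.ext (by simp)]
    rfl
  have hs := eq_bot_or_top_of_local τ' hcard fun φ hφ => hlocT φ fun a => hφ a
  have hsc := eq_smul_of_comm_of_simple τ' hms hm' hcard hs
  have hcomm := comm_quot h hK
  have h1 : finrank k (Tate ρ x p) ≤ 1 := by
    rcases subsingleton_or_nontrivial (Tate ρ x p) with e | e
    · rw [finrank_zero_of_subsingleton]; exact zero_le_one
    obtain ⟨v, hv⟩ := exists_ne (0 : Tate ρ x p)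
    refine finrank_le_one v fun w => Submodule.mem_span_singleton.1 (((hs _ fun g w hw => ?_).resolve_left
      (by rwa [Submodule.span_singleton_eq_bot])).ge trivial)
    obtain ⟨c, hc⟩ := hsc (τ' g) fun g' => by rw [← map_mul, ← map_mul, hcomm.is_comm.comm]
    rw [hc]
    exact Submodule.smul_mem _ _ hw
  have h2 := Submodule.finrank_quotient_add_finrank
    ((LinearMap.range ((ρ x - 1) ^ (p - 1))).submoduleOf (LinearMap.ker (ρ x - 1)))
  have h3 := LinearMap.finrank_le_finrank_of_injective (f := LinearMap.restrict (LinearMap.ker (ρ x - 1)).subtype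
    (p := (LinearMap.range ((ρ x - 1) ^ (p - 1))).submoduleOf (LinearMap.ker (ρ x - 1)))
    (q := LinearMap.range ((ρ x - 1) ^ (p - 1))) fun _ hv => hv)
    fun a b e => Subtype.ext (Subtype.ext (congrArg (fun y : LinearMap.range ((ρ x - 1) ^ (p - 1)) => (y : V)) e))
  change finrank k (Tate ρ x p) + _ = _ at h2
  omega

theorem exists_model₂ {G : Type*} [Group G] [Fintype G] (p : ℕ) [hp : Fact p.Prime] {χ ψ : G → ℂ}
    (hχ : IsIrrCharacter G χ) (hψ : IsIrrCharacter G ψ) :
    ∃ (R : Type) (_ : CommRing R) (_ : IsDomain R) (_ : IsPrincipalIdealRing R) (k : Type) (_ : Field k)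
      (_ : CharP k p) (_ : Finite k) (ι : R →+* ℂ) (red : R →+* k), ModSys (Nat.card G) ι red ∧
      ∀ η, η = χ ∨ η = ψ → ∃ (n : ℕ) (A : G →* Matrix (Fin n) (Fin n) R), (∀ g, ι (A g).trace = η g) ∧
        ∀ φ : Matrix (Fin n) (Fin n) k, (∀ g, φ * (A g).map red = (A g).map red * φ) → IsUnit φ ∨ IsUnit (1 - φ) := by
  classical
  obtain ⟨n, A, hn, hA, htr⟩ := exists_schur_matrix hχ
  obtain ⟨m, A', hm, hA', htr'⟩ := exists_schur_matrix hψ
  have hcard : Nat.card G ≠ 0 := Nat.card_pos.ne'
  obtain ⟨F', _, _, ι', B', hB', hBtr', -⟩ := exists_numberField_form A' hA' (Set.range ψ) (Set.finite_range _)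
    (by rintro _ ⟨g, rfl⟩; exact (hψ.isCharacter.isIntegral g).tower_top) fun g => ⟨g, (htr' g).symm⟩
  obtain ⟨F, _, _, ι, B, hB, hBtr, hBZ⟩ := exists_numberField_form A hA (Set.range χ ∪ {z | z ^ Nat.card G = 1} ∪
    Set.range fun a : G × Fin m × Fin m => ι' (B' a.1 a.2.1 a.2.2)) (((Set.finite_range _).union
      ((Polynomial.nthRootsFinset (Nat.card G) (1 : ℂ)).finite_toSet.subset fun z hz =>
        (Polynomial.mem_nthRootsFinset (Nat.pos_of_ne_zero hcard) _).2 hz)).union (Set.finite_range _)) (by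
      rintro z ((⟨g, rfl⟩ | hz) | ⟨a, rfl⟩)
      · exact (hχ.isCharacter.isIntegral g).tower_top
      · exact IsIntegral.of_pow (Nat.pos_of_ne_zero hcard) (by rw [hz]; exact isIntegral_one)
      · exact (Algebra.IsIntegral.isIntegral (R := ℚ) _).map ι'.toRatAlgHom)
    fun g => Or.inl (Or.inl ⟨g, (htr g).symm⟩)
  choose f hf using fun g i j => hBZ _ (Or.inr ⟨(g, i, j), rfl⟩)
  have hf' : ∀ g, (Matrix.of (f g)).map ι = (B' g).map ι' := fun g => Matrix.ext (hf g)
  let B₂ : G →* Matrix (Fin m) (Fin m) F :=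
    { toFun g := Matrix.of (f g)
      map_one' := Matrix.map_injective ι.injective (by simp [hf'])
      map_mul' a b := Matrix.map_injective ι.injective (by simp only [Matrix.map_mul, hf', map_mul]) }
  have hpmax : (Ideal.span {(p : ℤ)}).IsMaximal :=
    PrincipalIdealRing.isMaximal_of_irreducible (Nat.prime_iff_prime_int.1 hp.out).irreducible
  obtain ⟨Q, hQ, hQp⟩ := Ideal.exists_ideal_over_maximal_of_isIntegral
    (S := NumberField.RingOfIntegers F) (Ideal.span {(p : ℤ)}) (by
      rw [(RingHom.injective_iff_ker_eq_bot _).1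
        (RingHom.injective_int (algebraMap ℤ (NumberField.RingOfIntegers F)))]
      exact bot_le)
  have hpQ : (p : NumberField.RingOfIntegers F) ∈ Q := by
    have : (p : ℤ) ∈ Q.comap (algebraMap ℤ (NumberField.RingOfIntegers F)) := by
      rw [hQp]; exact Ideal.mem_span_singleton_self _
    simpa using this
  let v : IsDedekindDomain.HeightOneSpectrum (NumberField.RingOfIntegers F) :=
    ⟨Q, hQ.isPrime, fun h => by
      rw [h, Ideal.mem_bot] at hpQ
      exact hp.out.ne_zero (by exact_mod_cast hpQ)⟩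
  let R := IsDedekindDomain.HeightOneSpectrum.valuationSubringAtPrime F v
  have hPID : IsPrincipalIdealRing R := IsPrincipalIdealRing.of_isNoetherianRing_of_isBezout
  have hinj : Function.Injective (algebraMap R F) := IsFractionRing.injective R F
  have hchar : CharZero R := (algebraMap R F).charZero
  have hloc : IsLocalization.AtPrime R v.asIdeal :=
    Localization.subalgebra.isLocalization_ofField F (v.asIdeal.primeCompl) _
  have hfin : Finite (ResidueField R) := by
    have := v.asIdeal.finiteQuotientOfFreeOfNeBot v.ne_bot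
    have : v.asIdeal.IsMaximal := hQ
    exact Finite.of_equiv _ (IsLocalization.AtPrime.equivQuotMaximalIdeal v.asIdeal R).toEquiv
  have hcp : CharP (ResidueField R) p := by
    refine (CharP.charP_iff_prime_eq_zero hp.out).2 ?_
    simpa using (residue_eq_zero_iff (p : R)).2 (by
      simpa using (IsLocalization.AtPrime.to_map_mem_maximal_iff R v.asIdeal
        (p : NumberField.RingOfIntegers F)).2 hpQ)
  have key : ∀ {n : ℕ} (B : G →* Matrix (Fin n) (Fin n) F), 0 < n → SchurE B → ∃ C : G →* Matrix (Fin n) (Fin n) R,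
      (∀ g, ι.comp (algebraMap R F) (C g).trace = ι (B g).trace) ∧ ∀ φ : Matrix (Fin n) (Fin n) (ResidueField R),
        (∀ g, φ * (C g).map (residue R) = (C g).map (residue R) * φ) → IsUnit φ ∨ IsUnit (1 - φ) := by
    intro n B hn hB
    obtain ⟨B', P, hP, hB'⟩ := exists_integral_form (R := R) B
    obtain ⟨C, hCtr, hC⟩ := exists_local_form hn B'
      (SchurE.of_map hinj (hB.conj hP (B := mapHom (algebraMap R F) B') hB'))
    exact ⟨C, fun g => by
      rw [RingHom.comp_apply, hCtr, AddMonoidHom.map_trace, ← trace_eq_of_mul_eq hP (hB' g)], hC⟩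
  refine ⟨R, inferInstance, inferInstance, hPID, ResidueField R, inferInstance, hcp, hfin, ι.comp (algebraMap R F),
    residue R, ⟨ι.injective.comp hinj, residue_surjective, fun r hr => ?_, fun z hz => ?_⟩, ?_⟩
  · rwa [Ne, residue_eq_zero_iff, mem_maximalIdeal, mem_nonunits_iff, not_not] at hr
  · obtain ⟨r, rfl⟩ := hBZ z (Or.inl (Or.inr hz))
    have hr : IsIntegral ℤ r := by
      refine IsIntegral.of_pow (Nat.pos_of_ne_zero hcard) ?_
      have : r ^ Nat.card G = 1 := ι.injective (by simpa using hz)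
      rw [this]; exact isIntegral_one
    exact ⟨algebraMap (NumberField.RingOfIntegers F) R ⟨r, hr⟩, rfl⟩
  · rintro _ (rfl | rfl)
    · obtain ⟨C, h1, h2⟩ := key B hn hB
      exact ⟨n, C, fun g => by rw [h1, hBtr, htr], h2⟩
    · obtain ⟨C, h1, h2⟩ := key B₂ hm (SchurE.of_map ι.injective (by
        convert hB'.map ι' using 1; exact MonoidHom.ext hf'))
      exact ⟨m, C, fun g => by
        rw [h1, ← htr', ← hBtr', AddMonoidHom.map_trace, AddMonoidHom.map_trace]; exact congrArg _ (hf' g), h2⟩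

end Cfsg.Agent.CH.Deg
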