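import Cfsg.Agent.CH.Deg4
import Cfsg.Agent.CH.Low2

/-! The modular lower bound for the multiplicity of an exceptional character in `ζ ^ 2` (`char_bound`). -/

namespace Cfsg.Agent.CH.Deg

open Module Finset Cfsg.Agent.Small Cfsg.Agent.CH.Low Cfsg.Agent.Char Matrix TensorProduct
open scoped ComplexConjugate Kronecker

variable {R k G : Type*} [CommRing R] [Field k] [Group G] {n : ℕ}

/-- The reduction of a matrix representation. -/
noncomputable def redRep (red : R →+* k) (A : G →* Matrix (Fin n) (Fin n) R) : Representation k G (Fin n → k) :=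
  (toLinAlgEquiv' (R := k) (n := Fin n)).toMulEquiv.toMonoidHom.comp (mapHom red A)

theorem redRep_apply (red : R →+* k) (A : G →* Matrix (Fin n) (Fin n) R) (g : G) :
    redRep red A g = toLin' ((A g).map red) := rfl

theorem redRep_loc {red : R →+* k} {A : G →* Matrix (Fin n) (Fin n) R}
    (h : ∀ φ : Matrix (Fin n) (Fin n) k, (∀ g, φ * (A g).map red = (A g).map red * φ) → IsUnit φ ∨ IsUnit (1 - φ))
    (φ : End k (Fin n → k)) (hφ : ∀ g, φ * redRep red A g = redRep red A g * φ) : IsUnit φ ∨ IsUnit (1 - φ) := by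
  let L := toLinAlgEquiv' (R := k) (n := Fin n)
  obtain ⟨φ, rfl⟩ := L.surjective φ
  exact (h φ fun g => L.injective (by rw [map_mul, map_mul]; exact hφ g)).imp (fun h => h.map L)
    fun h => by simpa using h.map L

theorem eq_smul_one [Finite G] {ι : R →+* ℂ} (hι : Function.Injective ι) {A : G →* Matrix (Fin n) (Fin n) R}
    {χ : G → ℂ} (hχ : IsIrrCharacter G χ) (h : ∀ g, ι (A g).trace = χ g) {z : G} (hz : z ∈ Subgroup.center G) :
    ∃ r, A z = r • 1 ∧ χ z = χ 1 * ι r := by
  have hσ : (redRep ι A).character = χ := funext fun g => by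
    rw [← h, AddMonoidHom.map_trace]
    exact trace_toLin'_eq _
  obtain ⟨ω, hω⟩ := (mem_charCenter_character (redRep ι A) z).1 (hσ ▸ hχ.center_le_charCenter hz)
  have h1 : (A z).map ι = ω • 1 := toLin'.injective (by rw [map_smul, toLin'_one]; exact hω)
  have h2 : n ≠ 0 := by rintro rfl; exact hχ.apply_one_ne_zero (by simp [← h])
  obtain ⟨r, rfl⟩ : ∃ r, ι r = ω := ⟨A z ⟨0, by omega⟩ ⟨0, by omega⟩, by
    simpa using congrFun (congrFun h1 ⟨0, by omega⟩) ⟨0, by omega⟩⟩
  have h3 : A z = r • 1 := map_injective hι (h1.trans (by ext i j; simp [one_apply]; split_ifs <;> simp))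
  exact ⟨r, h3, by rw [← h, ← h, h3]; simp [mul_comm]⟩

section
variable {U V : Type*} [AddCommGroup U] [Module k U] [AddCommGroup V] [Module k V]

/-- Fixed points on `Hom (U, V ⊗ V)`. -/
noncomputable def fd (σ : Representation k G U) (ρ : Representation k G V) (u : G) : ℕ :=
  finrank k (LinearMap.ker (σ.linHom (ρ.tprod ρ) u - 1))

/-- Fixed norms on `Hom (U, V ⊗ V)`. -/
noncomputable def nd (p : ℕ) (σ : Representation k G U) (ρ : Representation k G V) (x u : G) : ℕ :=
  finrank k ↥(LinearMap.range ((σ.linHom (ρ.tprod ρ) x - 1) ^ (p - 1)) ⊓ LinearMap.ker (σ.linHom (ρ.tprod ρ) u - 1))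

end

variable [Fintype G] {p : ℕ} [hp : Fact p.Prime] {x : G} {K : Subgroup G}

omit [Fintype G] in
theorem exists_sum (h : DefOne p x K) {τ : G → ℂ}
    (hτ : ∀ g, ∀ y ∈ K, τ (g * y) = τ g) :
    ∃ s : E[h] → ℂ, ∀ n : Nx x, fixPart p x τ n = s ((expo h.ord).rangeRestrict n) := by
  refine ⟨fun a => fixPart p x τ (Function.surjInv (expo h.ord).rangeRestrict_surjective a : Nx x), fun n => ?_⟩
  have h1 := Function.surjInv_eq (expo h.ord).rangeRestrict_surjective ((expo h.ord).rangeRestrict n)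
  beta_reduce
  generalize Function.surjInv (expo h.ord).rangeRestrict_surjective ((expo h.ord).rangeRestrict n) = m at h1 ⊢
  obtain ⟨j, y, hy⟩ := h.dec (m⁻¹ * n : Nx x) ((expo_eq_one_iff h.ord _).1 (by
    rw [map_mul, map_inv, show expo h.ord m = expo h.ord n from congrArg Subtype.val h1, inv_mul_cancel]))
  rw [Subgroup.coe_mul, Subgroup.coe_inv, inv_mul_eq_iff_eq_mul] at hy
  simp only [fixPart, hy]
  refine congrArg _ (Fintype.sum_equiv (Equiv.addLeft j) _ _ fun i => ?_)
  rw [Equiv.coe_addLeft, xp_add h.ord, mul_assoc, mul_assoc, ← h.comm_xp, ← mul_assoc, ← mul_assoc, hτ _ _ y.2,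
    mul_assoc]

theorem exists_rank {R k U V : Type*} [CommRing R] [IsDomain R] [IsPrincipalIdealRing R] [Field k] [CharP k p]
    [AddCommGroup U] [Module k U] [AddCommGroup V] [Module k V]
    {ι : R →+* ℂ} {red : R →+* k} (hms : ModSys (Nat.card G) ι red) (h : DefOne p x K) {a m : ℕ}
    (A : G →* Matrix (Fin a) (Fin a) R) (B : G →* Matrix (Fin m) (Fin m) R) (bU : Basis (Fin m) k U)
    (bV : Basis (Fin a) k V) (σ : Representation k G U) (π : Representation k G V)
    (hσ : ∀ g, σ g = toLin bU bU ((B g).map red)) (hπ : ∀ g, π g = toLin bV bV ((A g).map red)) {u : G} (h1 : u ∈ Nx x)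
    (h2 : ¬ p ∣ orderOf u) : ∃ I : Subgroup G → ℕ, (∀ (H : Subgroup G) [Fintype H], (I H : ℂ) * Nat.card H =
      ∑ g : H, ι (B g⁻¹).trace * (ι (A g).trace * ι (A g).trace)) ∧
      I (Nx x) + fd σ π u ≤ I ⊤ + I (Subgroup.zpowers u) + nd p σ π x u := by
  have : RingHomSurjective red := ⟨hms.surj⟩
  have := Module.Finite.of_basis bU
  have := Module.Finite.of_basis bV
  let C : Representation R G (Fin m × Fin a × Fin a → R) :=
    { toFun g := toLin' ((B g⁻¹)ᵀ ⊗ₖ (A g ⊗ₖ A g))
      map_one' := by simp [End.one_eq_id]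
      map_mul' g g' := by
        rw [_root_.mul_inv_rev, map_mul, map_mul, transpose_mul, mul_kronecker_mul, mul_kronecker_mul, toLin'_mul]; rfl }
  let L := toLin bU (bV.tensorProduct bV)
  let ρ : (Fin m × Fin a × Fin a → R) →ₛₗ[red] (U →ₗ[k] V ⊗[k] V) :=
    { toFun v := L (of fun i j => red (v (j, i)))
      map_add' v w := by rw [← map_add]; congr 1; ext; simp
      map_smul' c v := by rw [← map_smul]; congr 1; ext; simp }
  have hρ : ∀ X : Matrix (Fin a × Fin a) (Fin m) R, ρ (vec X) = L (X.map red) := fun X => rfl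
  have hC : ∀ g v, ρ (C g v) = σ.linHom (π.tprod π) g (ρ v) := fun g v => by
    obtain ⟨X, rfl⟩ := vec_bijective.2 v
    rw [show C g (vec X) = vec (A g ⊗ₖ A g * X * B g⁻¹) from kronecker_mulVec_vec _ _ _, hρ, hρ, Matrix.map_mul,
      Matrix.map_mul, toLin_mul _ bU, toLin_mul _ (bV.tensorProduct bV),
      show (A g ⊗ₖ A g).map red = (A g).map red ⊗ₖ (A g).map red by ext; simp, toLin_kronecker, ← hσ, ← hπ]
    rfl
  have hsu : Function.Surjective ρ := fun y => by
    obtain ⟨Y, rfl⟩ := L.surjective y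
    choose f hf using hms.surj
    exact ⟨vec (Y.map f), by rw [hρ]; congr 1; ext; simp [hf]⟩
  refine ⟨fun H => finrank k (Inv (M := U →ₗ[k] V ⊗[k] V) C ρ H), fun H _ => ?_,
    lattice_bound (M := U →ₗ[k] V ⊗[k] V) (red := red) C ρ h _ hC hsu hms.unit h1 h2⟩
  have e1 := congrArg ι (finrank_map_inv (M := U →ₗ[k] V ⊗[k] V) C ρ (fun v hv L' => by
    have e2 : ∀ i, red (v i) = 0 := fun i => congrFun (congrFun (L.map_eq_zero_iff.1 hv) i.2) i.1
    rw [LinearMap.pi_apply_eq_sum_univ]; simp [e2]) H)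
  rw [map_sum, map_mul, map_natCast, map_natCast] at e1
  refine e1.trans (sum_congr rfl fun g _ => ?_)
  rw [show LinearMap.trace R _ (C g) = _ from trace_toLin'_eq _, trace_kronecker, trace_kronecker,
    trace_transpose, map_mul, map_mul]

variable (h : DefOne p x K) (hK : K ≤ Subgroup.center G) {ζ ξ : G → ℂ} (hζ : IsIrrCharacter G ζ)
  (hξ : IsIrrCharacter G ξ) (hθ : ∀ y ∈ K, ∃ ω, ω * conj ω = 1 ∧ ζ y = ζ 1 * ω ∧ ξ y = ξ 1 * ω ^ 2)
  {e t d b l c f : ℕ} (h1 : 1 < e) (ht : e * t + 1 = p) (h3 : 3 ≤ t)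
  (hd : charDegree ζ = d) (hde : d + e = p) (hb : charDegree ξ = b * p + l) (hl : l = e ∨ l = d)
include hK hζ hξ hθ h1 ht h3 hd hde hb hl

theorem exists_rank' {u : Nx x} (hu1 : orderOf (expo h.ord u) = e) : ∃ I : Subgroup G → ℕ,
    (∀ (H : Subgroup G) [Fintype H], classInner (fun g : H => ζ g * ζ g * conj (ξ g)) (fun _ => 1) = I H) ∧
    I (Nx x) + (b * (t * d ^ 2) + if l = e then d ^ 2 - (d - e) else (t - 1) * d ^ 2 + (d - e / 2)) ≤
      I ⊤ + I (Subgroup.zpowers (u : G)) := by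
  obtain ⟨R, _, _, _, k, _, _, _, ι, red, hms, hm⟩ := exists_model₂ p hζ hξ
  obtain ⟨a, A, hA, hA'⟩ := hm ζ (.inl rfl)
  obtain ⟨m, B, hB, hB'⟩ := hm ξ (.inr rfl)
  have ha : a = d := hd ▸ (charDegree_eq_of_apply_one (by rw [← hA]; simp)).symm
  have hm : m = b * p + l := hb ▸ (charDegree_eq_of_apply_one (by rw [← hB]; simp)).symm
  have hu2 := not_dvd_orderOf h (j := u) fun e => by simp [e] at hu1; omega
  have hu3 : (u : G) ^ e ∈ K := (h.mem _).2 ⟨(expo_eq_one_iff h.ord (u ^ e)).1 (by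
    rw [map_pow, ← hu1, pow_orderOf_eq_one]), fun e => hu2 (e.trans (orderOf_pow_dvd _))⟩
  obtain ⟨r, hr, hr'⟩ := eq_smul_one hms.inj hζ hA (hK hu3)
  obtain ⟨r', hs, hs'⟩ := eq_smul_one hms.inj hξ hB (hK hu3)
  obtain rfl : r' = r ^ 2 := by
    obtain ⟨ω, -, e1, e2⟩ := hθ _ hu3
    rw [hr', mul_right_inj' hζ.apply_one_ne_zero] at e1
    rw [hs', mul_right_inj' hξ.apply_one_ne_zero] at e2
    exact hms.inj (by rw [map_pow, e1, e2])
  have h4 : nd _ _ _ _ _ + _ + _ ≤ fd _ _ _ := mod_bound (by nlinarith) h.ord (redRep red A) (redRep red B) ht h3 (conj_xp_expo h.ord u) hu1 (s := red r)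
    (by rw [redRep_apply, hr]; ext; simp [one_apply, Pi.single_apply, apply_ite red])
    (by rw [redRep_apply, hs]; ext; simp [one_apply, Pi.single_apply, apply_ite red]) (by simp [ha]) hde
    (tate_le hms h hK _ (redRep_loc hA')) (tate_le hms h hK _ (redRep_loc hB')) (b := b) (by simp [hm]) hl
  obtain ⟨I, h5, h6⟩ := exists_rank hms h A B (Pi.basisFun k _) (Pi.basisFun k _) (redRep red B) (redRep red A)
    (fun _ => by rw [toLin_eq_toLin']; rfl) (fun _ => by rw [toLin_eq_toLin']; rfl) u.2 hu2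
  refine ⟨I, fun H _ => ?_, by omega⟩
  rw [classInner_one_right, inv_mul_eq_iff_eq_mul₀ natCard_cast_ne_zero, mul_comm, h5]
  exact sum_congr rfl fun g _ => by rw [hA, hB, hξ.apply_inv, mul_comm]

theorem char_bound (he : Nat.card E[h] = e) (hc : classInner (ζ * ζ) ξ = c)
    (hf : fixPart p x (fun g => ζ g * ζ g * conj (ξ g)) 1 = f) :
    e * (b * (t * d ^ 2) + if l = e then d ^ 2 - (d - e) else (t - 1) * d ^ 2 + (d - e / 2)) + f ≤
      e * c + d ^ 2 * (b * p + l) := by
  classical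
  have := Fintype.ofFinite (Nx x)
  obtain ⟨⟨_, u, rfl⟩, hu⟩ := IsCyclic.exists_generator (α := E[h])
  have hu1 : orderOf (expo h.ord u) = e := he ▸ (Subgroup.orderOf_coe _).trans (orderOf_eq_card_of_forall_mem_zpowers hu)
  have hu2 := not_dvd_orderOf h (j := u) fun e => by simp [e] at hu1; omega
  obtain ⟨I, h6, h5⟩ := exists_rank' h hK hζ hξ hθ h1 ht h3 hd hde hb hl hu1
  let τ : G → ℂ := fun g => ζ g * ζ g * conj (ξ g)
  have hτ : IsCharacter G τ := (hζ.isCharacter.mul hζ.isCharacter).mul hξ.isCharacter.conj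
  have h7 : ∀ y ∈ K, τ y = τ 1 := fun y hy => by
    obtain ⟨ω, e1, e2, e3⟩ := hθ y hy
    simp only [τ, e2, e3, map_mul, map_pow]
    linear_combination (ζ 1 * ζ 1 * conj (ξ 1) * (ω * conj ω + 1)) * e1
  obtain ⟨s, hs1⟩ := exists_sum h fun g y hy => hτ.apply_mul_of_apply_eq' (h7 y hy) g
  have h8 : classInner (fun g : Nx x => τ g) _ = _ := h6 (Nx x)
  have h9 : classInner (fun g : Subgroup.zpowers (u : G) => τ g) _ = _ := h6 (Subgroup.zpowers (u : G))
  have h10 : classInner (fun g : (⊤ : Subgroup G) => τ g) _ = _ := h6 ⊤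
  rw [← classInner_fixPart (p := p), funext hs1, classInner_comp_of_surjective s (fun _ => 1) _
    (expo h.ord).rangeRestrict_surjective, classInner_one_right] at h8
  have hle : Subgroup.zpowers (u : G) ≤ Nx x := (Subgroup.zpowers_le).2 u.2
  rw [show (fun g : Subgroup.zpowers (u : G) => τ g) = fun g => Function.update s 1 (τ 1)
      ((expo h.ord).rangeRestrict.comp (Subgroup.inclusion hle) g) from funext fun g => by
      by_cases e1 : expo h.ord (Subgroup.inclusion hle g) = 1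
      · rw [show (expo h.ord).rangeRestrict.comp (Subgroup.inclusion hle) g = 1 from Subtype.ext e1,
          Function.update_self]
        exact h7 _ ((h.mem _).2 ⟨(expo_eq_one_iff h.ord _).1 e1, fun e => hu2 (e.trans (orderOf_dvd_of_mem_zpowers g.2))⟩)
      · rw [Function.update_of_ne fun e => e1 (congrArg Subtype.val e), MonoidHom.comp_apply, ← hs1]
        exact apply_eq_fixPart h.ord hτ.isClassFunction e1,
    classInner_comp_of_surjective _ (fun _ => 1) _ fun a => by
      obtain ⟨j, rfl⟩ := hu a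
      exact ⟨⟨u, Subgroup.mem_zpowers _⟩ ^ j, by rw [map_zpow]; rfl⟩, classInner_one_right,
    sum_update_of_mem (mem_univ _)] at h9
  rw [show classInner (fun g : (⊤ : Subgroup G) => τ g) (fun _ => 1) = c from
    (classInner_comp_mulEquiv τ (fun _ => 1) Subgroup.topEquiv).trans ((classInner_eq_classInner_one _ _).symm.trans hc),
    Nat.cast_inj] at h10
  have h11 : s 1 = f := by rw [← hf, ← map_one (expo h.ord).rangeRestrict, ← hs1]; rfl
  have h12 : τ 1 = (d ^ 2 * (b * p + l) : ℕ) := by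
    simp only [τ, hζ.apply_one_eq_charDegree, hξ.apply_one_eq_charDegree, hd, hb, map_natCast]; push_cast; ring
  rw [← add_sum_erase _ _ (mem_univ 1), ← sdiff_singleton_eq_erase, h11, he] at h8
  rw [he, h12] at h9
  have h13 : (e : ℂ) ≠ 0 := by exact_mod_cast (by omega : e ≠ 0)
  have h14 : e * I (Subgroup.zpowers (u : G)) + f =
      e * I (Nx x) + d ^ 2 * (b * p + l) := by
    refine Nat.cast_injective (R := ℂ) ?_
    push_cast at h9 ⊢
    rw [← h8, ← h9]; field_simp; ring
  have h15 := Nat.mul_le_mul_left e h5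
  rw [mul_add, mul_add e (I ⊤), ← h10] at h15
  omega

end Cfsg.Agent.CH.Deg
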