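import Cfsg.Agent.CH.Deg5

/-! A module with an invariant symmetric form, at most one free Jordan block and suitable blocks of sizes three and
five gives a map to `PGL₂` (`pgl_two`). -/

namespace Cfsg.Agent.CH.Deg

open Module Finset Cfsg.Agent.Small Cfsg.Agent.CH.Low
open scoped MatrixGroups

variable {k M G : Type*} [Field k] [AddCommGroup M] [Module k M] [Group G] [Finite G] [FiniteDimensional k M]
  {π : Representation k G M} {B : M →ₗ[k] M →ₗ[k] k} {x : G} {p : ℕ} [hp : Fact p.Prime] [CharP k p]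
  (hx : orderOf x = p) (hG : ¬ p ∣ (Subgroup.zpowers x).index) (hB : ∀ g u v, B (π g u) (π g v) = B u v)
include hx hG hB

omit [FiniteDimensional k M] in
theorem exists_phi {s : ℕ} {L F : M} (hL : (π x - 1) L = 0) (hF : ((π x - 1) ^ s) F = L) (hβ : B L F ≠ 0)
    (hN : ∀ n ∈ Nx x, ∃ c : k, π n L = c • L) : ∃ φ : End k M, (∀ g, φ * π g = π g * φ) ∧
      (∀ v, (π x - 1) v = 0 → ∃ c : k, φ v - c • L ∈ LinearMap.range ((π x - 1) ^ (p - 1))) ∧
      ∃ c : k, c ≠ 0 ∧ φ L - c • L ∈ LinearMap.range ((π x - 1) ^ (p - 1)) := by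
  set T := π x - 1 with hTd
  have hF3 : (T ^ (s + 1)) F = 0 := by rw [pow_succ', End.mul_apply, hF, hL]
  let β : End k M := (B.flip F).smulRight F
  have hβa : ∀ v, β v = B v F • F := fun v => rfl
  obtain ⟨φ, S, hφ, hs, hsN, hφv⟩ := exists_relTrace π x hx hG (∑ i ∈ range (s + 1), T ^ i * β * T ^ (s - i)) (by
    have h1 := (sum_range_succ (fun i => T ^ i * β * T ^ (s + 1 - i)) (s + 1)).symm.trans
      (sum_range_succ' (fun i => T ^ i * β * T ^ (s + 1 - i)) (s + 1))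
    rw [show T ^ (s + 1) * β = 0 by ext v; simp [hβa, hF3], pow_zero, one_mul, show β * T ^ (s + 1 - 0) = 0 by
      ext v; rw [End.mul_apply, hβa, Nat.sub_zero, adj hB _ v F hF3]; simp, zero_mul] at h1
    change _ * T = T * _
    rw [sum_mul, mul_sum]
    refine (sum_congr rfl fun i hi => ?_).trans ((add_right_cancel h1).trans (sum_congr rfl fun i _ => ?_))
    · rw [mul_assoc, ← pow_succ, Nat.sub_add_comm (Nat.lt_succ_iff.1 (mem_range.1 hi))]
    · rw [pow_succ', Nat.add_sub_add_right, mul_assoc, mul_assoc, mul_assoc])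
  have hφ1 : ∀ v, T v = 0 → φ v - ∑ n ∈ S, B (π n⁻¹ v) F • π n L ∈ LinearMap.range (T ^ (p - 1)) := fun v hv => by
    convert hφv v hv using 3 with n hn
    have e1 : T (π n⁻¹ v) = 0 := map_mem_ker π x (Subgroup.inv_mem _ (hsN n hn)) hv
    rw [LinearMap.sum_apply, sum_range_succ, sum_eq_zero fun i hi => ?_, zero_add, Nat.sub_self, pow_zero, mul_one,
      End.mul_apply, hβa, map_smul, hF, map_smul]
    obtain ⟨c, hc⟩ := Nat.exists_eq_add_of_lt (mem_range.1 hi)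
    rw [hc, add_assoc, Nat.add_sub_cancel_left, pow_succ, End.mul_apply, End.mul_apply (_ ^ c), e1]
    simp
  refine ⟨φ, hφ, fun v hv => ?_, S.card * B L F, mul_ne_zero hs hβ, ?_⟩
  · obtain ⟨c, hc⟩ := (Submodule.mem_span_singleton (R := k) (y := L)).1 (Submodule.sum_mem _ fun n (hn : n ∈ S) => by
      obtain ⟨c, hc⟩ := hN n (hsN n hn)
      exact show B (π n⁻¹ v) F • π n L ∈ _ from hc ▸ Submodule.smul_mem _ _
        (Submodule.smul_mem _ _ (Submodule.mem_span_singleton_self L)))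
    exact ⟨c, hc ▸ hφ1 v hv⟩
  · have e1 := hφ1 L hL
    rw [sum_congr rfl (g := fun _ => B L F • L) fun n hn => ?_] at e1
    · simpa [mul_smul, Nat.cast_smul_eq_nsmul] using e1
    obtain ⟨c, hc⟩ := hN n⁻¹ (Subgroup.inv_mem _ (hsN n hn))
    have h3 : c • π n L = L := by rw [← map_smul, ← hc]; simp
    rw [hc, map_smul, LinearMap.smul_apply, smul_eq_mul, mul_comm, mul_smul, h3]

omit hx hG hB [Finite G] hp [CharP k p] in
theorem exists_fitting {φ : End k M} (hφ : ∀ g, φ * π g = π g * φ) : ∃ A' A : Submodule k M, IsCompl A' A ∧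
    (∀ g, ∀ v ∈ A', π g v ∈ A') ∧ (∀ g, ∀ v ∈ A, π g v ∈ A) ∧ (∀ v, φ v = 0 → v ∈ A') ∧
    (∀ v (c : k), c ≠ 0 → φ v = c • v → v ∈ A) ∧ ∀ y ∈ A, (π x - 1) y = 0 → ∃ v, (π x - 1) v = 0 ∧ φ v = y := by
  obtain ⟨N, hN⟩ := Filter.eventually_atTop.1 (LinearMap.eventually_isCompl_ker_pow_range_pow φ)
  have hc := hN (N + 1) (by omega)
  have h1 : ∀ m g v, (φ ^ m) (π g v) = π g ((φ ^ m) v) := fun m g v =>
    congrArg (· v) (Commute.pow_left (hφ g) m).eq
  have h2 : ∀ m v, (φ ^ m) ((π x - 1) v) = (π x - 1) ((φ ^ m) v) := fun m v => by simp [h1]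
  refine ⟨_, _, hc, fun g v hv => by rw [LinearMap.mem_ker, h1, LinearMap.mem_ker.1 hv, map_zero],
    by rintro g _ ⟨v, rfl⟩; exact ⟨_, h1 _ g v⟩, fun v hv => by simp [pow_succ, hv], fun v c hc hv => ?_, ?_⟩
  · have h3 : ∀ m, (φ ^ m) v = c ^ m • v := fun m => by
      induction m with
      | zero => simp
      | succ m ih => rw [pow_succ', End.mul_apply, ih, map_smul, hv, smul_smul, pow_succ]
    exact ⟨(c ^ (N + 1))⁻¹ • v, by rw [map_smul, h3, smul_smul, inv_mul_cancel₀ (pow_ne_zero _ hc), one_smul]⟩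
  · rintro _ ⟨z, rfl⟩ hz
    obtain ⟨u, hu, _, ⟨w, rfl⟩, rfl⟩ := Submodule.mem_sup.1 (hc.sup_eq_top.ge (Submodule.mem_top (x := z)))
    rw [map_add, LinearMap.mem_ker.1 hu, zero_add] at hz ⊢
    refine ⟨(φ ^ N) ((φ ^ (N + 1)) w), ?_, by rw [← End.mul_apply φ, ← pow_succ']⟩
    rw [← h2, Submodule.disjoint_def.1 hc.disjoint _ (by rw [LinearMap.mem_ker, h2, hz]) ⟨_, h2 _ w⟩, map_zero]

omit hx hG hB [Finite G] [FiniteDimensional k M] hp [CharP k p] in
theorem sub_pow {A : Submodule k M} (hA : ∀ g, ∀ v ∈ A, π g v ∈ A) (j : ℕ) (v : A) :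
    (((π.subrepresentation A hA x - 1) ^ j) v : M) = ((π x - 1) ^ j) v := by
  induction j with
  | zero => rfl
  | succ j ih => rw [pow_succ', pow_succ', End.mul_apply, End.mul_apply, ← ih]; rfl

theorem pgl_of_phi {s : ℕ} (hs : 0 < s) (hs' : 2 * (s + 1) + 1 ≤ p) {L F : M} (hL : (π x - 1) L = 0)
    (hF : ((π x - 1) ^ s) F = L) (hβ : B L F ≠ 0) {φ : End k M} (hφ : ∀ g, φ * π g = π g * φ)
    (h1 : ∀ v, (π x - 1) v = 0 → ∃ c : k, φ v - c • L ∈ LinearMap.range ((π x - 1) ^ (p - 1))) {c : k} (hc : c ≠ 0)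
    (h2 : φ L - c • L ∈ LinearMap.range ((π x - 1) ^ (p - 1)))
    (h3 : ∀ z ∈ LinearMap.range ((π x - 1) ^ (p - 1)), φ z = 0) :
    ∃ ψ : G →* PGL(2, AlgebraicClosure k), ψ x ≠ 1 ∧ ∀ g, π g = 1 → ψ g = 1 := by
  obtain ⟨A', A, hc', hA', hA, e1, e2, e3⟩ := exists_fitting (x := x) hφ
  have hdis := Submodule.disjoint_def.1 hc'.disjoint
  have h4 : φ L ∈ A := e2 _ c hc (by rw [← sub_eq_zero, ← map_smul, ← map_sub, h3 _ h2])
  have h5 : ∀ j, s < j → ∀ y, B (((π x - 1) ^ j) y) F = 0 := fun j hj y => adj hB j y F (by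
    obtain ⟨i, rfl⟩ := Nat.exists_eq_add_of_lt hj
    rw [add_comm s, add_assoc, pow_add, pow_succ', End.mul_apply, End.mul_apply, hF, hL, map_zero])
  have h6 : B (φ L) F ≠ 0 := by
    obtain ⟨y, hy⟩ := h2
    have := h5 (p - 1) (by omega) y
    rw [hy, map_sub, LinearMap.sub_apply, sub_eq_zero] at this
    simpa [this, hc]
  have h7 : ∀ y ∈ A, (π x - 1) y = 0 → ∃ a : k, y = a • φ L := fun y hy h => by
    obtain ⟨v, hv, rfl⟩ := e3 y hy h
    obtain ⟨a, ha⟩ := h1 v hv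
    refine ⟨a / c, sub_eq_zero.1 (hdis _ (e1 _ (h3 _ ?_)) (A.sub_mem hy (A.smul_mem _ h4)))⟩
    convert Submodule.sub_mem _ ha (Submodule.smul_mem _ (a / c) h2) using 1
    rw [smul_sub, smul_smul, div_mul_cancel₀ _ hc]; abel
  have h8 : φ L ≠ 0 := fun e => h6 (by simp [e])
  have hk : ∀ u v, (π.subrepresentation A hA x - 1) u = 0 → (π.subrepresentation A hA x - 1) v = 0 → u ≠ 0 →
      ∃ c : k, v = c • u := fun u v hu hv h0 => by
    obtain ⟨a, ha⟩ := h7 u u.2 (congrArg Subtype.val hu)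
    obtain ⟨b, hb⟩ := h7 v v.2 (congrArg Subtype.val hv)
    exact ⟨b / a, Subtype.ext (by
      rw [Submodule.coe_smul, ha, hb, smul_smul, div_mul_cancel₀ _ fun e => h0 (Subtype.ext (by simp [ha, e]))])⟩
  have : Nontrivial A := ⟨⟨_, h4⟩, 0, fun e => h8 (congrArg Subtype.val e)⟩
  obtain ⟨m, v, b, hb, hm⟩ := exists_jordan ⟨p, pow_char_zero (π.subrepresentation A hA) hx⟩ hk
  have hmd : finrank k A = m := by simpa using finrank_eq_card_basis b
  obtain ⟨ψ, h9, h10⟩ := exists_pgl_of_jordan' (π.subrepresentation A hA) hx hG (by omega) (by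
    by_contra! h
    have e4 := b.ne_zero ⟨m - 1, by omega⟩
    obtain ⟨a, ha⟩ := h7 _ (b ⟨m - 1, by omega⟩).2 (by
      rw [hb, sub_pow, ← End.mul_apply, ← pow_succ', Nat.sub_add_cancel (by omega), ← sub_pow hA, hm]; rfl)
    have e5 := h5 (m - 1) (by omega) v
    rw [← sub_pow hA, ← hb ⟨m - 1, by omega⟩, ha, map_smul, LinearMap.smul_apply, smul_eq_zero, or_iff_left h6] at e5
    exact e4 (Subtype.ext (by simp [ha, e5]))) (by
    by_contra! h
    obtain ⟨u, hu, w, hw, rfl⟩ := Submodule.mem_sup.1 (hc'.sup_eq_top.ge (Submodule.mem_top (x := F)))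
    have e4 := sub_pow (x := x) hA s ⟨w, hw⟩
    rw [pow_eq_zero_of_le (by omega) hm] at e4
    rw [map_add, ← e4] at hF
    refine h8 (hdis _ ?_ h4)
    have e5 : L ∈ A' := by
      rw [← hF, LinearMap.zero_apply, Submodule.coe_zero, add_zero, ← sub_pow hA' s ⟨u, hu⟩]; exact Subtype.property _
    simpa using A'.add_mem (e1 _ (h3 _ h2)) (A'.smul_mem c e5)) hk
  exact ⟨ψ, h9, fun g hg => h10 g fun Y => by
    rw [show π.subrepresentation A hA g = 1 from LinearMap.ext fun v => Subtype.ext (congrArg (· v.1) hg)]; simp⟩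

theorem pgl_of_compl (hs : ∀ u v, B u v = B v u) (h3 : 3 < p) {A' A : Submodule k M} (hc : IsCompl A' A)
    (hA' : ∀ g, ∀ v ∈ A', π g v ∈ A') (hA : ∀ g, ∀ v ∈ A, π g v ∈ A)
    (hZ : LinearMap.range ((π x - 1) ^ (p - 1)) ≤ A) {L F : M} (hL : (π x - 1) L = 0)
    (hF : (π x - 1) ((π x - 1) F) = L) (hβ : B L F ≠ 0) (hN : ∀ n ∈ Nx x, ∃ c : k, π n L = c • L) {y : M}
    (hy : L - ((π x - 1) ^ (p - 1)) y ∈ A') :
    ∃ ψ : G →* PGL(2, AlgebraicClosure k), ψ x ≠ 1 ∧ ∀ g, π g = 1 → ψ g = 1 := by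
  have hdis := Submodule.disjoint_def.1 hc.disjoint
  obtain ⟨q, rfl⟩ : ∃ q, p = q + 1 + 2 + 1 := ⟨p - 4, by omega⟩
  rw [Nat.add_sub_cancel] at hZ hy
  have h1 : (π x - 1) (L - ((π x - 1) ^ (q + 1 + 2)) y) = 0 := by
    rw [map_sub, hL, ← End.mul_apply, ← pow_succ', pow_char_zero π hx]; simp
  obtain ⟨u, hu, w, hw, h2⟩ := Submodule.mem_sup.1 (hc.sup_eq_top.ge
    (Submodule.mem_top (x := F - ((π x - 1) ^ (q + 1)) y)))
  have h4 := congrArg ((π x - 1) ^ 2 : End k M) h2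
  rw [map_add, map_sub, ← End.mul_apply (_ ^ 2) (_ ^ _), ← pow_add, add_comm 2, pow_two, End.mul_apply _ _ F, hF,
    ← pow_two] at h4
  have h5 : ((π x - 1) ^ 2 : End k M) w = 0 := hdis _ (by
    rw [eq_sub_of_add_eq' h4, ← sub_pow hA' 2 ⟨u, hu⟩]; exact A'.sub_mem hy (Subtype.property _))
    (by rw [← sub_pow hA 2 ⟨w, hw⟩]; exact Subtype.property _)
  rw [h5, add_zero] at h4
  obtain ⟨ψ, h6, h7⟩ := exists_pgl_of_form (π := π.subrepresentation A' hA') (x := x)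
    (B := B.compl₁₂ A'.subtype A'.subtype) (L := ⟨_, hy⟩) (F := ⟨u, hu⟩) (by omega) hx hG (fun g u v => hB g u v)
    (fun u v => hs u v) (LinearMap.ext fun v => Subtype.ext (hdis _ (Subtype.property _) (by
      rw [sub_pow]; exact hZ ⟨_, rfl⟩))) (Subtype.ext h1) (Subtype.ext h4) (fun e => hβ (by
      have e1 := adj hB 2 u w h5
      have e2 := adj (x := x) hB (q + 1) y _ (by rw [pow_succ, End.mul_apply, h1, map_zero])
      have e3 := adj (x := x) hB (q + 1 + 2) y F (by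
        rw [pow_add, pow_succ, pow_two, End.mul_apply, End.mul_apply, End.mul_apply, hF, hL, map_zero])
      have e4 := congrArg (B (L - ((π x - 1) ^ (q + 1 + 2)) y)) h2
      rw [h4] at e1
      rw [map_add, show B (L - ((π x - 1) ^ (q + 1 + 2)) y) u = 0 from e, e1, map_sub (B _), hs _ (((π x - 1) ^ (q + 1)) y), e2, map_sub, LinearMap.sub_apply,
        e3] at e4
      simpa using e4.symm)) fun n hn => by
      obtain ⟨c, hc⟩ := hN n hn
      refine ⟨c, Subtype.ext (sub_eq_zero.1 (hdis _ (A'.sub_mem (hA' n _ hy) (A'.smul_mem c hy)) ?_))⟩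
      convert A.sub_mem (A.smul_mem c (hZ ⟨y, rfl⟩)) (hA n _ (hZ ⟨y, rfl⟩)) using 1
      change π n (L - _) - c • (L - _) = _
      rw [map_sub, hc, smul_sub]; abel
  exact ⟨ψ, h6, fun g hg => h7 g (LinearMap.ext fun v => Subtype.ext (congrArg (· v.1) hg))⟩

theorem pgl_two (hs : ∀ u v, B u v = B v u) (h11 : 11 ≤ p) {L F L' F' S : M} (hL : (π x - 1) L = 0)
    (hF : (π x - 1) ((π x - 1) F) = L) (hβ : B L F ≠ 0) (hL' : (π x - 1) L' = 0) (hF' : ((π x - 1) ^ 4 : End k M) F' = L')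
    (hβ' : B L' F' ≠ 0) {a : Nx x → k} (hN : ∀ n : Nx x, π n L = a n • L) (hN' : ∀ n : Nx x, π n L' = a n ^ 2 • L')
    {n : Nx x} (h0 : a n ≠ 0) (h1 : a n ≠ 1) (hS : ∀ z ∈ LinearMap.range ((π x - 1) ^ (p - 1)), ∃ c : k, z = c • S) :
    ∃ ψ : G →* PGL(2, AlgebraicClosure k), ψ x ≠ 1 ∧ ∀ g, π g = 1 → ψ g = 1 := by
  obtain ⟨φ, hφ, h2, c, hc, h3⟩ := exists_phi hx hG hB hL' hF' hβ' fun n hn => ⟨_, hN' ⟨n, hn⟩⟩
  by_cases h4 : ∀ z ∈ LinearMap.range ((π x - 1) ^ (p - 1)), φ z = 0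
  · exact pgl_of_phi hx hG hB (by omega) (by omega) hL' hF' hβ' hφ h2 hc h3 h4
  push Not at h4
  obtain ⟨_, ⟨y, rfl⟩, hz⟩ := h4
  have h5 : ∀ v, φ (((π x - 1) ^ (p - 1)) v) = ((π x - 1) ^ (p - 1)) (φ v) := fun v =>
    congrArg (· v) (((show Commute φ (π x) from hφ x).sub_right (Commute.one_right φ)).pow_right _).eq
  have h6 : ∀ z ∈ LinearMap.range ((π x - 1) ^ (p - 1)), ∃ c : k, z = c • ((π x - 1) ^ (p - 1)) y := fun z h => by
    obtain ⟨a, ha⟩ := hS _ ⟨y, rfl⟩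
    obtain ⟨b, rfl⟩ := hS z h
    exact ⟨b / a, by rw [ha, smul_smul, div_mul_cancel₀ _ fun e => hz (by simp [ha, e])]⟩
  obtain ⟨γ, hγ⟩ := h6 _ ⟨_, (h5 y).symm⟩
  have hγ0 : γ ≠ 0 := fun e => hz (by simp [hγ, e])
  obtain ⟨A', A, hc', hA', hA, e1, e2, -⟩ := exists_fitting (x := x) hφ
  obtain ⟨b, hb⟩ := h2 L hL
  obtain rfl : b = 0 := by
    by_contra hb0
    obtain ⟨w, hw⟩ := Submodule.smul_mem _ (b * (a n - a n ^ 2))⁻¹
      (Submodule.sub_mem _ (map_mem_range_pow π x n.2 _ hb) (Submodule.smul_mem _ (a n) hb))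
    have e3 := adj (x := x) hB (p - 1) w F' (by
      obtain ⟨i, hi⟩ := Nat.exists_eq_add_of_le' (show 4 + 1 ≤ p - 1 by omega)
      rw [hi, pow_add, pow_succ', End.mul_apply, End.mul_apply, hF', hL', map_zero])
    rw [hw, map_sub (π n), map_smul (π n), hN', ← End.mul_apply, ← hφ, End.mul_apply, hN, map_smul φ, smul_sub (a n), smul_smul,
      smul_smul, sub_sub_sub_cancel_left, ← sub_smul, smul_smul, show a n * b - b * a n ^ 2 = b * (a n - a n ^ 2) by ring,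
      inv_mul_cancel₀ (mul_ne_zero hb0 (by rw [pow_two, ← mul_one_sub]; exact mul_ne_zero h0 (sub_ne_zero.2 h1.symm))),
      one_smul] at e3
    exact hβ' e3
  obtain ⟨d, hd⟩ := h6 _ hb
  refine pgl_of_compl hx hG hB hs (by omega) hc' hA' hA (fun z h => ?_) hL hF hβ (fun n hn => ⟨_, hN ⟨n, hn⟩⟩)
    (y := (d / γ) • y) (e1 _ ?_)
  · obtain ⟨c, rfl⟩ := h6 z h
    exact A.smul_mem _ (e2 _ γ hγ0 hγ)
  · rw [map_smul, map_sub, map_smul, hγ, smul_smul, div_mul_cancel₀ _ hγ0, ← hd]; simp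

end Cfsg.Agent.CH.Deg
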