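import Cfsg.Agent.CH.Deg6

/-! An irreducible character of degree `(p + 1) / 2` gives a map to `PGL₂` (`exists_pgl_of_half`). -/

namespace Cfsg.Agent.CH.Deg

open Module Finset Polynomial Cfsg.Agent.Small Cfsg.Agent.CH.Low Cfsg.Agent.Char
open scoped MatrixGroups

variable {k V : Type*} [Field k] [AddCommGroup V] [Module k V]

theorem sum_aux₂ (m : ℕ) : 30 * ∑ j ∈ range m, (j : k) * (m - j) * ((j - 1) * (m - j + 1)) =
    (m - 2) * ((m - 1) * (m * ((m + 1) * (m + 2)))) := by
  have h1 : ∀ n : ℕ, 30 * ∑ j ∈ range n, (j : k) * (m - j) * ((j - 1) * (m - j + 1)) = n * (n - 1) * (n - 2) *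
      (10 * (m - 1) * (m - 2) - 15 * (m - 2) * (n - 3) + 6 * (n - 3) * (n - 4)) := fun n => by
    induction n with
    | zero => simp
    | succ n ih => rw [sum_range_succ, mul_add, ih]; push_cast; ring
  rw [h1]; ring

theorem exists_sl2' {m : ℕ} {T : End k V} {v : V} (b : Basis (Fin m) k V)
    (hb : ∀ j, b j = (T ^ (j : ℕ)) v) (hT : T ^ m = 0) (h2 : (2 : k) ≠ 0) :
    ∃ (F : End k V) (t t' : k), T * (T * F - F * T) - (T * F - F * T) * T = T ∧ 12 * t = -((m - 1) * m * (m + 1)) ∧
      120 * t' = (m - 2) * ((m - 1) * (m * ((m + 1) * (m + 2)))) ∧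
      (∀ f : k[X], LinearMap.trace k V (aeval T f * F) = f.coeff 1 * t) ∧
      ∀ f : k[X], LinearMap.trace k V (aeval T f * (F * F)) = f.coeff 2 * t' := by
  classical
  let a : ℕ → k := fun j => -((j : k) * (m - j)) / 2
  let w : ℕ → V := fun j => (T ^ j) v
  have hw : ∀ j, m ≤ j → w j = 0 := fun j hj => by simp only [w, pow_eq_zero_of_le hj hT, LinearMap.zero_apply]
  have hTw : ∀ i j, (T ^ i) (w j) = w (i + j) := fun i j => by simp only [w, pow_add, End.mul_apply]
  have hTw1 : ∀ j, T (w j) = w (j + 1) := fun j => by rw [add_comm, ← hTw, pow_one]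
  let F : End k V := b.constr k fun j => a j • w (j - 1)
  have hF : ∀ j, F (w j) = a j • w (j - 1) := fun j => by
    rcases lt_trichotomy j m with h | rfl | h
    · exact (congrArg F (hb ⟨j, h⟩).symm).trans (b.constr_basis k _ _)
    · simp [hw j le_rfl, a]
    · rw [hw j h.le, hw _ (by omega), map_zero, smul_zero]
  have hr : ∀ (i : ℕ) (j : Fin m), b.repr (w i) j = if i = j then 1 else 0 := fun i j => by
    rcases lt_or_ge i m with h | h
    · rw [show w i = b ⟨i, h⟩ from (hb ⟨i, h⟩).symm, b.repr_self, Finsupp.single_apply]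
      simp [Fin.ext_iff]
    · rw [hw i h, if_neg (by omega)]; simp
  have htr : ∀ (Y : End k V) (c : ℕ → k) (r : ℕ), (∀ j, Y (w j) = c j • w (j - r)) → (∀ j < r, c j = 0) →
      ∀ f : k[X], LinearMap.trace k V (aeval T f * Y) = f.coeff r * ∑ j ∈ range m, c j := fun Y c r h1 h3 f => by
    induction f using Polynomial.induction_on' with
    | add f g hf hg => simp only [map_add, add_mul, hf, hg, coeff_add]
    | monomial i d =>
      rw [aeval_monomial, ← Algebra.smul_def, smul_mul_assoc, map_smul, coeff_monomial,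
        LinearMap.trace_eq_matrix_trace k b, Matrix.trace, ← Fin.sum_univ_eq_sum_range,
        sum_congr rfl (g := fun j : Fin m => if i = r then c j else 0) fun j _ => ?_]
      · split_ifs <;> simp
      rw [Matrix.diag_apply, LinearMap.toMatrix_apply, hb, End.mul_apply, h1, map_smul, hTw, map_smul,
        Finsupp.smul_apply, hr]
      rcases lt_or_ge (j : ℕ) r with h | h
      · simp [h3 j h]
      · simp only [smul_eq_mul, mul_ite, mul_one, mul_zero]
        exact if_congr (by omega) rfl rfl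
  refine ⟨F, _, _, b.ext fun j => ?_, ?_, ?_, htr F a 1 hF (by simp [a]), htr (F * F) (fun j => a j * a (j - 1)) 2
    (fun j => by rw [End.mul_apply, hF, map_smul, hF, smul_smul]; rfl) fun j hj => by interval_cases j <;> simp [a]⟩
  · simp only [hb, LinearMap.sub_apply, End.mul_apply, map_sub]
    change T (T (F (w j))) - T (F (T (w j))) - (T (F (T (w j))) - F (T (T (w j)))) = T (w j)
    simp only [hTw1, hF, map_smul, Nat.add_sub_cancel]
    have h3 : a j • w (j - 1 + 1 + 1) = a j • w (j + 1) := by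
      rcases Nat.eq_zero_or_pos j with h | h
      · simp [h, a]
      · rw [Nat.sub_add_cancel h]
    rw [h3, ← sub_smul, ← sub_smul, ← sub_smul]
    convert one_smul k _
    simp only [a]
    push_cast
    field_simp
    ring
  · rw [← sum_aux, mul_sum, mul_sum, ← sum_neg_distrib]
    refine sum_congr rfl fun j _ => ?_
    simp only [a]
    field_simp
    ring
  · rw [← sum_aux₂, mul_sum, mul_sum]
    refine sum_congr rfl fun j _ => ?_
    rcases j with _ | j
    · simp [a]
    simp only [a, Nat.add_sub_cancel]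
    push_cast
    field_simp
    ring

variable {G : Type*} [Group G] [Finite G] {p : ℕ} [hp : Fact p.Prime] {x : G}

theorem exists_pgl_of_block [FiniteDimensional k V] [CharP k p] (ρ : Representation k G V) (hx : orderOf x = p)
    (hG : ¬ p ∣ (Subgroup.zpowers x).index) (h11 : 11 ≤ p) (hd : 2 * finrank k V = p + 1)
    (hk : ∀ u v, (ρ x - 1) u = 0 → (ρ x - 1) v = 0 → u ≠ 0 → ∃ c : k, v = c • u) {n : Nx x} (hn : expo hx n ≠ 1) :
    ∃ φ : G →* PGL(2, AlgebraicClosure k), φ x ≠ 1 ∧ ∀ g, (∀ Y, ρ g * Y = Y * ρ g) → φ g = 1 := by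
  classical
  have : Nontrivial V := Module.nontrivial_of_finrank_pos (R := k) (by omega)
  have hlt : ∀ n : ℕ, 0 < n → n < p → (n : k) ≠ 0 := fun n h0 h1 e =>
    Nat.not_dvd_of_pos_of_lt h0 h1 ((CharP.cast_eq_zero_iff k p n).1 e)
  obtain ⟨q, hq, -, hD⟩ := exists_DD (by omega) hx ρ
  obtain ⟨m, v, b, hb, hm⟩ := exists_jordan ⟨p, pow_char_zero ρ hx⟩ hk
  set T := ρ x - 1 with hT
  have hu : ρ x = 1 + T := by rw [hT]; abel
  have hmd : finrank k V = m := by simpa using finrank_eq_card_basis b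
  obtain ⟨F, t, t', hF, ht, ht', htr, htr'⟩ := exists_sl2' b hb hm (by exact_mod_cast hlt 2 (by omega) (by omega))
  obtain ⟨r, rfl⟩ : ∃ r, m = r + 2 := ⟨m - 2, by omega⟩
  have h1 : ∀ i ≤ 4, (r : k) + (i : ℕ) ≠ 0 := fun i hi => by exact_mod_cast hlt (r + i) (by omega) (by omega)
  have h2 := mul_ne_zero (h1 1 (by omega)) (mul_ne_zero (h1 2 (by omega)) (h1 3 (by omega)))
  have ht0 : t ≠ 0 := fun e => h2 (by rw [e] at ht; push_cast at ht ⊢; linear_combination ht)
  have ht0' : t' ≠ 0 := fun e => mul_ne_zero (h1 0 (by omega)) (mul_ne_zero h2 (h1 4 (by omega))) (by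
    rw [e] at ht'; push_cast at ht' ⊢; linear_combination -ht')
  let π : Representation k G (End k V) := ρ.linHom ρ
  have hπ : ∀ g Y, π g Y = ρ g * Y * ρ g⁻¹ := fun g Y => (mul_assoc _ _ _).symm
  have hi : ∀ g, ρ g⁻¹ * ρ g = 1 := fun g => by rw [← map_mul]; simp
  have hi' : ∀ g, ρ g * ρ g⁻¹ = 1 := fun g => by rw [← map_mul]; simp
  have hcT : Commute (ρ x⁻¹) T := (((Commute.refl x).inv_left).map ρ).sub_right (Commute.one_right _)
  let ad : End k (End k V) := LinearMap.mulLeft k T + LinearMap.mulRight k (-T)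
  have had : ∀ Y, ad Y = T * Y - Y * T := fun Y => by simp [ad, sub_eq_add_neg]
  have hπ1 : π x - 1 = ad * LinearMap.mulRight k (ρ x⁻¹) := LinearMap.ext fun Y => by
    rw [LinearMap.sub_apply, hπ, End.mul_apply, had, LinearMap.mulRight_apply, mul_assoc Y, hcT.eq, hT]
    simp [mul_sub, sub_mul, mul_assoc, hi']
  have hc : ∀ f : k[X], T * aeval T f = aeval T f * T := fun f => by
    simpa only [aeval_X] using ((Commute.all X f).map (aeval T)).eq
  have h3 : ∀ (j : ℕ) Y (f : k[X]), ((π x - 1) ^ j) (Y * aeval T (f * (1 + X) ^ j)) = (ad ^ j) Y * aeval T f := by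
    intro j
    induction j with
    | zero => simp
    | succ j ih =>
      intro Y f
      rw [pow_succ, pow_succ ad, End.mul_apply, End.mul_apply, ← ih]
      congr 1
      rw [hπ1, End.mul_apply, LinearMap.mulRight_apply, pow_succ, ← mul_assoc f, map_mul (aeval T), map_add (aeval T),
        map_one, aeval_X,
        ← hu, mul_assoc, mul_assoc, hi', mul_one, had, had, sub_mul (T * Y), mul_assoc Y, mul_assoc Y, hc,
        mul_assoc T]
  have h4 : ∀ Y Z, ad (Y * Z) = ad Y * Z + Y * ad Z := fun Y Z => by simp only [had]; noncomm_ring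
  have h5 : ad (ad F) = T := by rw [had, had, hF]
  have h6 : ad T = 0 := by simp [had]
  have h7 : ∀ f : k[X], (π x - 1) (aeval T f) = 0 := fun f => by
    rw [LinearMap.sub_apply, hπ, hu, add_mul, hc, one_mul, ← mul_one_add, ← hu, mul_assoc, hi']; simp
  have h8 : DD p ρ x = aeval T (X * q) := by rw [hD, map_mul, aeval_X]
  have h9 : ∀ n : Nx x, π n (DD p ρ x) = ZMod.castHom dvd_rfl k (expo hx n : ZMod p) • DD p ρ x := fun n => by
    rw [hπ, mul_DD ρ (conj_xp_expo hx n), smul_mul_assoc, mul_assoc, hi', mul_one]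
  have h6' : (6 : k) ≠ 0 := by exact_mod_cast hlt 6 (by omega) (by omega)
  have h12 : ∀ Z : End k V, ∃ c : k, T ^ (r + 1) * (Z * T ^ (r + 1)) = c • T ^ (r + 1) := fun Z => by
    have e2 : ∀ w, T ((T ^ (r + 1)) w) = 0 := fun w => by rw [← End.mul_apply, ← pow_succ', hm]; rfl
    have e3 : (T ^ (r + 1)) v ≠ 0 := hb ⟨r + 1, by omega⟩ ▸ b.ne_zero _
    obtain ⟨c, hc⟩ := hk _ _ (e2 v) (e2 (Z ((T ^ (r + 1)) v))) e3
    refine ⟨c, LinearMap.ext fun w => ?_⟩
    obtain ⟨c', hc'⟩ := hk _ _ (e2 v) (e2 w) e3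
    rw [End.mul_apply, End.mul_apply, LinearMap.smul_apply, hc', map_smul, map_smul, hc, smul_comm]
  obtain ⟨φ, h10, h11⟩ := pgl_two (π := π) (B := (LinearMap.mul k (End k V)).compr₂ (LinearMap.trace k V)) hx hG
    (fun g Y Z => by
      simp only [LinearMap.compr₂_apply, LinearMap.mul_apply', hπ]
      rw [mul_assoc, mul_assoc, LinearMap.trace_mul_comm]
      simp only [← mul_assoc]
      rw [mul_assoc Y, hi, mul_one, mul_assoc, hi, mul_one]) (fun Y Z => LinearMap.trace_mul_comm k Y Z) h11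
    (L := DD p ρ x) (F := F * aeval T (q * (1 + X) ^ 2)) (L' := DD p ρ x * DD p ρ x)
    (F' := F * F * aeval T (C 6⁻¹ * q ^ 2 * (1 + X) ^ 4)) (S := T ^ (r + 1)) (h8 ▸ h7 _) (by
      have := h3 2 F q
      rwa [pow_two, pow_two ad, End.mul_apply, End.mul_apply, h5, ← hD] at this) (by
      simp only [LinearMap.compr₂_apply, LinearMap.mul_apply']
      rw [← mul_assoc, LinearMap.trace_mul_comm, ← mul_assoc, h8, ← map_mul, htr, mul_left_comm, coeff_X_mul]
      simp [pow_two, hq, ht0]) (by rw [h8, ← map_mul]; exact h7 _) (by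
      rw [h3, show (ad ^ 4) (F * F) = (6 : k) • (T * T) by
        simp only [pow_succ, pow_zero, End.mul_apply, End.one_apply, h4, map_add, h5, h6, mul_zero, zero_mul,
          map_zero]
        module, hD, map_mul, aeval_C, ← Algebra.smul_def, smul_mul_smul_comm, mul_inv_cancel₀ h6', one_smul, map_pow,
        pow_two, mul_assoc, mul_assoc, ← mul_assoc T (aeval T q), hc, mul_assoc, hc]) (by
      simp only [LinearMap.compr₂_apply, LinearMap.mul_apply']
      rw [← mul_assoc, LinearMap.trace_mul_comm, ← mul_assoc, h8, ← map_mul, ← map_mul, htr',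
        show C 6⁻¹ * q ^ 2 * (1 + X) ^ 4 * (X * q * (X * q)) = X ^ 2 * (C (6⁻¹ : k) * q ^ 4 * (1 + X) ^ 4) by ring,
        show 2 = 0 + 2 from rfl, coeff_X_pow_mul]
      simp [coeff_zero_eq_eval_zero, ← hq, ht0', h6']
      rw [← coeff_zero_eq_eval_zero, hq]; exact one_ne_zero) h9 (fun n => by
      have := h9 n
      rw [hπ] at this ⊢
      rw [pow_two, ← smul_mul_smul_comm, ← this]
      simp only [mul_assoc]
      rw [← mul_assoc (ρ _⁻¹), hi, one_mul]) (n := n) ((_root_.map_ne_zero _).2 (Units.ne_zero _)) (by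
      rwa [Ne, ← map_one (ZMod.castHom dvd_rfl k), (RingHom.injective _).eq_iff, Units.val_eq_one]) (by
      rintro _ ⟨Y, rfl⟩
      have e1 : Commute ad (LinearMap.mulRight k (ρ x⁻¹)) := LinearMap.ext fun Y => by
        simp [had, sub_mul, mul_assoc, hcT.eq]
      rw [hπ1, e1.mul_pow, End.mul_apply, (LinearMap.commute_mulLeft_right T (-T)).add_pow, LinearMap.sum_apply,
        sum_eq_single (r + 1) (fun i _ hi => ?_) (by simp; omega)]
      · rw [show p - 1 - (r + 1) = r + 1 by omega, End.mul_apply, End.mul_apply, LinearMap.pow_mulLeft,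
          LinearMap.pow_mulRight, neg_pow T, LinearMap.mulLeft_apply, LinearMap.mulRight_apply, ← mul_assoc _ (_ ^ _)]
        exact h12 _
      · rcases lt_or_gt_of_ne hi with h | h
        · simp [LinearMap.pow_mulRight, neg_pow T, pow_eq_zero_of_le (show r + 2 ≤ p - 1 - i by omega) hm]
        · simp [LinearMap.pow_mulLeft, pow_eq_zero_of_le (show r + 2 ≤ i by omega) hm])
  exact ⟨φ, h10, fun g hg => h11 g (LinearMap.ext fun Y => by rw [hπ, hg, mul_assoc, hi', mul_one, End.one_apply])⟩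

theorem exists_pgl_of_half {K : Subgroup G} (h : DefOne p x K) (hK : K ≤ Subgroup.center G) (h11 : 11 ≤ p)
    {χ : G → ℂ} (hχ : IsIrrCharacter G χ) (hd : 2 * charDegree χ = p + 1) {n : Nx x} (hn : expo h.ord n ≠ 1) :
    ∃ (F : Type) (_ : Field F) (_ : IsAlgClosed F) (_ : CharP F p) (φ : G →* PGL(2, F)),
      φ x ≠ 1 ∧ ∀ z ∈ Subgroup.center G, φ z = 1 := by
  have := Fintype.ofFinite G
  obtain ⟨R, _, k, _, _, _, ι, red, m, A, hms, htr, hloc⟩ := exists_local_model p hχ
  have hm : charDegree χ = m := charDegree_eq_of_apply_one (by rw [← htr]; simp)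
  have h1 := tate_le hms h hK _ (redRep_loc hloc)
  rw [pow_eq_zero_of_le (by simp; omega) (pow_finrank_zero (redRep red A) h.ord), LinearMap.range_zero, finrank_bot,
    zero_add, finrank_le_one_iff] at h1
  obtain ⟨φ, h2, h3⟩ := exists_pgl_of_block (redRep red A) h.ord h.notdvd h11 (by simpa [hm] using hd)
    (fun u v hu hv h0 => by
      obtain ⟨w, hw⟩ := h1
      obtain ⟨a, ha⟩ := hw ⟨u, hu⟩
      obtain ⟨b, hb⟩ := hw ⟨v, hv⟩
      have e1 : a • w.1 = u := congrArg Subtype.val ha
      have e2 : b • w.1 = v := congrArg Subtype.val hb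
      exact ⟨b / a, by rw [← e1, ← e2, smul_smul, div_mul_cancel₀ _ fun e => h0 (by rw [← e1, e, zero_smul])]⟩) hn
  refine ⟨_, inferInstance, inferInstance, inferInstance, φ, h2, fun z hz => h3 z fun Y => ?_⟩
  obtain ⟨r, hr, -⟩ := eq_smul_one hms.inj hχ htr hz
  rw [show redRep red A z = red r • 1 by
    rw [redRep_apply, hr]; ext; simp [Matrix.one_apply, Pi.single_apply, apply_ite red]]
  simp

end Cfsg.Agent.CH.Deg
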