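import Cfsg.Agent.CH.Deg7
import Cfsg.Agent.Char.FS

/-! Exceptional constituents of the symmetric and alternating squares of a character of degree `p - e`. -/

namespace Cfsg.Agent.CH.Deg

open Finset Cfsg.Agent.Small Cfsg.Agent.CH.Low Cfsg.Agent.Char
open scoped ComplexConjugate

variable {p : ℕ} [hp : Fact p.Prime] {G : Type*} [Group G] [Fintype G] {x : G} {K : Subgroup G} [Fintype K]

omit [Fintype K] in
theorem le_two_mul (h : DefOne p x K) (hn : ¬ (Subgroup.zpowers x).Normal) {ζ ξ : G → ℂ} (hζ : IsCharacter G ζ)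
    (hf : ∀ g, ζ g = ζ 1 → g = 1) (hd : charDegree ζ + 1 < p) (hξ : IsCharacter G ξ) (hx : ξ x ≠ ξ 1) :
    p ≤ 2 * charDegree ξ + 1 := by
  have := Fintype.ofFinite (Subgroup.normalClosure {x})
  obtain ⟨K', h'⟩ := h.exists_defOne_subgroup (H := Subgroup.normalClosure {x}) (Subgroup.subset_normalClosure rfl)
  have := Fintype.ofFinite K'
  obtain ⟨c, hc, e⟩ := (hξ.restrict (Subgroup.normalClosure {x})).exists_nat_coeff
  obtain ⟨ψ, h1, h2⟩ : ∃ ψ, c ψ ≠ 0 ∧ ψ.1 ⟨x, Subgroup.subset_normalClosure rfl⟩ ≠ ψ.1 1 := by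
    by_contra! h1
    refine hx ((congrFun e ⟨x, Subgroup.subset_normalClosure rfl⟩).trans (.trans ?_ (congrFun e 1).symm))
    simp only [Finset.sum_apply, Pi.smul_apply]
    exact sum_congr rfl fun ψ _ => by by_cases h0 : c ψ = 0 <;> simp [h0, h1]
  by_cases h3 : charDegree ψ.1 = 1
  · have h4 : ψ.1 1 = 1 := by rw [ψ.2.apply_one_eq_charDegree, h3, Nat.cast_one]
    obtain ⟨l, hl⟩ := ψ.2.isCharacter.exists_hom_of_apply_one h4
    have h5 := normal_of_cent h' (fun g hg => (expo_eq_one_iff h'.ord ⟨g, hg⟩).1 (by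
      have e1 := congrArg l (conj_xp_expo h'.ord ⟨g, hg⟩ 1)
      have e2 : orderOf (l ⟨x, Subgroup.subset_normalClosure rfl⟩) = p :=
        orderOf_eq_prime (by rw [← map_pow, ← h'.ord, pow_orderOf_eq_one, map_one]) fun e => h2 (by simp [hl, e])
      rw [map_mul, map_mul, map_inv, mul_inv_cancel_comm, mul_one, xp, xp, map_pow, map_pow] at e1
      exact Units.ext (xp_injective e2 e1).symm)) (hζ.restrict _) (fun g hg => Subtype.ext (hf g hg)) hd
    have h6 := h.eq_top_normalClosure _ h5 (Subgroup.mem_zpowers _)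
    refine absurd (h.normal_of_forall_mem_Nx fun g => Subgroup.le_normalizer ?_) hn
    obtain ⟨j, hj⟩ := h6.ge (Subgroup.mem_top (⟨g * x * g⁻¹, Subgroup.normalClosure_normal.conj_mem x
      (Subgroup.subset_normalClosure (Set.mem_singleton x)) g⟩ : Subgroup.normalClosure {x}))
    exact ⟨j, by simpa using congrArg Subtype.val hj⟩
  have h4 := h'.le_two_mul_degree_of_gen h.eq_top_normalClosure h3
  have h5 := (hξ.restrict _).apply_one_re_le_of_classInner_ne_zero ψ.2 (by rw [hc]; exact_mod_cast h1)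
  rw [ψ.2.apply_one_eq_charDegree, OneMemClass.coe_one, hξ.apply_one_eq_charDegree] at h5
  have h6 : charDegree ψ.1 ≤ charDegree ξ := by exact_mod_cast h5
  omega

variable {h : DefOne p x K} (hK : K ≤ Subgroup.center G)
include hK

omit [Fintype G] [Fintype K] in
theorem cj_eq (n : Nx x) (θ : IrrCharacter K) : h.cj n θ = θ := Subtype.ext (funext fun y => congrArg θ.1
  (Subtype.ext (by rw [h.coe_actK, Subgroup.mem_center_iff.1 (hK y.2), mul_inv_cancel_right])))

omit [Fintype G] [Fintype K] in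
theorem inert_eq (θ : IrrCharacter K) : h.inert θ = ⊤ := eq_top_iff.2 fun n _ => cj_eq hK n θ

omit [Fintype G] [Fintype K] in
theorem EE_eq (θ : IrrCharacter K) : h.EE θ = E[h] := by rw [DefOne.EE, inert_eq hK, MonoidHom.range_eq_map]

omit [Fintype G] [Fintype K] in
theorem apply_one (θ : IrrCharacter K) : θ.1 1 = 1 :=
  θ.2.apply_one_of_comm fun a b => Subtype.ext (Subgroup.mem_center_iff.1 (hK b.2) a)

omit [Fintype G] [Fintype K] in
theorem deg_one (θ : IrrCharacter K) : charDegree θ.1 = 1 := charDegree_eq_of_apply_one (by simp [apply_one hK])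

include h in
theorem apply_central {θ : IrrCharacter K} {χ : IrrCharacter G} (hχ : χ ∈ blk p x θ) (g : G) (y : K) :
    χ.1 (g * y) = χ.1 g * θ.1 y := by
  obtain ⟨M, _⟩ := exists_pmod p
  have h1 : uu x χ.1 θ.1 (1 : ZMod p) ≠ 0 := fun e => h.red_uu_ne_zero M hχ 1 (by rw [e]; simp)
  have h2 := fun y => h.apply_eq_of_invariant hχ (fun n => cj_eq hK n θ) one_ne_zero y
  obtain ⟨ω, -, hω⟩ := χ.2.center_le_charCenter (hK y.2)
  have h3 := h2 1
  have h4 := h2 y
  rw [OneMemClass.coe_one, mul_one, apply_one hK, mul_one] at h3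
  rw [h.comm_xp, hω, h3, mul_comm, mul_right_inj' h1] at h4
  rw [Subgroup.mem_center_iff.1 (hK y.2), hω, h4, mul_comm]

variable {θ : IrrCharacter K} {X : Finset (IrrCharacter G)} {φ : (ZMod p)ˣ → IrrCharacter G}
  {δ : IrrCharacter G → ℤ} {ε : ℤ} (s : Shape h θ X φ δ ε)
include s

theorem apply_xp (a : (ZMod p)ˣ) (j : ZMod p) :
    (φ a).1 (xp x j) = (if j = 0 then (p : ℂ) * fixd p x (φ a).1 else 0) + ε * eta E[h] (a * j) := by
  split_ifs with hj
  · have h1 := congrArg (Int.cast (R := ℂ)) (s.fixd_φ a)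
    rw [inert_eq hK, EE_eq hK, deg_one hK, Subgroup.index_top] at h1
    rw [hj, xp_zero, mul_zero, eta_zero, (φ a).2.apply_one_eq_charDegree]
    simpa using h1
  · rw [s.apply_xp_φ a hj, deg_one hK]; simp

theorem exists_eq {Λ : G → ℂ} (hΛ : IsCharacter G Λ) (h1 : ∀ g (y : K), Λ (g * y) = Λ g * θ.1 y)
    {c : IrrCharacter G → ℕ} (hc : Λ = ∑ χ : IrrCharacter G, (c χ : ℂ) • (χ : G → ℂ)) :
    ∃ A : ℤ, (p * fixd p x Λ : ℤ) + ε * (Nat.card E[h] * ∑ χ ∈ Phi φ, c χ) = charDegree Λ + (p - 1) * A := by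
  have h2 : ∀ j : ZMod p, Λ (xp x j) = ∑ χ : IrrCharacter G, c χ * uu x χ.1 θ.1 j := fun j => by
    have e1 : uu x Λ θ.1 j = Λ (xp x j) := by
      rw [uu, show (fun y : K => Λ (xp x j * y)) = Λ (xp x j) • θ.1 from funext (h1 _), classInner_smul_left,
        θ.2.classInner_self, mul_one]
    rw [← e1, uu, show (fun y : K => Λ (xp x j * y)) = ∑ χ : IrrCharacter G, (c χ : ℂ) •
      fun y : K => χ.1 (xp x j * y) by ext y; rw [hc]; simp, classInner_sum_left]
    exact sum_congr rfl fun χ _ => classInner_smul_left _ _ _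
  refine ⟨∑ χ ∈ X, c χ * δ χ, Int.cast_injective (α := ℂ) ?_⟩
  push_cast
  rw [fixd_cast h.ord hΛ, sum_zmod_eq, xp_zero, hΛ.apply_one_eq_charDegree, add_assoc, add_right_inj,
    sum_congr rfl fun (j : (ZMod p)ˣ) _ => h2 j, sum_comm, s.sum_irr_split, sum_eq_zero (s := Rest p x θ) fun χ hχ =>
      sum_eq_zero fun j _ => by rw [h.uu_eq_zero_of_notMem (mem_Rest.1 hχ) j.ne_zero, mul_zero], add_zero,
    sum_congr (s₁ := Phi φ) rfl (f := fun χ => ∑ j : (ZMod p)ˣ, c χ * uu x χ.1 θ.1 (j : ZMod p))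
      (g := fun χ => -(ε * (Nat.card E[h] * c χ))) fun χ hχ => ?_, sum_neg_distrib, mul_sum,
    mul_sum, neg_add_cancel_right, mul_sum]
  · refine sum_congr rfl fun χ hχ => ?_
    rw [sum_congr rfl fun (j : (ZMod p)ˣ) _ => by rw [s.uu_X hχ j.ne_zero], sum_const, card_univ, ZMod.card_units,
      nsmul_eq_mul, Nat.cast_pred hp.out.pos]
  · obtain ⟨a, rfl⟩ := mem_Phi.1 hχ
    rw [sum_congr rfl fun (j : (ZMod p)ˣ) _ => by rw [s.uu_φ a j.ne_zero, EE_eq hK, mul_comm (a : ZMod p)], ← mul_sum,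
      ← mul_sum, sum_eta_ne_zero _ a.ne_zero]
    ring

theorem exists_lam [Fintype (Nx x)] (h1 : fixd p x (φ 1).1 ≠ 0) : ∃ l : Nx x → ℂ, IsCharacter (Nx x) l ∧ l 1 = 1 ∧
    (∀ (j : ZMod p) (y : K) (n : Nx x), (n : G) = xp x j * y → l n = θ.1 y) ∧
    ∀ {Λ : G → ℂ} {c : IrrCharacter G → ℕ}, Λ = ∑ χ : IrrCharacter G, (c χ : ℂ) • (χ : G → ℂ) →
      ∃ m : ℕ, classInner (fun n : Nx x => fixPart p x Λ n) l = m ∧ ∑ χ ∈ Phi φ, c χ ≤ m := by
  classical
  have hF := fun χ : IrrCharacter G => isCharacter_fixPart h.ord χ.2.isCharacter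
  obtain ⟨l, hl, h2⟩ := (hF (φ 1)).isClassFunction.exists_irr_classInner_ne_zero fun e => h1 (by
    simpa using (fixPart_one h.ord (φ 1).2.isCharacter).symm.trans (congrFun e 1))
  have h3 : ∀ a (j : ZMod p) (y : K), fixPart p x (φ a).1 (xp x j * y) = fixd p x (φ a).1 * θ.1 y := fun a j y => by
    rw [← fixPart_one h.ord (φ a).2.isCharacter, fixPart, fixPart, mul_assoc, sum_mul]
    refine congrArg _ (Fintype.sum_equiv (Equiv.addLeft j) _ _ fun i => ?_)
    rw [mul_assoc, ← h.comm_xp, ← mul_assoc, apply_central (h := h) hK (s.φ_mem a), one_mul, ← xp_add h.ord]; rfl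
  have h4 : ∀ n : Nx x, (n : G) ∈ Subgroup.zpowers x → l n = l 1 := fun n hn => by
    obtain ⟨j, hj⟩ := (mem_zpowers_iff_xp h.ord).1 hn
    refine (hF (φ 1)).apply_eq_of_classInner_ne_zero hl h2 ?_
    have e1 := h3 1 j 1
    rw [OneMemClass.coe_one, mul_one, apply_one hK, mul_one, ← hj] at e1
    exact e1.trans (fixPart_one h.ord (φ 1).2.isCharacter).symm
  have h5 : l 1 = 1 := hl.apply_one_eq_one_iff.2 fun n hn => h4 n (comm_le h hK hn)
  have h6 : ∀ (y : K) (n : Nx x), (n : G) = y → l n = θ.1 y := fun y n hn => by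
    have e1 := classInner_comp_equiv (fun n : Nx x => fixPart p x (φ 1).1 n) l (Equiv.mulRight n)
    have e2 : ∀ g : Nx x, fixPart p x (φ 1).1 (g * n : Nx x) = θ.1 y * fixPart p x (φ 1).1 g := fun g => by
      rw [fixPart, fixPart, mul_left_comm, mul_sum _ _ (θ.1 y)]
      refine congrArg _ (sum_congr rfl fun i _ => ?_)
      rw [Subgroup.coe_mul, hn, mul_assoc, ← h.comm_xp, ← mul_assoc, apply_central (h := h) hK (s.φ_mem 1), mul_comm]
    simp only [Equiv.coe_mulRight, e2, hl.isCharacter.map_mul_of_apply_one h5, mul_comm _ (l n)] at e1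
    rw [show (fun g : Nx x => θ.1 y * fixPart p x (φ 1).1 g) = θ.1 y • fun g : Nx x => fixPart p x (φ 1).1 g from rfl,
      show (fun g => l n * l g) = l n • l from rfl, classInner_smul_left, classInner_smul_right, ← mul_assoc,
      mul_eq_right₀ h2, ← hl.apply_inv] at e1
    rw [← one_mul (l n), ← e1, mul_assoc, ← hl.isCharacter.map_mul_of_apply_one h5, inv_mul_cancel, h5, mul_one]
  refine ⟨l, hl.isCharacter, h5, fun j y n hn => ?_, fun {Λ c} hc => ?_⟩
  · rw [show n = ⟨_, Subgroup.le_normalizer (xp_mem x j)⟩ * ⟨y, h.K_le y.2⟩ from Subtype.ext hn,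
      hl.isCharacter.map_mul_of_apply_one h5, h4 _ (xp_mem x j), h5, one_mul, h6 y _ rfl]
  choose m hm using fun χ => (hF χ).exists_nat_classInner hl.isCharacter
  refine ⟨∑ χ, c χ * m χ, ?_, le_trans (sum_le_sum fun χ hχ => ?_) (sum_le_sum_of_subset (subset_univ _))⟩
  · rw [show (fun n : Nx x => fixPart p x Λ n) = ∑ χ : IrrCharacter G, (c χ : ℂ) • fun n : Nx x => fixPart p x χ.1 n by
      ext n; simp only [hc, fixPart, Finset.sum_apply, Pi.smul_apply, smul_eq_mul, mul_sum]; rw [sum_comm]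
      exact sum_congr rfl fun _ _ => sum_congr rfl fun _ _ => mul_left_comm _ _ _, classInner_sum_left]
    push_cast
    exact sum_congr rfl fun χ _ => by rw [classInner_smul_left, hm]
  · obtain ⟨a, rfl⟩ := mem_Phi.1 hχ
    refine Nat.le_mul_of_pos_right _ (Nat.pos_of_ne_zero fun e => h2 ?_)
    rw [← Nat.cast_eq_zero (R := ℂ), ← hm] at e
    refine (congrArg (classInner · l) (funext fun n => ?_)).trans e
    by_cases hn : expo h.ord n = 1
    · obtain ⟨j, y, hy⟩ := h.dec n ((expo_eq_one_iff h.ord n).1 hn)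
      rw [hy, h3, h3, s.fixd_φ_eq 1 a]
    · rw [← apply_eq_fixPart h.ord (φ 1).2.isClassFunction hn, ← apply_eq_fixPart h.ord (φ a).2.isClassFunction hn,
        s.φ_regular (not_dvd_orderOf h hn)]

end Cfsg.Agent.CH.Deg
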