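import Cfsg.Agent.CH.Deg8

/-! A faithful character of degree `p - e` with `t ≥ 3` classes of elements of order `p` has `e = 2` or `e + 3 ≤ t`
(`core_neg`). -/

namespace Cfsg.Agent.CH.Deg

open Finset Cfsg.Agent.Small Cfsg.Agent.CH.Low Cfsg.Agent.Char
open scoped ComplexConjugate

theorem arith₀ {e t a s A B ε : ℤ} (he : 2 ≤ e) (ht : 3 ≤ t) (hε : ε = 1 ∨ ε = -1) (h1 : 2 * (ε * a) = e + 1 + 2 * (t * A))
    (h2 : 2 * (ε * s) = e - 1 + 2 * (t * B)) (h3 : 2 * a + 2 ≤ t) (h4 : 2 * s ≤ t) (h5 : ε = 1 → e ≤ s + a)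
    (h6 : ε = -1 → t * (e - e / 2) ≤ s + a + e) : ε = 1 ∧ e + 3 ≤ t := by
  rcases hε with rfl | rfl
  · have := h5 rfl
    have hA : A ≤ 0 := by nlinarith
    have hB : B ≤ 0 := by nlinarith
    have : t * B ≤ 0 := by nlinarith
    obtain rfl : A = 0 := by nlinarith
    exact ⟨rfl, by omega⟩
  · have := h6 rfl
    obtain ⟨k, rfl⟩ : ∃ k, e = 2 * k + 1 := ⟨e / 2, by omega⟩
    rw [show 2 * k + 1 - (2 * k + 1) / 2 = k + 1 by omega] at this
    have : 3 * k ≤ t * k := by nlinarith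
    nlinarith

theorem arith₁ {k t a s A B ε : ℤ} (hk : 1 ≤ k) (ht : 3 ≤ t) (hε : ε = 1 ∨ ε = -1) (h1 : ε * a = k + t * A)
    (h2 : ε * s = k - 1 + t * B) (h3 : a = 0 ∧ s ≤ t ∨ s = 0 ∧ a ≤ t) (h5 : ε = 1 → 2 * k ≤ s + a + 1)
    (h6 : ε = -1 → t * k + 1 ≤ s + a + 2 * k) : k = 1 := by
  have h7 : k < t := by
    rcases hε with rfl | rfl
    · have := h5 rfl; omega
    · have := h6 rfl
      have : 3 * k ≤ t * k := by nlinarith
      omega
  rcases h3 with ⟨rfl, -⟩ | ⟨rfl, -⟩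
  · exact absurd (Int.le_of_dvd (by omega) ⟨-A, by linear_combination -h1⟩) h7.not_ge
  · by_contra h
    exact absurd (Int.le_of_dvd (a := t) (b := k - 1) (by omega) ⟨-B, by linear_combination -h2⟩) (by omega)

variable {p : ℕ} [hp : Fact p.Prime] {G : Type*} [Group G] [Fintype G] {x : G} {K : Subgroup G} [Fintype K]
  {h : DefOne p x K}

omit [Fintype G] [Fintype K] in
theorem fixPart_cent (h : DefOne p x K) {Λ : G → ℂ} {ϑ : K → ℂ} (h1 : ∀ g (y : K), Λ (g * y) = Λ g * ϑ y) (j : ZMod p)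
    (y : K) : fixPart p x Λ (xp x j * y) = fixPart p x Λ 1 * ϑ y := by
  rw [fixPart, fixPart, mul_assoc, sum_mul]
  refine congrArg _ (Fintype.sum_equiv (Equiv.addLeft j) _ _ fun i => ?_)
  rw [mul_assoc, ← h.comm_xp, ← mul_assoc, h1, one_mul, ← xp_add h.ord]; rfl

omit [Fintype G] [Fintype K] in
open _root_.Classical in
theorem inner_ind (h : DefOne p x K) [Fintype (Nx x)] (a : (ZMod p)ˣ) (c : ℂ) :
    Nat.card E[h] * classInner (fun n : Nx x => if expo h.ord n = a then c else 0) (fun _ => 1) =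
      if a ∈ E[h] then c else 0 := by
  rw [show (fun n : Nx x => if expo h.ord n = a then c else 0) = fun n => (fun b : E[h] => if b.1 = a then c else 0)
    ((expo h.ord).rangeRestrict n) from rfl, classInner_comp_of_surjective
    (fun b : E[h] => if b.1 = a then c else 0) (fun _ => 1) _ (expo h.ord).rangeRestrict_surjective, card_mul_classInner]
  split_ifs with ha
  · rw [sum_eq_single ⟨a, ha⟩ (fun b _ hb => by simp [show b.1 ≠ a from fun e => hb (Subtype.ext e)]) (by simp)]; simp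
  · exact sum_eq_zero fun b _ => by simp [show b.1 ≠ a from fun e => ha (e ▸ b.2)]

variable (hK : K ≤ Subgroup.center G) {θ θ' : IrrCharacter K} {X X' : Finset (IrrCharacter G)}
  {φ ξ : (ZMod p)ˣ → IrrCharacter G} {δ δ' : IrrCharacter G → ℤ} {ε : ℤ} (s : Shape h θ X φ δ (-1))
  (s' : Shape h θ' X' ξ δ' ε) (hθ : θ'.1 = θ.1 * θ.1) {a : (ZMod p)ˣ} (h1 : fixd p x (φ a).1 = 1)
include hK s h1

open _root_.Classical in
theorem fixd_sq : (fixd p x ((φ a).1 * (φ a).1) : ℤ) =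
    p - 2 * Nat.card E[h] + if -1 ∈ E[h] then (Nat.card E[h] : ℤ) else 0 := by
  refine Int.cast_injective (α := ℂ) (mul_left_cancel₀ (natCast_p_ne_zero' (p := p)) ?_)
  have h2 := sum_eta_mul_conj E[h] a (-a)
  have h3 : ∀ j : ZMod p, conj (eta E[h] ((-a : (ZMod p)ˣ) * j)) = eta E[h] (a * j) := fun j => by
    rw [eta_eq, eta_eq, map_sum]
    exact sum_congr rfl fun i _ => by rw [conj_ee]; simp
  simp only [h3, mul_neg, inv_mul_cancel] at h2
  push_cast
  rw [fixd_cast h.ord ((φ a).2.isCharacter.mul (φ a).2.isCharacter), sum_congr rfl (g := fun j => (if j = 0 then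
    (p : ℂ) * (p - 2 * Nat.card E[h]) else 0) + eta E[h] (a * j) * eta E[h] (a * j)) fun j _ => ?_, sum_add_distrib, h2]
  · split_ifs <;> simp; ring
  · rw [Pi.mul_apply, apply_xp hK s, h1]
    split_ifs with hj
    · simp [hj, eta_zero]; ring
    · simp

omit hK s [Fintype K] in
include h in
theorem fixd_sym (h2 : 2 < p) : 2 * fixd p x (symSq (φ a).1) = fixd p x ((φ a).1 * (φ a).1) + 1 ∧
    2 * fixd p x (altSq (φ a).1) + 1 = fixd p x ((φ a).1 * (φ a).1) := by
  have hζ := (φ a).2.isCharacter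
  have h3 : ∑ j : ZMod p, (φ a).1 (xp x j * xp x j) = p := by
    have h4 : (2 : ZMod p) ≠ 0 := fun e => (Nat.le_of_dvd two_pos ((CharP.cast_eq_zero_iff _ p 2).1 e)).not_gt h2
    rw [← mul_one (p : ℂ), ← Nat.cast_one, ← h1, fixd_cast h.ord hζ]
    exact Fintype.sum_equiv (Equiv.mulLeft₀ 2 h4) _ _ fun j => by rw [← xp_add h.ord, ← two_mul]; rfl
  have h4 := fixd_cast h.ord (hζ.mul hζ)
  constructor <;> refine Nat.cast_injective (R := ℂ) (mul_left_cancel₀ (natCast_p_ne_zero' (p := p)) ?_) <;> push_cast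
  · rw [mul_left_comm, fixd_cast h.ord hζ.symSq, mul_add, h4, mul_one, ← h3, mul_sum, ← sum_add_distrib]
    exact sum_congr rfl fun j _ => by simp only [symSq, Pi.mul_apply]; ring
  · rw [mul_add, mul_left_comm, fixd_cast h.ord hζ.altSq, h4, mul_one, ← h3, mul_sum, ← sum_add_distrib]
    exact sum_congr rfl fun j _ => by simp only [altSq, Pi.mul_apply]; ring

include hθ in
open _root_.Classical in
theorem upper [Fintype (Nx x)] (h2 : 2 < p) {l : Nx x → ℂ} (hl : IsCharacter (Nx x) l) (hl1 : l 1 = 1)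
    (hl2 : ∀ (j : ZMod p) (y : K) (n : Nx x), (n : G) = xp x j * y → l n = θ'.1 y) :
    ∃ κ η : ℤ, (κ = 0 ∨ κ = 1 ∧ η = 1) ∧ (η = 1 ∨ η = -1) ∧ ∀ (σ : ℤ) (f : ℕ) (m : ℕ),
      fixPart p x (fun g => ((φ a).1 g ^ 2 + σ * (φ a).1 (g * g)) / 2) 1 = f →
      classInner (fun n : Nx x => fixPart p x (fun g => ((φ a).1 g ^ 2 + σ * (φ a).1 (g * g)) / 2) n) l = m →
      (2 * (Nat.card E[h] * m) : ℤ) = Nat.card E[h] * (κ * (1 + σ)) + (2 * f - 1 - σ) +
        if -1 ∈ E[h] then σ * (charDegree (φ a).1 - 1) * η else 0 := by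
  have hζ := (φ a).2.isCharacter
  have hμ := isCharacter_fixPart h.ord hζ
  have hμ1 : fixPart p x (φ a).1 1 = 1 := by rw [fixPart_one h.ord hζ, h1, Nat.cast_one]
  have hc := apply_central (h := h) hK (s.φ_mem a)
  have hμ2 : ∀ (j : ZMod p) (y : K), fixPart p x (φ a).1 (xp x j * y) = θ.1 y := fun j y => by
    rw [fixPart_cent h hc, hμ1, one_mul]
  let ν : Nx x → ℂ := fun n => fixPart p x (φ a).1 n * fixPart p x (φ a).1 n * conj (l n)
  have hν : IsCharacter (Nx x) ν := (hμ.mul hμ).mul hl.conj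
  have hν1 : ν 1 = 1 := by simp [ν, hμ1, hl1]
  have hθ1 : ∀ y, θ'.1 y * conj (θ'.1 y) = 1 := fun y => by
    rw [← θ'.2.apply_inv, ← θ'.2.isCharacter.map_mul_of_apply_one (apply_one hK _), mul_inv_cancel, apply_one hK]
  have hν2 : ∀ n, expo h.ord n = 1 → ν n = 1 := fun n hn => by
    obtain ⟨j, y, hy⟩ := h.dec n ((expo_eq_one_iff h.ord n).1 hn)
    simpa only [ν, hl2 j y n hy, hy, hμ2, hθ, Pi.mul_apply] using hθ1 y
  have hm := hν.map_mul_of_apply_one hν1
  obtain ⟨η, h3, h4⟩ : ∃ η : ℤ, (η = 1 ∨ η = -1) ∧ ((∀ n, expo h.ord n = -1 → ν n = η) ∧ (ν = (fun _ => 1) → η = 1)) := by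
    by_cases e : -1 ∈ E[h]
    · obtain ⟨n, hn⟩ := e
      have e1 : ∀ n', expo h.ord n' = -1 → ν n' = ν n := fun n' hn' => by
        rw [← mul_inv_cancel_left n n', hm, hν2 (n⁻¹ * n') (by simp [hn, hn']), mul_one]
      rcases mul_self_eq_one_iff.1 ((hm n n).symm.trans (hν2 _ (by simp [hn]))) with e2 | e2
      · exact ⟨1, .inl rfl, fun n' hn' => by simp [e1 n' hn', e2], fun _ => rfl⟩
      · exact ⟨-1, .inr rfl, fun n' hn' => by simp [e1 n' hn', e2], fun e => by rw [e] at e2; norm_num at e2⟩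
    · exact ⟨1, .inl rfl, fun n hn => (e ⟨n, hn⟩).elim, fun _ => rfl⟩
  refine ⟨if ν = fun _ => 1 then 1 else 0, η, by split_ifs with e <;> simp [h4.2, e], h3, fun σ f m hf e => ?_⟩
  have h5 : (-1 : (ZMod p)ˣ) ≠ 1 := fun e => (Nat.le_of_dvd two_pos ((CharP.cast_eq_zero_iff (ZMod p) p 2).1 (by
    have := congrArg Units.val e
    push_cast at this ⊢
    linear_combination -this))).not_gt h2
  rw [classInner_eq_classInner_one, show (fun n : Nx x => fixPart p x (fun g => ((φ a).1 g ^ 2 + σ *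
      (φ a).1 (g * g)) / 2) n * conj (l n)) = ((1 + σ) / 2 : ℂ) • ν + (fun n => if expo h.ord n = 1 then
      ((2 * f - 1 - σ) / 2 : ℂ) else 0) + fun n => if expo h.ord n = -1 then (σ * (charDegree (φ a).1 - 1) * η / 2 : ℂ) else 0
      from funext fun n => ?_, classInner_add_left, classInner_add_left, classInner_smul_left,
      (hν.isIrrCharacter_of_apply_one hν1).classInner_eq_ite isIrrCharacter_one] at e
  · refine Int.cast_injective (α := ℂ) ?_
    push_cast
    rw [← e, mul_add (Nat.card E[h] : ℂ), mul_add (Nat.card E[h] : ℂ), inner_ind h, inner_ind h, if_pos (one_mem _)]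
    split_ifs <;> ring
  simp only [Pi.add_apply, Pi.smul_apply, smul_eq_mul]
  by_cases hn : expo h.ord n = 1
  · obtain ⟨j, y, hy⟩ := h.dec n ((expo_eq_one_iff h.ord n).1 hn)
    rw [if_pos hn, if_neg (hn ▸ h5.symm), hν2 n hn, hy, fixPart_cent h (ϑ := θ'.1) fun g y => by
      rw [mul_assoc g, ← mul_assoc y.1, ← Subgroup.mem_center_iff.1 (hK y.2), ← mul_assoc, ← mul_assoc, hc, hc, hc, hθ,
        Pi.mul_apply]; ring, hf, hl2 j y n hy, mul_assoc, hθ1]
    ring
  have hcl : IsClassFunction G fun g => ((φ a).1 g ^ 2 + σ * (φ a).1 (g * g)) / 2 := fun g g' => by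
    simp only [hζ.isClassFunction g g', show g' * g * g'⁻¹ * (g' * g * g'⁻¹) = g' * (g * g) * g'⁻¹ by group,
      hζ.isClassFunction (g * g) g']
  have h6 := hμ.map_mul_of_apply_one hμ1 n n
  rw [if_neg hn, ← apply_eq_fixPart h.ord hcl hn, apply_eq_fixPart h.ord hζ.isClassFunction hn, add_zero]
  split_ifs with hn'
  · have h7 : (n * n : G) ∈ K := (h.mem _).2 ⟨(expo_eq_one_iff h.ord (n * n)).1 (by simp [hn']),
      fun e => not_dvd_orderOf h hn (e.trans (by rw [← pow_two]; exact orderOf_pow_dvd _))⟩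
    have h8 := hμ2 0 ⟨_, h7⟩
    have h9 := hc 1 ⟨_, h7⟩
    rw [xp_zero, one_mul] at h8
    rw [one_mul, ← h8, hζ.apply_one_eq_charDegree] at h9
    rw [← h4.1 n hn', h9, show fixPart p x (φ a).1 (n * n) = _ from h6]
    simp only [ν]; ring
  · rw [show (φ a).1 (n * n) = _ from apply_eq_fixPart h.ord hζ.isClassFunction (n := n * n) fun e => by
      rw [map_mul, Units.ext_iff, Units.val_mul, Units.val_one, mul_self_eq_one_iff] at e
      exact e.elim (fun e => hn (Units.ext e)) fun e => hn' (Units.ext e), h6]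
    simp only [ν]; ring

omit h1 in
include s' hθ in
theorem lower {e t d c : ℕ} (he : Nat.card E[h] = e) (h2 : 1 < e) (ht : e * t + 1 = p) (h3 : 3 ≤ t)
    (hd : charDegree (φ a).1 = d) (hde : d + e = p) {m : IrrCharacter G → ℕ}
    (hm : ∀ χ : IrrCharacter G, classInner ((φ a).1 * (φ a).1) χ = m χ) (hc : ∑ χ ∈ Phi ξ, m χ = c) :
    (ε = 1 → (d : ℤ) ^ 2 ≤ e * (c + t * (d - e)) + fixd p x ((φ a).1 * (φ a).1)) ∧
      (ε = -1 → (e : ℤ) * (t * (d - (e / 2 : ℕ))) + fixd p x ((φ a).1 * (φ a).1) ≤ e * c + d ^ 2) := by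
  have hζ := (φ a).2.isCharacter
  have hτ : ∀ b, IsCharacter G fun g => (φ a).1 g * (φ a).1 g * conj ((ξ b).1 g) := fun b =>
    (hζ.mul hζ).mul (ξ b).2.isCharacter.conj
  obtain ⟨F, hF⟩ : ∃ F, ∀ b, fixd p x (ξ b).1 = F := ⟨_, fun b => s'.fixd_φ_eq b 1⟩
  have h4 : ∀ {b l : ℕ}, (l = e ∨ l = d) → (∀ i, charDegree (ξ i).1 = b * p + l) → e * t * (e * (b * (t * d ^ 2) +
      if l = e then d ^ 2 - (d - e) else (t - 1) * d ^ 2 + (d - e / 2))) +
      ∑ i, fixd p x (fun g => (φ a).1 g * (φ a).1 g * conj ((ξ i).1 g)) ≤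
        e * (e * c) + e * t * (d ^ 2 * (b * p + l)) := fun {b l} hl hb => by
    have e1 := sum_le_sum fun i (_ : i ∈ univ) => char_bound h hK (φ a).2 (ξ i).2 (fun y hy => ⟨θ.1 ⟨y, hy⟩, by
      rw [← θ.2.apply_inv, ← θ.2.isCharacter.map_mul_of_apply_one (apply_one hK _), mul_inv_cancel, apply_one hK], by
      simpa using apply_central (h := h) hK (s.φ_mem a) 1 ⟨y, hy⟩, by
      simpa [hθ, pow_two] using apply_central (h := h) hK (s'.φ_mem i) 1 ⟨y, hy⟩⟩) h2 ht h3 hd hde (hb i) hl he (hm _)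
      (fixPart_one h.ord (hτ i))
    have e2 := s'.card_smul_sum_Phi m
    rw [EE_eq hK, he, hc, smul_eq_mul] at e2
    rwa [sum_add_distrib, sum_add_distrib, ← mul_sum _ (fun i => m (ξ i)) e, ← e2, sum_const, sum_const, card_univ, ZMod.card_units,
      smul_eq_mul, smul_eq_mul, show p - 1 = e * t by omega] at e1
  have h5 : ((∑ i, fixd p x (fun g => (φ a).1 g * (φ a).1 g * conj ((ξ i).1 g)) : ℕ) : ℤ) =
      d ^ 2 * (e * t * F + ε * e) - ε * e * fixd p x ((φ a).1 * (φ a).1) := by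
    refine Int.cast_injective (α := ℂ) (mul_left_cancel₀ (natCast_p_ne_zero' (p := p)) ?_)
    push_cast
    rw [mul_sum, sum_congr rfl fun i _ => fixd_cast h.ord (hτ i), sum_comm, mul_sub, mul_left_comm _ (ε * e : ℂ),
      fixd_cast h.ord (hζ.mul hζ), mul_sum, eq_sub_iff_add_eq, ← sum_add_distrib, sum_eq_single 0 (fun j _ hj => ?_)
      (by simp)]
    · have e1 : (p : ℂ) = e * t + 1 := by exact_mod_cast ht.symm
      simp only [apply_xp hK s', hF, if_true, mul_zero, eta_zero, he, sum_const, card_univ, ZMod.card_units,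
        show p - 1 = e * t by omega, Pi.mul_apply]
      simp [hζ.apply_one_eq_charDegree, hd, e1]; ring
    · simp only [apply_xp hK s', if_neg hj, zero_add, ← mul_sum, ← map_sum, sum_eta_ne_zero _ hj, he, Pi.mul_apply]
      simp; ring
  rw [Nat.cast_sum] at h5
  have h6 : e * 3 ≤ e * t := Nat.mul_le_mul_left e h3
  have h7 := Nat.le_self_pow two_ne_zero d
  have h8 : (p : ℤ) = e * t + 1 := by exact_mod_cast ht.symm
  have h9 : (0 : ℤ) < e := by omega
  refine ⟨fun hε => ?_, fun hε => ?_⟩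
  · have e1 := h4 (b := F) (.inl rfl) fun i => by
      rw [s'.fixd_φ_pos i hε, hF, inert_eq hK, EE_eq hK, deg_one hK, he]; simp [mul_comm]
    rw [if_pos rfl] at e1
    zify [show e ≤ d by omega, show d - e ≤ d ^ 2 by omega] at e1
    rw [h5, hε, h8] at e1
    exact le_of_mul_le_mul_left (by linarith) h9
  · have e2 : ∀ i, charDegree (ξ i).1 + e = p * F := fun i => by
      have := s'.fixd_φ_neg i hε
      rwa [hF, inert_eq hK, EE_eq hK, deg_one hK, he, Subgroup.index_top, mul_one, mul_one] at this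
    obtain ⟨F, rfl⟩ : ∃ F', F = F' + 1 := Nat.exists_eq_succ_of_ne_zero (by rintro rfl; have := e2 1; omega)
    have e1 := h4 (b := F) (.inr rfl) fun i => by have := e2 i; rw [mul_add, mul_comm] at this; omega
    rw [if_neg (by omega)] at e1
    zify [show e / 2 ≤ d by omega, show 1 ≤ t by omega] at e1
    rw [h5, hε, h8, show (d : ℤ) = e * t + 1 - e by omega] at e1
    rw [show (d : ℤ) = e * t + 1 - e by omega]
    push_cast at e1 ⊢
    exact le_of_mul_le_mul_left (by linarith) h9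

include s' hθ in
theorem core_neg {e t d : ℕ} (he : Nat.card E[h] = e) (h2 : 1 < e) (ht : e * t + 1 = p) (h3 : 3 ≤ t)
    (hd : charDegree (φ a).1 = d) (hde : d + e = p) (h4 : fixd p x (ξ 1).1 ≠ 0) : (ε = 1 ∧ e + 3 ≤ t) ∨ e = 2 := by
  classical
  have := Fintype.ofFinite (Nx x)
  have hζ := (φ a).2.isCharacter
  have h5 : e * 3 ≤ e * t := Nat.mul_le_mul_left e h3
  have hc := apply_central (h := h) hK (s.φ_mem a)
  have h6 : ∀ g (y : K), (φ a).1 (g * y * (g * y)) = (φ a).1 (g * g) * θ'.1 y := fun g y => by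
    rw [mul_assoc g, ← mul_assoc y.1, ← Subgroup.mem_center_iff.1 (hK y.2), ← mul_assoc, ← mul_assoc, hc, hc, hθ,
      Pi.mul_apply, mul_assoc]
  obtain ⟨cS, hS, eS⟩ := hζ.symSq.exists_nat_coeff
  obtain ⟨cA, hA, eA⟩ := hζ.altSq.exists_nat_coeff
  obtain ⟨B, hB⟩ := exists_eq hK s' hζ.symSq (fun g y => by simp only [symSq, h6, hc, hθ, Pi.mul_apply]; ring) eS
  obtain ⟨A, hA'⟩ := exists_eq hK s' hζ.altSq (fun g y => by simp only [altSq, h6, hc, hθ, Pi.mul_apply]; ring) eA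
  obtain ⟨l, hl, hl1, hl2, hl3⟩ := exists_lam hK s' h4
  obtain ⟨mS, h7, h8⟩ := hl3 eS
  obtain ⟨mA, h9, h10⟩ := hl3 eA
  obtain ⟨κ, η, hκ, hη, h11⟩ := upper hK s hθ h1 (by omega) hl hl1 hl2
  have e1 : symSq (φ a).1 = fun g => ((φ a).1 g ^ 2 + (1 : ℤ) * (φ a).1 (g * g)) / 2 := by ext; simp [symSq]
  have e2 : altSq (φ a).1 = fun g => ((φ a).1 g ^ 2 + (-1 : ℤ) * (φ a).1 (g * g)) / 2 := by
    ext; simp [altSq, sub_eq_add_neg]
  have h12 := h11 1 _ mS (e1 ▸ fixPart_one h.ord hζ.symSq) (e1 ▸ h7)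
  have h13 := h11 (-1) _ mA (e2 ▸ fixPart_one h.ord hζ.altSq) (e2 ▸ h9)
  obtain ⟨h14, h15⟩ := lower hK s s' hθ he h2 ht h3 hd hde (m := fun χ => cS χ + cA χ) (fun χ => by
    rw [← symSq_add_altSq, classInner_add_left, hS, hA, Nat.cast_add]) sum_add_distrib
  have h16 := fixd_sq hK s h1
  obtain ⟨h17, h18⟩ := fixd_sym (h := h) h1 (by omega)
  have h19 : 2 * (charDegree (symSq (φ a).1) : ℤ) = d ^ 2 + d := Int.cast_injective (α := ℂ) (by
    push_cast; rw [← hζ.symSq.apply_one_eq_charDegree, symSq, mul_one, hζ.apply_one_eq_charDegree, hd]; ring)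
  have h20 : 2 * (charDegree (altSq (φ a).1) : ℤ) = d ^ 2 - d := Int.cast_injective (α := ℂ) (by
    push_cast; rw [← hζ.altSq.apply_one_eq_charDegree, altSq, mul_one, hζ.apply_one_eq_charDegree, hd]; ring)
  have h21 : (p : ℤ) = e * t + 1 := by exact_mod_cast ht.symm
  have h22 : (d : ℤ) = e * t + 1 - e := by omega
  have h23 : (0 : ℤ) < e := by omega
  zify at h8 h10 h17 h18
  rw [he] at hB hA' h12 h13 h16
  rw [← e1, hd] at h12
  rw [← e2, hd] at h13
  push_cast at hB hA' h14 h15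
  have h25 : 0 ≤ ∑ χ ∈ Phi ξ, (cS χ : ℤ) := by positivity
  have h26 : 0 ≤ ∑ χ ∈ Phi ξ, (cA χ : ℤ) := by positivity
  generalize (∑ χ ∈ Phi ξ, (cS χ : ℤ)) = sS at *
  generalize (∑ χ ∈ Phi ξ, (cA χ : ℤ)) = sA at *
  simp only [h21, h22] at hB hA' h12 h13 h14 h15 h16 h19 h20
  split_ifs at h12 h13 h16 with h24
  · obtain ⟨k, rfl⟩ : 2 ∣ e := by
      have := Subgroup.orderOf_dvd_natCard _ h24
      rwa [he, ← orderOf_units, Units.coe_neg_one, orderOf_neg_one, ringChar.eq _ p, if_neg (by omega)] at this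
    push_cast at *
    have h27 := arith₁ (k := k) (t := t) (a := sA) (s := sS) (A := A - k) (B := B - k) (by omega) (by omega) s'.ε_sign
      (mul_left_cancel₀ (mul_ne_zero two_ne_zero h23.ne') (by
        linear_combination 2 * hA' + h20 - (2 * k * t + 1) * h18 - (2 * k * t + 1) * h16))
      (mul_left_cancel₀ (mul_ne_zero two_ne_zero h23.ne') (by
        linear_combination 2 * hB + h19 - (2 * k * t + 1) * h17 - (2 * k * t + 1) * h16)) (by
        have e3 : 2 * (mS : ℤ) = 2 * κ + (t - 1) * (1 + η) := mul_left_cancel₀ h23.ne' (by linarith)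
        have e4 : 2 * (mA : ℤ) = (t - 1) * (1 - η) := mul_left_cancel₀ h23.ne' (by linarith)
        rcases hη with rfl | rfl <;> omega)
      (fun e => le_of_mul_le_mul_left (by linarith [h14 e]) h23) fun e => le_of_mul_le_mul_left (by
        have := h15 e
        rw [show 2 * (k : ℤ) / 2 = k by omega] at this
        linarith) h23
    omega
  · have e3 : 2 * (mS : ℤ) = 2 * κ + (t - 2) := mul_left_cancel₀ h23.ne' (by linarith)
    have e4 : 2 * (mA : ℤ) = t - 2 := mul_left_cancel₀ h23.ne' (by linarith)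
    exact .inl ((arith₀ (e := e) (t := t) (a := sA) (s := sS) (A := A) (B := B) (by omega) (by omega) s'.ε_sign
      (mul_left_cancel₀ h23.ne' (by linear_combination 2 * hA' + h20 - (e * t + 1) * h18 - (e * t + 1) * h16))
      (mul_left_cancel₀ h23.ne' (by linear_combination 2 * hB + h19 - (e * t + 1) * h17 - (e * t + 1) * h16))
      (by omega) (by omega) (fun e => le_of_mul_le_mul_left (by linarith [h14 e]) h23)
      fun e => le_of_mul_le_mul_left (by linarith [h15 e]) h23).imp_right (by omega))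

end Cfsg.Agent.CH.Deg
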