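import Cfsg.Agent.CH.Dl2
import Cfsg.Agent.CH.Reg6

/-! Derived lengths of stabilisers: the bound for `b` in groups of odd order. -/

set_option autoImplicit false

namespace Cfsg.Agent.CH.Kc

open Subgroup Reg
open scoped IsMulCommutative commutatorElement

/-- The eight signed permutations of a pair. -/
def T8 {W : Type} [AddCommGroup W] (c : Bool × ℤˣ × ℤˣ) (p : W × W) : W × W :=
  if c.1 then (c.2.1 • p.2, c.2.2 • p.1) else (c.2.1 • p.1, c.2.2 • p.2)

section
variable {W : Type} [AddCommGroup W]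

theorem T8_smul {H : Type} [Group H] [DistribMulAction H W] (a : H) (c : Bool × ℤˣ × ℤˣ)
    (p : W × W) : a • T8 c p = T8 c (a • p) := by
  obtain ⟨b, s, t⟩ := c
  obtain ⟨x, y⟩ := p
  rcases Int.units_eq_one_or s with rfl | rfl <;> rcases Int.units_eq_one_or t with rfl | rfl <;>
    cases b <;> simp [T8]

theorem T8_four (c : Bool × ℤˣ × ℤˣ) (p : W × W) : T8 c (T8 c (T8 c (T8 c p))) = p := by
  obtain ⟨b, s, t⟩ := c
  rcases Int.units_eq_one_or s with rfl | rfl <;> rcases Int.units_eq_one_or t with rfl | rfl <;>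
    cases b <;> simp [T8]

theorem T8_comp (i j : Bool × ℤˣ × ℤˣ) :
    ∃ k, (∀ p : W × W, T8 i (T8 k p) = T8 j p) ∧ (k = (false, 1, 1) → i = j) := by
  obtain ⟨b, s, t⟩ := i
  obtain ⟨b', s', t'⟩ := j
  refine ⟨(xor b b', if b then (t * t', s * s') else (s * s', t * t')), fun p => ?_, ?_⟩
  · cases b <;> cases b' <;> simp [T8, ← mul_smul, ← mul_assoc, Int.units_mul_self]
  · rcases Int.units_eq_one_or s with rfl | rfl <;> rcases Int.units_eq_one_or t with rfl | rfl <;>
      rcases Int.units_eq_one_or s' with rfl | rfl <;>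
      rcases Int.units_eq_one_or t' with rfl | rfl <;> cases b <;> cases b' <;> decide

theorem T8_fix (hW : ∀ x : W, -x = x → x = 0) {v w : W} (hv : v ≠ 0) (hw : w ≠ 0) (h1 : w ≠ v)
    (h2 : -w ≠ v) {k : Bool × ℤˣ × ℤˣ} (h : T8 k (v, w) = (v, w)) : k = (false, 1, 1) := by
  obtain ⟨b, s, t⟩ := k
  have h3 : -v ≠ v := fun h => hv (hW v h)
  have h4 : -w ≠ w := fun h => hw (hW w h)
  rcases Int.units_eq_one_or s with rfl | rfl <;> rcases Int.units_eq_one_or t with rfl | rfl <;>
    cases b <;> simp [T8, h1, h2, h3, h4] at h ⊢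

theorem eight {H : Type} [Group H] [Finite H] [Finite W] [DistribMulAction H W]
    (hH : Odd (Nat.card H)) (hW : Odd (Nat.card W)) (h8 : 8 ≤ Nat.card W) {v w : W}
    (hb : ∀ a : H, a • v = v → a • w = w → ∀ x : W, a • x = x) :
    8 * (aK H W).index ≤ Nat.card W ^ 2 := by
  have one : ∀ u : W, (∀ a : H, a • u = u → ∀ x : W, a • x = x) →
      8 * (aK H W).index ≤ Nat.card W ^ 2 := fun u hu => by
    have : (aK H W).index ≤ Nat.card W :=
      Nat.card_le_card_of_injective (fun g : H ⧸ aK H W => g.out • u) fun g g' h => by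
        rw [← QuotientGroup.out_eq' g, ← QuotientGroup.out_eq' g']
        exact (QuotientGroup.eq.2 (mem_aK.2 (hu _ (by
          rw [mul_smul, inv_smul_eq_iff]; exact h)))).symm
    rw [pow_two]
    exact Nat.mul_le_mul h8 this
  by_cases hv : v = 0
  · exact one w fun a h => hb a (by rw [hv, smul_zero]) h
  by_cases hw : w = 0
  · exact one v fun a h => hb a h (by rw [hw, smul_zero])
  by_cases h1 : w = v
  · exact one v fun a h => hb a h (by rw [h1, h])
  by_cases h2 : -w = v
  · exact one w fun a h => hb a (by rw [← h2, smul_neg, h]) h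
  have hW' : ∀ x : W, -x = x → x = 0 := fun x hx => by
    have : (Multiplicative.ofAdd x) ^ 2 = 1 := by
      rw [← ofAdd_nsmul, two_nsmul]
      nth_rw 1 [← hx]
      rw [neg_add_cancel]; rfl
    exact eq_one_of_sq (G := Multiplicative W) hW this
  have key : ∀ (a : H) (i j : Bool × ℤˣ × ℤˣ), a • T8 i (v, w) = T8 j (v, w) →
      i = j ∧ a ∈ aK H W := fun a i j h => by
    obtain ⟨k, hk, hk'⟩ := T8_comp (W := W) i j
    have h3 : a • (v, w) = T8 k (v, w) := by
      rw [T8_smul, ← hk] at h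
      rw [← T8_four i (a • (v, w)), ← T8_four i (T8 k (v, w))]
      have h5 : ∀ p q : W × W, T8 i p = T8 i q → p = q := fun p q e => by
        rw [← T8_four i p, ← T8_four i q]
        have e1 : ∀ r : W × W, T8 i (T8 i (T8 i (T8 i r))) = (T8 i ∘ T8 i ∘ T8 i) (T8 i r) :=
          fun _ => rfl
        rw [e1 p, e1 q, e]
      rw [h5 _ _ h]
    have h4 : a • (v, w) = (v, w) := by
      refine smul_eq_of_sq hH ?_
      rw [← mul_smul]
      refine smul_eq_of_sq hH ?_
      simp only [mul_smul, h3, T8_smul]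
      exact T8_four _ _
    refine ⟨hk' (T8_fix hW' hv hw h1 h2 (h3.symm.trans h4)), mem_aK.2 (hb a ?_ ?_)⟩
    · exact congrArg Prod.fst h4
    · exact congrArg Prod.snd h4
  have := Nat.card_le_card_of_injective
    (fun x : (Bool × ℤˣ × ℤˣ) × (H ⧸ aK H W) => x.2.out • T8 x.1 (v, w)) fun x y h => by
      obtain ⟨e1, e2⟩ := key (y.2.out⁻¹ * x.2.out) x.1 y.1 (by
        rw [mul_smul, inv_smul_eq_iff]; exact h)
      refine Prod.ext e1 ?_
      rw [← QuotientGroup.out_eq' x.2, ← QuotientGroup.out_eq' y.2]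
      exact (QuotientGroup.eq.2 e2).symm
  rw [Nat.card_prod, Nat.card_prod W, ← pow_two] at this
  have h9 : Nat.card (Bool × ℤˣ × ℤˣ) = 8 := by simp [Fintype.card_units_int]
  rw [h9] at this
  exact this

end

section
variable {G V K : Type} [Group G] [Finite G] [Group.IsSolvable G] [AddCommGroup V] [Finite V]
  [DistribMulAction G V] [FaithfulSMul G V] [Field K] [Finite K] [Module K V] [Nontrivial V]
  {U F : Subgroup G} [U.Normal] [F.Normal] {ι : G → K} (hS : St U F) (hc : Sc V U ι)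
  (hF : F = fittingSubgroup G ⊓ centralizer (U : Set G))
  (hmax : ∀ B : Subgroup G, B.Normal → B ≤ centralizer (B : Set G) →
    B ≤ centralizer (U : Set G) → B ≤ U)
  (hB : ∀ a ∈ centralizer (U : Set G), (∀ x ∈ F, ⁅a, x⁆ ∈ U) → a ∈ F)
include hS hc hF hmax hB

theorem b_odd (hG : Odd (Nat.card G)) (hFU : ¬ F ≤ U) {e : ℕ} (he : U.relIndex F = e ^ 2) :
    8 * F.relIndex (centralizer (U : Set G)) ≤ e ^ 4 ∧
    (e = 3 → F.relIndex (centralizer (U : Set G)) = 1) ∧
    (e = 5 → F.relIndex (centralizer (U : Set G)) ≤ 3) ∧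
    (e = 7 → F.relIndex (centralizer (U : Set G)) ≤ 9) ∧
    (e = 9 → F.relIndex (centralizer (U : Set G)) ≤ 5) := by
  haveI : Module.Finite K V := Module.Finite.of_finite
  obtain ⟨e', he', h2, -, hr, -, N, hN, hNc, hN1, hcN, -, hCF, hcr⟩ := prim0 hS hc hmax hB hFU
  obtain rfl : e' = e := Nat.pow_left_injective two_ne_zero (he'.symm.trans he)
  set A := centralizer (U : Set G) with hA
  refine ⟨?_, ?_⟩
  · letI := conjAct N
    have hodd : Odd (Nat.card (G ⧸ U)) := odd_of_dvd (card_quotient_dvd_card U) hG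
    have hNo : Odd (Nat.card (Additive N)) := odd_of_dvd (card_subgroup_dvd_card N) hodd
    have hcN' : Nat.card (Additive N) = e' ^ 2 := hcN
    obtain ⟨v, w, hb⟩ := Reg.gen (fi (Nat.card (G ⧸ U) + 1)) (Nat.lt_succ_self _) hodd hcr
    have h8 : 8 ≤ Nat.card (Additive N) := by
      rw [hcN'] at hNo ⊢
      rcases h2.eq_or_lt with rfl | h
      · exact absurd hNo (by decide)
      · nlinarith
    have h3 := eight hodd hNo h8 hb
    have h4 : aK (G ⧸ U) (Additive N) = centralizer (N : Set (G ⧸ U)) :=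
      Subgroup.ext fun g => mem_aK_conj N
    rw [h4, hcN', ← pow_mul] at h3
    refine le_trans (Nat.mul_le_mul_left 8 ?_) h3
    rw [← index_comap_of_surjective _ (QuotientGroup.mk'_surjective U), ← relIndex_top_right]
    refine (relIndex_le_of_le_left hCF index_ne_zero_of_finite).trans ?_
    rw [inf_relIndex_right]
    exact relIndex_le_of_le_right le_top index_ne_zero_of_finite
  have hFA : F ≤ A := hS.cent
  have hfitA : fittingSubgroup A = F.subgroupOf A := by
    rw [← comap_map_eq_self_of_injective A.subtype_injective (fittingSubgroup A),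
      Solv.map_subtype_fitting, ← hF, comap_subtype]
  have hZ1 : U ≠ ⊥ := by
    intro h
    obtain ⟨r, hr', hre'⟩ := Nat.exists_prime_and_dvd (show e' ≠ 1 by omega)
    have := hr r hr' hre'
    rw [h, card_bot] at this
    exact hr'.not_dvd_one this
  let φ : U →* K := ⟨⟨fun u => ι u, hc.one⟩, fun a b => hc.mul a.2 b.2⟩
  haveI : IsCyclic U :=
    isCyclic_of_injective_ringHom φ fun a b h => Subtype.ext (hc.inj a.2 b.2 h)
  haveI : IsCyclic (U.subgroupOf A) :=
    isCyclic_of_injective (subgroupOfEquivOfLe (hS.le.trans hFA)).toMonoidHom (MulEquiv.injective _)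
  have hb := bound_b (fi (Nat.card A)) (A := A) (odd_of_dvd (card_subgroup_dvd_card A) hG)
    le_rfl (Z := U.subgroupOf A)
    (fun z hz => mem_center_iff.2 fun y => Subtype.ext (y.2 z hz).symm)
    (fun h => hZ1 (eq_bot_iff.2 fun z hz => by
      have : (⟨z, hFA (hS.le hz)⟩ : A) ∈ U.subgroupOf A := hz
      rw [h] at this
      exact congrArg Subtype.val (mem_bot.1 this)))
    (by rw [hfitA]; exact fun x hx y hy => hS.comm _ hx _ hy)
    (by rw [hfitA]; exact fun x _ h => hS.self fun y hy => congrArg Subtype.val (h ⟨y, hFA hy⟩ hy))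
  rw [hfitA, relIndex_subgroupOf hFA, he] at hb
  obtain ⟨-, b2, b3, b4, b5⟩ := hb
  exact ⟨fun h => b2 (by rw [h]; rfl), fun h => b3 (by rw [h]; rfl), fun h => b4 (by rw [h]; rfl),
    fun h => b5 (by rw [h]; rfl)⟩

end

end Cfsg.Agent.CH.Kc
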