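import Cfsg.Agent.CH.Lin
import Cfsg.Agent.CH.Cyclic
import Cfsg.Agent.CharDeep.FTI
import Cfsg.Agent.BG.S1

/-! Normal Sylow subgroups of linear groups of small degree: Itô's theorem for `p`-nilpotent
groups (`ito_nil`) and the Feit–Thompson–Blichfeldt bound (`ftb`). -/

set_option autoImplicit false

namespace Cfsg.Agent.CH

open Cfsg.Agent.Char Cfsg.Agent.CharDeep Cfsg.Agent.BG Subgroup
open scoped commutatorElement

variable {G : Type*} [Group G] [Finite G] {χ : G → ℂ} {p : ℕ}

theorem ito_nil (hχ : IsCharacter G χ) (hf : ∀ g, χ g = χ 1 → g = 1) (hp : p.Prime)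
    (hd : charDegree χ + 1 < p) (L : Subgroup G) [L.Normal] (hL : PiGrp {p}ᶜ L)
    (hi : PiNat {p} L.index) {x : G} (hx : PiElt {p} x) : x ∈ center G := by
  have := Fintype.ofFinite G
  obtain ⟨k, hk⟩ := (p_natP hp).1 hx
  obtain ⟨a, ha⟩ := (p_natP hp).1 hi
  have hc : L.index.Coprime #L := pnat_coprime hi hL
  refine mem_center_iff.2 fun y => (commutatorElement_eq_one_iff_mul_comm.1 (hf _
    (apply_eq_of_constituents hχ fun φ hφ h0 => hφ.isCharacter.mem_charKer.1 ?_))).symm
  have hd' := deg_le_of_constituent hχ hφ h0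
  have hθ := isIrr_res_of_coprime L hφ (ha ▸ (Nat.coprime_of_lt_prime hφ.charDegree_pos.ne'
    (by omega) hp).symm.pow_right a)
  obtain ⟨ψ, ⟨h1, h2, h3⟩, h4⟩ := exists_extension_of_coprime L hθ
    (conjN_res L hφ.isClassFunction) hθ.apply_one_eq_charDegree
    (hc.coprime_dvd_right (PF.CH.detOrder_dvd hθ.isCharacter) |>.mul_right
      (hc.coprime_dvd_right hθ.charDegree_dvd_card))
  have h5 := apply_eq_of_rat h1.isCharacter hp hk (fun m hm => by
    obtain ⟨m', b1, b2, b3⟩ := exists_gal G hp hm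
    obtain ⟨σ, hσ⟩ := exists_ringEquiv_apply_pow b1
    rw [← b3 x k hk, hσ _ h1.isGeneralizedCharacter]
    refine congrFun (h4 _ (h1.isCharacter.map_ringHom σ.toRingHom) (fun n => ?_) ?_) x
    · have := hσ _ h1.isGeneralizedCharacter n
      rw [b2 n fun h => mem_p_elt hL n.2 p hp h rfl] at this
      exact this.symm.trans (h2 n)
    · rw [PF.CH.detOrder_map h1.isCharacter, h3]
      exact hc.coprime_dvd_right (PF.CH.detOrder_dvd hθ.isCharacter))
    (by rw [charDegree_eq_of_apply_one ((h2 1).trans hφ.apply_one_eq_charDegree)]; omega)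
  obtain ⟨lam, -, h6⟩ := exists_hom_of_res_eq L hφ.isCharacter hθ h1.isCharacter h2
  refine hφ.isCharacter.commutator_mem_charKer (hφ.isCharacter.mem_charCenter.2 ?_) y
  simpa [h6, norm_hom_apply] using congrArg norm h5

theorem ftb_step [hp : Fact p.Prime] (hχ : IsCharacter G χ) (hf : ∀ g, χ g = χ 1 → g = 1)
    (hd : charDegree χ + 1 < p) (ih : ∀ K : Subgroup G, K ≠ ⊤ → SylowIn p (Op p K) K)
    {P : Subgroup G} (hP : SylowIn p P ⊤) (hc : (charDegree χ + 1) ^ 2 ≤ #P) : P.Normal := by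
  have := Fintype.ofFinite G
  by_contra hn
  have hab {Q : Subgroup G} (hQ : IsPGroup p Q) := comm_of_lt hχ hf Q fun r hr h => by
    rw [show r = p from IsPGroup.pi hQ r hr h]; omega
  have hno (M : Subgroup G) (hM : M.Normal) (h : P ≤ M) : M = ⊤ := by_contra fun h' => hn (by
    rw [← eq_Hall_pcore (ih M h') (pHall_subl h le_top hP)]
    exact ((normal_top M).pcore _).normal)
  by_cases hA : p ∣ (commutator G).index
  · haveI : Finite (G →* ℂˣ) := Nat.finite_of_card_ne_zero (by
      rw [card_hom_units_complex]; exact index_ne_zero_of_finite)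
    obtain ⟨lam, hl⟩ := exists_prime_orderOf_dvd_card' (G := G →* ℂˣ) p
      (by rwa [card_hom_units_complex])
    have hKi : PiNat {p} lam.ker.index := by
      rw [index_ker]
      haveI : Finite lam.range := Finite.of_surjective _ lam.rangeRestrict_surjective
      obtain ⟨k, hk⟩ := IsPGroup.iff_card.1 (show IsPGroup p lam.range from fun ⟨_, g, rfl⟩ =>
        ⟨1, Subtype.ext (by simpa [hl] using DFunLike.congr_fun (pow_orderOf_eq_one lam) g)⟩)
      exact hk ▸ pnat_pow_self hp.out k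
    have hQ := ih lam.ker fun h => hp.out.one_lt.ne (by
      rw [← hl, MonoidHom.ker_eq_top_iff.1 h, orderOf_one])
    have hQn := (normal_top lam.ker).pcore {p}
    have hC := hno _ (normal_top_iff.1 ⟨le_top, norms_cent hQn.norm⟩) fun x hx y hy =>
      hab hP.pg y (normal_sub_Hall hP hQn hQ.pi hy) x hx
    have sd := Burnside_normal_complement hQ (hC ▸ le_top)
    have := ((normal_top lam.ker).pcore {p}ᶜ).normal
    refine hn ⟨fun x hx g => ?_⟩
    rwa [mem_center_iff.1 (ito_nil hχ hf hp.out hd (Op' p lam.ker) (pcore_pgroup _ _) (by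
      rw [← relIndex_mul_index (pcore_sub _ _), sd.relIndexl]
      exact PiNat.mul hQ.pi hKi) (mem_p_elt hP.pi hx)), mul_inv_cancel_right]
  have hz {x : G} (hx : PiElt {p} x) (h1 : x ≠ 1) : x ∉ center G := fun h => by
    obtain ⟨k, hk⟩ := (p_natP hp.out).1 hx
    exact h1 (eq_one_of_central hχ hf hp.out (by omega) hA h hk)
  have hC {x : G} (hx : x ∉ center G) := ih C1[x] fun h => hx (mem_center_iff.2 fun g =>
    mem_cent1.1 (h ▸ mem_top g))
  have hS {x : G} {S : Subgroup G} (hS : SylowIn p S ⊤) (hx : x ∈ S) (h1 : x ≠ 1) :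
      Op p C1[x] = S := eq_Hall_pcore (hC (hz (mem_p_elt hS.pi hx) h1))
    (pHall_subl (fun y hy => mem_cent1.2 (hab hS.pg y hy x hx)) le_top hS)
  have hT : FTI P := ⟨hab hP.pg, fun h hh e => by_contra fun h1 => hz (mem_p_elt hP.pi hh) h1 e,
    fun g hg a h hh h1 k hk k1 e e' => by
      have hk' := p_eltJ (g := a) |>.2 (mem_p_elt hP.pi hk)
      have e1 := hab (Op_pgroup p C1[g]) _ (mem_normal_Hall (hC hg) (pcore_normal _ _)
        (mem_cent1.2 e') hk') _ (mem_normal_Hall (hC hg) (pcore_normal _ _) (mem_cent1.2 e)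
        (mem_p_elt hP.pi hh))
      have e2 := mem_normal_Hall (hC (hz (mem_p_elt hP.pi hh) h1)) (pcore_normal _ _)
        (mem_cent1.2 e1) hk'
      rw [hS hP hh h1] at e2
      have k2 : a * k * a⁻¹ ≠ 1 := by simpa using k1
      exact mem_norm.2 ((hS (pHallJsub (mem_top a) hP) (conj_mem_cj a hk) k2).symm.trans
        (hS hP e2 k2))⟩
  obtain ⟨φ, hφ, h0, h1⟩ : ∃ φ, IsIrrCharacter G φ ∧ classInner χ φ ≠ 0 ∧ φ 1 ≠ 1 := by
    by_contra! h
    refine hn ⟨fun x hx g => ?_⟩
    rwa [commutatorElement_eq_one_iff_mul_comm.1 (hf ⁅g, x⁆ (apply_eq_of_constituents hχ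
      fun φ hφ h0 => hφ.apply_one_eq_one_iff.1 (h φ hφ h0) _
        (commutator_mem_commutator (mem_top _) (mem_top _)))), mul_inv_cancel_right]
  have h2 := fti_b hT hφ h1 hno
  have h3 := deg_le_of_constituent hχ hφ h0
  rw [hφ.apply_one_eq_charDegree, Complex.natCast_re] at h2
  norm_cast at h2
  nlinarith

theorem ftb.{u} [hp : Fact p.Prime] {G : Type u} [Group G] [Finite G] {χ : G → ℂ}
    (hχ : IsCharacter G χ) (hf : ∀ g, χ g = χ 1 → g = 1) (hd : charDegree χ + 1 < p)
    (h : ∀ K Q : Subgroup G, SylowIn p Q K → #Q < (charDegree χ + 1) ^ 2 → Q ⊴ K)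
    {P : Subgroup G} (hP : SylowIn p P ⊤) : P.Normal := by
  induction hn : Nat.card G using Nat.strong_induction_on generalizing G with | _ n ih => ?_
  by_cases hc : #P < (charDegree χ + 1) ^ 2
  · exact (h _ _ hP hc).normal
  refine ftb_step hχ hf hd (fun K hK => ?_) hP (not_lt.1 hc)
  obtain ⟨Q, hQ⟩ := Sylow_exists p (⊤ : Subgroup K)
  have h1 := pHall_map_subtype.2 (pHall_top.1 hQ)
  rwa [Op, normal_Hall_pcore h1 (normal_map_subtype (ih _ (by
    simpa [← hn] using proper_card (lt_top_iff_ne_top.2 hK)) (hχ.restrict K)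
    (fun g hg => Subtype.ext (hf _ hg)) hd (fun A B hB hc => (normal_map_inj K.subtype_injective).1
      (h _ _ (pHall_map _ hB) (by rwa [card_map_of_injective K.subtype_injective]))) hQ rfl))]

end Cfsg.Agent.CH
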