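import Cfsg.Agent.CH.Ito2
import Cfsg.Agent.Small.Fx
import Cfsg.Agent.Small.Brauer2
import Cfsg.Agent.Small.Simp
import Cfsg.Agent.Small.PermP
import Cfsg.Agent.Perm.SharpK
import Cfsg.Agent.S0157
import Cfsg.Agent.S4508

/-! Groups of prime degree `p` with a unique irreducible character of degree `p` and a TI complement `E`
in the normaliser of a Sylow `p`-subgroup: the set-up and the case `|E|` even. -/

set_option autoImplicit false
open Cfsg

namespace Cfsg.Agent.CH.Low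

open Cfsg.Agent.Small Cfsg.Agent.Char Cfsg.Agent.Perm MulAction

structure Ito {p : ℕ} [Fact p.Prime] {G Ω : Type*} [Group G] [MulAction G Ω] (x : G) (e : ZMod p ≃ Ω)
    (E : Subgroup G) (χ : G → ℂ) : Prop where
  h : DefOne p x ⊥
  hc : ∀ j, x • e j = e (j + 1)
  hna : ¬ ∀ g : G, Aff e g
  sup : Subgroup.zpowers x ⊔ E = Nx x
  inf : Subgroup.zpowers x ⊓ E = ⊥
  hN : Nat.card (Subgroup.normalizer (E : Set G)) = 2 * Nat.card E
  TI : ∀ g, ∀ m ∈ E, m ≠ 1 → g * m * g⁻¹ ∈ E → g ∈ Subgroup.normalizer (E : Set G)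
  irr : IsIrrCharacter G χ
  deg : χ 1 = p
  uniq : ∀ ψ, IsIrrCharacter G ψ → ψ 1 = p → ψ = χ
  ne : E ≠ ⊥

variable {p : ℕ} [hp : Fact p.Prime] {G Ω : Type*} [Group G] [MulAction G Ω] {x : G} {e : ZMod p ≃ Ω}
  {E : Subgroup G} {χ : G → ℂ}

theorem smul_coord (hx : orderOf x = p) (hc : ∀ j, x • e j = e (j + 1)) (n : Nx x) :
    ∃ b, ∀ j, (n : G) • e j = e (expo hx n * j + b) := by
  refine ⟨e.symm ((n : G) • e 0), fun j => ?_⟩
  have h1 := pow_smul_coord hc j.val 0
  have h2 := pow_smul_coord hc ((expo hx n : ZMod p) * j).val (e.symm ((n : G) • e 0))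
  rw [ZMod.natCast_zmod_val, zero_add] at h1
  rw [ZMod.natCast_zmod_val, add_comm, Equiv.apply_symm_apply] at h2
  rw [← h2, ← h1, ← mul_smul, ← mul_smul, show x ^ _ = _ from (conj_xp_expo hx n j).symm]
  simp [xp]

namespace Ito

variable (H : Ito x e E χ)
include H

theorem le : E ≤ Nx x := H.sup ▸ le_sup_right

/-- The action of `E` on `⟨x⟩`. -/
noncomputable def ex : E →* (ZMod p)ˣ := (expo H.h.ord).comp (Subgroup.inclusion H.le)

theorem ex_apply (m : E) : H.ex m = expo H.h.ord ⟨m, H.le m.2⟩ := rfl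

theorem decomp {n : G} (hn : n ∈ Nx x) : ∃ m ∈ E, ∃ j : ZMod p, n = m * xp x j := by
  have h1 : n ∈ ((E ⊔ Subgroup.zpowers x : Subgroup G) : Set G) := by rwa [sup_comm, H.sup]
  rw [Subgroup.coe_mul_of_left_le_normalizer_right _ _ H.le] at h1
  obtain ⟨m, hm, u, hu, rfl⟩ := h1
  obtain ⟨j, rfl⟩ := (mem_zpowers_iff_xp H.h.ord).1 hu
  exact ⟨m, hm, j, rfl⟩

variable [Finite G]

theorem expo_xp (j : ZMod p) (hj : xp x j ∈ Nx x) : expo H.h.ord ⟨xp x j, hj⟩ = 1 :=
  (H.h.expo_eq_one_iff_mem _).2 (xp_mem x j)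

theorem ex_inj : Function.Injective H.ex := (injective_iff_map_eq_one _).2 fun m hm =>
  Subtype.ext (Subgroup.mem_bot.1 (H.inf ▸ ⟨(H.h.expo_eq_one_iff_mem _).1 hm, m.2⟩))

theorem expo_ne {m : G} (hm : m ∈ E) (h1 : m ≠ 1) : expo H.h.ord ⟨m, H.le hm⟩ ≠ 1 := fun h =>
  h1 (congrArg Subtype.val (H.ex_inj (a₁ := ⟨m, hm⟩) (a₂ := 1) (h.trans (map_one _).symm)))

theorem exists_ex (n : Nx x) : ∃ m : E, ∃ j : ZMod p, (n : G) = m * xp x j ∧ H.ex m = expo H.h.ord n := by
  obtain ⟨m, hm, j, hj⟩ := H.decomp n.2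
  refine ⟨⟨m, hm⟩, j, hj, ?_⟩
  have : n = ⟨m, H.le hm⟩ * ⟨xp x j, Subgroup.le_normalizer (xp_mem x j)⟩ := Subtype.ext hj
  rw [this, map_mul, H.expo_xp, mul_one, ex_apply]

theorem card_E : Nat.card E = Nat.card E[H.h] := by
  rw [← Nat.card_range_of_injective H.ex_inj]
  refine congrArg (fun s : Set (ZMod p)ˣ => Nat.card s) (Set.ext fun a => ⟨?_, ?_⟩)
  · rintro ⟨m, rfl⟩; exact ⟨_, rfl⟩
  · rintro ⟨n, rfl⟩
    obtain ⟨m, -, -, h⟩ := H.exists_ex n
    exact ⟨m, h⟩

theorem comm {a b : G} (ha : a ∈ E) (hb : b ∈ E) : a * b = b * a :=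
  congrArg Subtype.val (H.ex_inj (a₁ := ⟨a, ha⟩ * ⟨b, hb⟩) (a₂ := ⟨b, hb⟩ * ⟨a, ha⟩)
    (by rw [map_mul, map_mul, mul_comm]))

theorem card_dvd : Nat.card E ∣ p - 1 := H.card_E ▸ card_EE_dvd _

theorem notdvd : ¬ p ∣ Nat.card E := fun h => by
  have := hp.out.two_le
  have := Nat.le_of_dvd (by omega) (h.trans H.card_dvd)
  omega

theorem fix_unique {m : G} (hm : m ∈ E) (h1 : m ≠ 1) {a b : Ω} (ha : m • a = a) (hb : m • b = b) : a = b := by
  obtain ⟨c, hc⟩ := smul_coord H.h.ord H.hc ⟨m, H.le hm⟩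
  obtain ⟨i, rfl⟩ := e.surjective a
  obtain ⟨j, rfl⟩ := e.surjective b
  have h2 := e.injective ((hc i).symm.trans ha)
  have h3 := e.injective ((hc j).symm.trans hb)
  have h4 : (expo H.h.ord ⟨m, H.le hm⟩ : ZMod p) - 1 ≠ 0 := fun h =>
    H.expo_ne hm h1 (Units.ext (sub_eq_zero.1 h))
  rw [mul_left_cancel₀ h4 (show _ * i = _ * j by linear_combination h2 - h3)]

theorem exists_fix {m : G} (hm : m ∈ E) (h1 : m ≠ 1) : ∃ a : Ω, m • a = a := by
  obtain ⟨c, hc⟩ := smul_coord H.h.ord H.hc ⟨m, H.le hm⟩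
  have h4 : 1 - (expo H.h.ord ⟨m, H.le hm⟩ : ZMod p) ≠ 0 := fun h =>
    H.expo_ne hm h1 (Units.ext (sub_eq_zero.1 h).symm)
  refine ⟨e (c / (1 - expo H.h.ord ⟨m, H.le hm⟩)), (hc _).trans (congrArg e ?_)⟩
  field_simp
  ring

omit [Finite G] in
theorem cent_le {m : G} (hm : m ∈ E) (h1 : m ≠ 1) {g : G} (hg : g * m = m * g) :
    g ∈ Subgroup.normalizer (E : Set G) :=
  H.TI g m hm h1 (by rwa [hg, mul_inv_cancel_right])

theorem chi_xp {j : ZMod p} (hj : j ≠ 0) : χ (xp x j) = 0 := by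
  have h1 := (Subgroup.zpowers x).card_mul_index
  rw [Nat.card_zpowers, H.h.ord] at h1
  exact apply_eq_zero_of_dvd H.irr hp.out (k := 1) (by rw [pow_one, h1]) H.h.notdvd
    (by rw [charDegree_eq_of_apply_one H.deg, pow_one]) (by rw [orderOf_xp H.h.ord hj])

omit H [Finite G] in
theorem sum_xp [Finite G] (hx : orderOf x = p) [Fintype (Subgroup.zpowers x)] (f : G → ℂ) :
    ∑ u : Subgroup.zpowers x, f u = ∑ j : ZMod p, f (xp x j) :=
  ((Equiv.ofBijective (fun j : ZMod p => (⟨xp x j, xp_mem x j⟩ : Subgroup.zpowers x))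
    ⟨fun _ _ h => xp_injective hx (congrArg Subtype.val h), fun u => by
      obtain ⟨j, hj⟩ := (mem_zpowers_iff_xp hx).1 u.2
      exact ⟨j, Subtype.ext hj.symm⟩⟩).sum_comp fun u => f u).symm

theorem exists_mu : ∃ μ : Nx x →* ℂˣ, ∀ n : Nx x, expo H.h.ord n ≠ 1 → χ n = μ n := by
  classical
  have := Fintype.ofFinite (Subgroup.zpowers x)
  have hχ := IsIrrCharacter.isCharacter H.irr
  have hp0 : (p : ℂ) ≠ 0 := Nat.cast_ne_zero.2 hp.out.ne_zero
  have hc : (Nat.card (Subgroup.zpowers x) : ℂ) = p := by rw [Nat.card_zpowers, H.h.ord]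
  have h1 := avg_eq χ (Subgroup.zpowers x) 1
  rw [hc, sum_xp H.h.ord fun u => χ (u * 1), Finset.sum_eq_single 0 (fun j _ hj => by
    rw [mul_one, H.chi_xp hj]) (by simp), xp_zero, mul_one, H.deg] at h1
  obtain ⟨μ, hμ⟩ := IsCharacter.exists_hom_of_apply_one (isCharacter_avg hχ (Subgroup.zpowers x))
    (mul_left_cancel₀ hp0 (h1.trans (mul_one _).symm))
  refine ⟨μ, fun n hn => mul_left_cancel₀ hp0 ?_⟩
  rw [← congrFun hμ n, ← hc, avg_eq, sum_xp H.h.ord fun u => χ (u * n), Finset.sum_congr rfl fun j _ =>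
    show χ (xp x j * n) = χ n from ?_]
  · rw [hc]; simp
  · obtain ⟨i, hi⟩ := exists_conj_mul_xp H.h.ord hn j
    rw [IsClassFunction.apply_mul_comm (IsCharacter.isClassFunction hχ), ← hi,
      IsCharacter.isClassFunction hχ]

theorem range_ne : E[H.h] ≠ ⊥ := fun h => H.ne (Subgroup.card_eq_one.1 (by rw [H.card_E, h, Subgroup.card_bot]))

theorem perfect : commutator G = ⊤ := by
  have hx := H.h.mem_commutator_iff.2 H.range_ne
  rw [← Subgroup.index_eq_one, ← card_hom_units_complex, Nat.card_eq_one_iff_unique]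
  refine ⟨⟨fun a b => ?_⟩, ⟨1⟩⟩
  suffices ∀ a : G →* ℂˣ, a = 1 by rw [this a, this b]
  intro a
  obtain ⟨μ, hμ⟩ := H.exists_mu
  have h1 := H.uniq _ (IsIrrCharacter.mul_hom H.irr a) (by simp [H.deg])
  have h2 : commutator G ≤ a.ker := Abelianization.commutator_subset_ker a
  rw [← MonoidHom.ker_eq_top_iff, eq_top_iff, ← H.h.sup_Nx_eq_top _ hx, ← H.sup]
  refine sup_le h2 (sup_le (Subgroup.zpowers_le_of_mem (h2 hx)) fun m hm => ?_)
  by_cases h3 : m = 1
  · rw [h3]; exact one_mem _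
  have h4 := congrFun h1 m
  rw [hμ ⟨m, H.le hm⟩ (H.expo_ne hm h3)] at h4
  exact Units.ext (mul_left_cancel₀ (Units.ne_zero _) (h4.trans (mul_one _).symm))

variable [FaithfulSMul G Ω] [IsPretransitive G Ω]

omit [Finite G] [FaithfulSMul G Ω] [IsPretransitive G Ω] H hp in
theorem card_Ω (e : ZMod p ≃ Ω) : Nat.card Ω = p := by rw [← Nat.card_congr e, Nat.card_zmod]

omit H in
theorem core (e : ZMod p ≃ Ω) : pPrimeCore p G = ⊥ := by
  have : Finite Ω := Finite.of_equiv _ e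
  have : Nonempty Ω := ⟨e 0⟩
  have : IsPreprimitive G Ω := IsPreprimitive.of_prime_card (by rw [card_Ω e]; exact hp.out)
  exact pPrimeCore_eq_bot_of_primitive (Ω := Ω) (by rw [card_Ω e])

theorem simple : IsSimpleGroup G := H.h.isSimpleGroup_of_perfect H.perfect (core e)

omit [FaithfulSMul G Ω] in
theorem irr_perm : IsIrrCharacter G fun g => (Nat.card (fixedBy Ω g) : ℂ) - 1 :=
  have : Finite Ω := Finite.of_equiv _ e
  (S0157.result Ω (by rw [card_Ω e]; exact hp.out.two_le)).2 ((aff_or_two_trans H.hc).resolve_left H.hna)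

omit [FaithfulSMul G Ω] in
theorem two_mul_le : 2 * Nat.card E + 1 ≤ p := by
  have h2 := hp.out.two_le
  have h1 := S4508.result p hp.out x H.h.ord H.h.centralizer_bot _ H.h.card_classes' ⟨_, H.irr_perm⟩ (by
    rw [charDegree_eq_of_apply_one (n := p - 1)]
    · omega
    · simp [card_Ω e, Nat.cast_sub hp.out.one_le])
  rw [H.perfect, Subgroup.index_top, or_iff_left (by decide)] at h1
  have h3 := index_mul_card_EE E[H.h]
  rw [← H.card_E] at h3
  obtain ⟨t, ht⟩ := h1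
  rw [ht] at h3
  rcases t with _ | t
  · omega
  · have : (t + 1 + (t + 1)) * Nat.card E = 2 * Nat.card E + 2 * t * Nat.card E := by ring
    omega

end Ito

/-- In a `3`-transitive group, an involution with one fixed point and a small centraliser is conjugate to
every element that fixes that point and swaps two others. -/
theorem conj_of_count [Finite G] [Finite Ω] (h3 : IsMultiplyPretransitive G Ω 3) {z : G} (hz : z * z = 1)
    {a : Ω} (ha : z • a = a) (hu : ∀ b, z • b = b → b = a)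
    (hc : Nat.card (Subgroup.centralizer ({z} : Set G)) + 1 ≤ Nat.card Ω) {β γ : Ω} (hβγ : β ≠ γ)
    (hβ : a ≠ β) (hγ : a ≠ γ) : Nat.card Ω ≤ Nat.card (Subgroup.centralizer ({z} : Set G)) + 1 ∧
      ∀ w : G, w • a = a → w • β = γ → w • γ = β → IsConj z w := by
  classical
  have := Fintype.ofFinite G
  have := Fintype.ofFinite Ω
  let D : Finset G := {g | g • a = a ∧ g • β = β ∧ g • γ = γ}
  let A : Finset G := {g | g • a = a ∧ (g * z * g⁻¹) • β = γ}
  let W : Finset G := {g | g • a = a ∧ g • β = γ ∧ g • γ = β}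
  have hg : ∀ b : Ω, ∃ g : G, b ≠ a → g • a = a ∧ g • b = β ∧ g • z • b = γ := fun b => by
    by_cases hb : b = a
    · exact ⟨1, fun h => (h hb).elim⟩
    obtain ⟨g, hg⟩ := exists_smul_three h3 (a := a) (b := b) (c := z • b) (Ne.symm hb)
      (fun h => hb (by rw [← ha, smul_left_cancel_iff] at h; exact h.symm)) (fun h => hb (hu b h.symm))
      hβ hγ hβγ
    exact ⟨g, fun _ => hg⟩
  choose g hg using hg
  have h1 : (Finset.univ.erase a ×ˢ D).card ≤ A.card := by
    refine Finset.card_le_card_of_injOn (fun q => q.2 * g q.1) (fun q hq => ?_) fun q hq r hr h => ?_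
    · simp only [D, A, Finset.coe_product, Set.mem_prod, Finset.mem_coe, Finset.mem_erase, Finset.mem_filter,
        Finset.mem_univ, true_and, and_true] at hq ⊢
      obtain ⟨h1, h2, h3⟩ := hg _ hq.1
      refine ⟨by rw [mul_smul, h1, hq.2.1], ?_⟩
      rw [mul_smul, mul_smul, inv_smul_eq_iff.2 (show β = _ • q.1 by rw [mul_smul, h2, hq.2.2.1]), mul_smul, h3,
        hq.2.2.2]
    · simp only [D, Finset.coe_product, Set.mem_prod, Finset.mem_coe, Finset.mem_erase, Finset.mem_filter,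
        Finset.mem_univ, true_and, and_true] at hq hr h
      have h1 : q.1 = r.1 := by
        rw [← smul_left_cancel_iff (q.2 * g q.1), mul_smul, (hg _ hq.1).2.1, hq.2.2.1, h, mul_smul,
          (hg _ hr.1).2.1, hr.2.2.1]
      rw [h1] at h
      exact Prod.ext h1 (mul_right_cancel h)
  have h2 := Finset.card_le_mul_card_image (f := fun g => g * z * g⁻¹) A
    (Nat.card (Subgroup.centralizer ({z} : Set G))) fun w hw => by
      obtain ⟨u, -, rfl⟩ := Finset.mem_image.1 hw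
      rw [← card_conj_fiber (isConj_iff.2 ⟨u, rfl⟩), Nat.card_eq_fintype_card, Fintype.card_subtype]
      exact Finset.card_le_card fun v hv => by simpa using (Finset.mem_filter.1 hv).2
  have h4 : A.image (fun g => g * z * g⁻¹) ⊆ W := fun w hw => by
    obtain ⟨u, hu, rfl⟩ := Finset.mem_image.1 hw
    simp only [A, W, Finset.mem_filter, Finset.mem_univ, true_and] at hu ⊢
    refine ⟨by rw [mul_smul, mul_smul, inv_smul_eq_iff.2 hu.1.symm, ha, hu.1], hu.2, ?_⟩
    rw [← hu.2, ← mul_smul, show u * z * u⁻¹ * (u * z * u⁻¹) = u * (z * z) * u⁻¹ by group, hz]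
    simp
  have h5 : W.card ≤ D.card := by
    obtain ⟨w, h1, h2, h3⟩ := exists_smul_three h3 hβ hγ hβγ hγ hβ hβγ.symm
    refine Finset.card_le_card_of_injOn (fun v => w * v) (fun v hv => ?_) fun _ _ _ _ h => mul_left_cancel h
    simp only [D, W, Finset.coe_filter, Finset.mem_univ, true_and, Set.mem_ofPred_eq, mul_smul] at hv ⊢
    rw [hv.1, hv.2.1, hv.2.2]
    exact ⟨h1, h3, h2⟩
  have h6 : 0 < D.card := Finset.card_pos.2 ⟨1, by simp [D]⟩
  have h7 := Finset.card_le_card h4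
  rw [Finset.card_product, Finset.card_erase_of_mem (Finset.mem_univ _), Finset.card_univ,
    ← Nat.card_eq_fintype_card] at h1
  generalize Nat.card (Subgroup.centralizer ({z} : Set G)) = c at *
  obtain ⟨n, hn⟩ : ∃ n, Nat.card Ω = n + 1 := ⟨_, (Nat.succ_pred_eq_of_pos (by omega)).symm⟩
  rw [hn, Nat.add_sub_cancel] at h1
  have h8 : n ≤ c := Nat.le_of_mul_le_mul_right (h1.trans (h2.trans (Nat.mul_le_mul_left _ (h7.trans h5)))) h6
  have h9 : 0 < c := by
    have : 1 < Nat.card Ω := Finite.one_lt_card_iff_nontrivial.2 ⟨_, _, hβγ⟩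
    omega
  refine ⟨by omega, fun w h1' h2' h3' => ?_⟩
  have h10 : w ∈ W := by simp [W, h1', h2', h3']
  rw [← Finset.eq_of_subset_of_card_le h4 (h5.trans (Nat.le_of_mul_le_mul_left
    (((Nat.mul_le_mul_right _ (by omega)).trans h1).trans h2) h9))] at h10
  obtain ⟨u, -, rfl⟩ := Finset.mem_image.1 h10
  exact isConj_iff.2 ⟨u, rfl⟩

theorem sharp_of_count [Finite G] [Finite Ω] [FaithfulSMul G Ω] (h3 : IsMultiplyPretransitive G Ω 3) {z : G}
    (hz : z * z = 1) {a : Ω} (ha : z • a = a) (hu : ∀ b, z • b = b → b = a)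
    (hc : Nat.card (Subgroup.centralizer ({z} : Set G)) + 1 ≤ Nat.card Ω) {β : Ω} (hβ : a ≠ β) :
    Sharp G Ω 3 := by
  have hγ : a ≠ z • β := fun h => hβ (by rwa [← ha, smul_left_cancel_iff] at h)
  have hβγ : β ≠ z • β := fun h => hβ (hu β h.symm).symm
  have hzz : ∀ b : Ω, z • z • b = b := fun b => by rw [← mul_smul, hz, one_smul]
  have hz' : z⁻¹ = z := inv_eq_of_mul_eq_one_left hz
  let S : Subgroup G := stabilizer G β ⊓ stabilizer G (z • β)
  have hS : z ∈ Subgroup.normalizer (S : Set G) := by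
    have : ∀ g ∈ S, z * g * z⁻¹ ∈ S := fun g hg => by
      refine ⟨show _ • _ = _ from ?_, show _ • _ = _ from ?_⟩ <;> simp only [hz', mul_smul, hzz]
      · rw [hg.2, hzz]
      · rw [hg.1]
    refine Subgroup.mem_normalizer_iff.2 fun g => ⟨this g, fun h => ?_⟩
    have := this _ h
    rwa [show z * (z * g * z⁻¹) * z⁻¹ = (z * z) * g * (z * z)⁻¹ by group, hz, inv_one, one_mul, mul_one] at this
  have hcomm := MonoidHom.FixedPointFree.commute_all_of_involutive (φ := S.normalizerMonoidHom ⟨z, hS⟩)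
    (fun y hy => ?_) fun y => Subtype.ext (by
      change z * (z * y * z⁻¹) * z⁻¹ = y
      rw [show z * (z * y * z⁻¹) * z⁻¹ = (z * z) * y * (z * z)⁻¹ by group, hz, inv_one, one_mul, mul_one])
  · have key : ∀ g : G, g • a = a → g • β = β → g • z • β = z • β → g = 1 := fun g h1 h2 h4 =>
      eq_of_smul_eq_smul (α := Ω) fun c => by
        rw [one_smul]
        by_cases e1 : β = c
        · rw [← e1, h2]
        by_cases e2 : z • β = c
        · rw [← e2, h4]
        obtain ⟨u, u1, u2, u3⟩ := exists_smul_three h3 hβγ hβ.symm hγ.symm hβγ e1 e2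
        have := congrArg Subtype.val (hcomm ⟨g, h2, h4⟩ ⟨u, u1, u2⟩).eq
        rw [← u3, ← mul_smul, show g * u = u * g from this, mul_smul, h1]
    intro g s hs hg
    obtain ⟨b, hb, c, hc', d, hd, hbc, hbd, hcd⟩ := Finset.two_lt_card.1 hs
    obtain ⟨u, u1, u2, u3⟩ := exists_smul_three h3 hβ hγ hβγ hbc hbd hcd
    have := key (u⁻¹ * g * u) (by rw [mul_smul, mul_smul, u1, hg b hb, inv_smul_eq_iff, u1])
      (by rw [mul_smul, mul_smul, u2, hg c hc', inv_smul_eq_iff, u2])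
      (by rw [mul_smul, mul_smul, u3, hg d hd, inv_smul_eq_iff, u3])
    simpa [mul_assoc, inv_mul_eq_one] using this
  · have hy' : z * y = y * z := mul_inv_eq_iff_eq_mul.1 (congrArg Subtype.val hy)
    have h1 : (y : G) • a = a := hu _ (by rw [← mul_smul, hy', mul_smul, ha])
    obtain ⟨u, hu'⟩ := isConj_iff.1 ((conj_of_count h3 hz ha hu hc hβγ hβ hγ).2 (z * y)
      (by rw [mul_smul, h1, ha]) (by rw [mul_smul, y.2.1]) (by rw [mul_smul, y.2.2, hzz]))
    have h2 : (y : G) * y = 1 := by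
      have : z * y * (z * y) = 1 := by
        rw [← hu', show u * z * u⁻¹ * (u * z * u⁻¹) = u * (z * z) * u⁻¹ by group, hz]; simp
      rwa [mul_assoc, ← mul_assoc (y : G), ← hy', ← mul_assoc, ← mul_assoc, hz, one_mul] at this
    refine Subtype.ext (eq_of_smul_eq_smul (α := Ω) fun c => ?_)
    by_contra h4
    rw [OneMemClass.coe_one, one_smul] at h4
    have h5 : a ≠ c := fun h => h4 (h ▸ h1)
    obtain ⟨v, hv⟩ := isConj_iff.1 ((conj_of_count h3 hz ha hu hc (Ne.symm h4) h5 (fun h => h5 (by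
      rwa [← h1, smul_left_cancel_iff] at h))).2 y h1 rfl (by rw [← mul_smul, h2, one_smul]))
    have h6 : ∀ b : Ω, (y : G) • b = b → v⁻¹ • b = a := fun b hb => hu _ (by
      rw [eq_inv_smul_iff, ← mul_smul, ← mul_smul, hv, hb])
    exact hβ (smul_left_cancel v⁻¹ ((h6 a h1).trans (h6 β y.2.1).symm))

theorem Ito.even [Finite G] [FaithfulSMul G Ω] [IsPretransitive G Ω] (H : Ito x e E χ)
    (hE : 2 ∣ Nat.card E) : p = 5 ∧ Nat.card G = 60 := by
  have : Finite Ω := Finite.of_equiv _ e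
  obtain ⟨⟨z, hz⟩, ho⟩ := exists_prime_orderOf_dvd_card' 2 hE
  rw [← Subgroup.orderOf_coe] at ho
  have h1 : z ≠ 1 := fun h => by simp [h] at ho
  have hzz : z * z = 1 := by rw [← sq, ← ho]; exact pow_orderOf_eq_one z
  obtain ⟨b, hb⟩ := smul_coord H.h.ord H.hc ⟨z, H.le hz⟩
  have h2 : (expo H.h.ord ⟨z, H.le hz⟩ : ZMod p) = -1 := by
    refine (mul_self_eq_one_iff.1 ?_).resolve_left fun h => H.expo_ne hz h1 (Units.ext h)
    rw [← Units.val_mul, ← map_mul, show (⟨z, H.le hz⟩ * ⟨z, H.le hz⟩ : Nx x) = 1 from Subtype.ext hzz]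
    simp
  have h3 := three_trans_of_refl H.hc H.hna (t := z) (b := b) fun j => (hb j).trans (by
    rw [h2]; congr 1; ring)
  obtain ⟨a, ha⟩ := H.exists_fix hz h1
  have hu := fun b hb => H.fix_unique hz h1 (a := b) hb ha
  have h4 : Nat.card (Subgroup.centralizer ({z} : Set G)) ≤ 2 * Nat.card E := H.hN ▸ Subgroup.card_le_of_le
    fun g hg => H.cent_le hz h1 (Subgroup.mem_centralizer_singleton_iff.1 hg)
  have h5 := H.two_mul_le
  have h6 := Ito.card_Ω e
  have h7 := Nat.le_of_dvd Nat.card_pos hE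
  have := Finite.one_lt_card_iff_nontrivial.1 (show 1 < Nat.card Ω by omega)
  obtain ⟨β, hβ⟩ := exists_ne a
  have h8 := (conj_of_count h3 hzz ha hu (by omega) (β := β) (γ := z • β) (fun h => hβ (hu β h.symm)) hβ.symm
    fun h => hβ (by rw [← ha, smul_left_cancel_iff] at h; exact h.symm)).1
  have h9 := (sharp_of_count h3 hzz ha hu (by omega) hβ.symm).card_eq h3 (by omega)
  have h10 := H.h.card_eq_bot
  have h11 := card_sylow_modEq_one p G
  rw [← H.card_E] at h10
  generalize Nat.card E = d at *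
  obtain rfl : p = 2 * d + 1 := by omega
  obtain ⟨d, rfl⟩ : ∃ c, d = c + 1 := ⟨d - 1, by omega⟩
  have h12 : Nat.card (Sylow (2 * (d + 1) + 1) G) = 2 * (2 * d + 1) :=
    Nat.eq_of_mul_eq_mul_right (show 0 < (d + 1) * (2 * (d + 1) + 1) by positivity) (by
      rw [← h10, h9, h6]
      simp only [Nat.descFactorial_succ, Nat.descFactorial_zero]
      rw [show 2 * (d + 1) + 1 - 2 = 2 * d + 1 by omega, show 2 * (d + 1) + 1 - 1 = 2 * (d + 1) by omega]
      simp only [Nat.sub_zero]; ring)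
  rw [h12] at h11 h10
  have h13 : 2 * (d + 1) + 1 ∣ 5 := by
    have := (Nat.modEq_iff_dvd' (by omega)).1 h11.symm
    exact (Nat.dvd_add_right this).1 ⟨2, by omega⟩
  have := Nat.le_of_dvd (by decide) h13
  obtain rfl : d = 1 := by omega
  exact ⟨rfl, h10⟩

end Cfsg.Agent.CH.Low
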