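import Cfsg.Agent.CH.Ito3
import Cfsg.Agent.CH.Low3
import Cfsg.Agent.CharDeep.PermChar
import Cfsg.Agent.Block.Q8

/-! Groups of prime degree `p` with a unique irreducible character of degree `p` and a TI complement `E`:
the case `|E|` odd. -/

set_option autoImplicit false
open Cfsg

namespace Cfsg.Agent.CH.Low

open Cfsg.Agent.Small Cfsg.Agent.Char Cfsg.Agent.CharDeep Cfsg.Agent.Perm Cfsg.Agent.Block MulAction

theorem sum_hom_zero {A : Type*} [Group A] [Fintype A] (a : A →* ℂˣ) {g : A} (hg : a g ≠ 1) :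
    ∑ y, (a y : ℂ) = 0 :=
  sum_hom_units_eq_zero ((Units.coeHom ℂ).comp a) fun h => hg (Units.ext (DFunLike.congr_fun h g))

namespace Ito

variable {p : ℕ} [hp : Fact p.Prime] {G Ω : Type*} [Group G] [MulAction G Ω] {x : G} {e : ZMod p ≃ Ω}
  {E : Subgroup G} {χ : G → ℂ} [Fintype G] (H : Ito x e E χ)
include H

theorem exists_u : ∃ u ∈ Subgroup.normalizer (E : Set G), u ∉ E ∧
    ∀ g ∈ Subgroup.normalizer (E : Set G), g ∉ E → u⁻¹ * g ∈ E := by
  have h1 := (E.subgroupOf (Subgroup.normalizer (E : Set G))).card_mul_index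
  rw [Nat.card_congr (Subgroup.subgroupOfEquivOfLe Subgroup.le_normalizer).toEquiv, H.hN, mul_comm] at h1
  have h2 := Nat.eq_of_mul_eq_mul_right Nat.card_pos h1
  obtain ⟨u, hu⟩ : ∃ u, u ∉ E.subgroupOf (Subgroup.normalizer (E : Set G)) := by
    by_contra! h
    rw [(Subgroup.eq_top_iff' _).2 h, Subgroup.index_top] at h2
    omega
  exact ⟨u, u.2, hu, fun g hg h => (Subgroup.mul_mem_iff_of_index_two h2 (a := u⁻¹) (b := ⟨g, hg⟩)).2
    (iff_of_false (by rwa [inv_mem_iff]) h)⟩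

variable {u : G} (hu : u ∈ Subgroup.normalizer (E : Set G)) (hu' : u ∉ E)
  (hu'' : ∀ g ∈ Subgroup.normalizer (E : Set G), g ∉ E → u⁻¹ * g ∈ E)
include hu''

theorem conj_eq {m : G} (hm : m ∈ E) {g : G} (hg : g ∈ Subgroup.normalizer (E : Set G)) (h : g ∉ E) :
    g * m * g⁻¹ = u * m * u⁻¹ := by
  have := H.comm (hu'' g hg h) hm
  calc g * m * g⁻¹ = u * (u⁻¹ * g * m) * g⁻¹ := by group
    _ = _ := by rw [this]; group

include hu hu'

theorem ind_val (f : E → ℂ) (m : E) (h1 : m ≠ 1) :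
    indFun E f m = f m + f ⟨u * m * u⁻¹, (Subgroup.mem_normalizer_iff.1 hu m).1 m.2⟩ := by
  classical
  have h2 : ∀ (v : G) (c : ℂ), ∑ g : G, (if v * g ∈ E then c else 0) = Nat.card E * c := fun v c => by
    refine (Equiv.sum_comp (Equiv.mulLeft v) fun g => if g ∈ E then c else 0).trans ?_
    rw [← Finset.sum_filter, Finset.sum_const,
      Nat.card_eq_fintype_card, Fintype.card_subtype, nsmul_eq_mul]
  rw [indFun_apply', inv_mul_eq_iff_eq_mul₀ (card_ne_zero' E), mul_add, ← h2 1, ← h2 u⁻¹,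
    ← Finset.sum_add_distrib]
  refine Finset.sum_congr rfl fun g _ => ?_
  rw [one_mul]
  by_cases hg : g ∈ E
  · rw [if_pos hg, if_neg fun h => hu' (by simpa using E.mul_mem hg (E.inv_mem h)), H.comm hg m.2,
      mul_inv_cancel_right, extendByZero_coe, add_zero]
  rw [if_neg hg, zero_add]
  by_cases hn : g ∈ Subgroup.normalizer (E : Set G)
  · rw [if_pos (hu'' g hn hg), H.conj_eq hu'' m.2 hn hg, extendByZero_of_mem]
  · rw [if_neg fun h => hn (by simpa using Subgroup.mul_mem _ hu (Subgroup.le_normalizer h)),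
      extendByZero_of_not_mem _ _ fun h => hn (H.TI g m m.2 (fun h => h1 (Subtype.ext h)) h)]

theorem inverts (hodd : Odd (Nat.card E)) {m : G} (hm : m ∈ E) : u * m * u⁻¹ = m⁻¹ := by
  have key : ∀ m ∈ E, u * m * u⁻¹ = m → m = 1 := fun m hm h => by
    by_contra h1
    have h2 := MonoidHom.transfer_eq_pow H.ex m fun k g hg => by
      by_cases h3 : m ^ k = 1
      · simp [h3]
      have h4 := H.TI g⁻¹ _ (E.pow_mem hm k) h3 (by rwa [inv_inv])
      by_cases h5 : g⁻¹ ∈ E
      · rw [H.comm h5 (E.pow_mem hm k), inv_mul_cancel_right]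
      · have := H.conj_eq hu'' (E.pow_mem hm k) h4 h5
        rwa [inv_inv, ← conj_pow, h] at this
    have h3 : MonoidHom.transfer H.ex m = 1 :=
      Abelianization.commutator_subset_ker _ (H.perfect ▸ Subgroup.mem_top m)
    have h4 : m ^ E.index = 1 := congrArg Subtype.val (H.ex_inj (a₂ := 1) (by rw [← h2, h3, map_one]))
    obtain ⟨r, hr, hd⟩ := Nat.exists_prime_and_dvd (mt orderOf_eq_one_iff.1 h1)
    have := Fact.mk hr
    have h5 := orderOf_pow_orderOf_div (orderOf_pos m).ne' hd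
    have h6 := card_fixedBy_modEq (G ⧸ E) _ (isPGroup_zpowers_of_orderOf h5)
    have h7 := (indFun_one_eq_card_fixedBy E _).symm.trans (H.ind_val hu hu' hu'' (fun _ => 1)
      ⟨_, E.pow_mem hm (orderOf m / r)⟩ fun h => hr.one_lt.ne' (by
        rw [← h5, show m ^ _ = 1 from congrArg Subtype.val h, orderOf_one]))
    rw [one_add_one_eq_two] at h7
    rw [show Nat.card (fixedBy _ _) = 2 by exact_mod_cast h7] at h6
    have h8 := (h6.dvd_iff dvd_rfl).1 (hd.trans (orderOf_dvd_of_pow_eq_one h4))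
    rw [(Nat.prime_dvd_prime_iff_eq hr Nat.prime_two).1 h8] at hd
    exact Nat.not_even_iff_odd.2 hodd (even_iff_two_dvd.2 (hd.trans (E.orderOf_dvd_natCard hm)))
  have h1 := (Subgroup.mem_normalizer_iff.1 hu m).1 hm
  have h2 := H.conj_eq hu'' h1 (inv_mem hu) (by rwa [inv_mem_iff])
  refine eq_inv_of_mul_eq_one_right (key _ (E.mul_mem hm h1) ?_)
  rw [H.comm hm h1]
  calc u * (u * m * u⁻¹ * m) * u⁻¹ = u * (u * m * u⁻¹) * u⁻¹ * (u * m * u⁻¹) := by group
    _ = _ := by rw [← h2, ← H.comm hm h1]; group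

omit hu hu' hu'' H [Fintype G] in
theorem sq_ne (hodd : Odd (Nat.card E)) {m : G} (hm : m ∈ E) (h1 : m ≠ 1) : m * m ≠ 1 := fun h => by
  obtain ⟨k, hk⟩ := hodd
  have := congrArg Subtype.val (pow_card_eq_one' (x := (⟨m, hm⟩ : E)))
  rw [hk, Subgroup.coe_pow, pow_succ, pow_mul, sq, h, one_pow, one_mul] at this
  exact h1 this

theorem chi_E (hodd : Odd (Nat.card E)) {m : G} (hm : m ∈ E) (h1 : m ≠ 1) : χ m = 1 := by
  obtain ⟨μ, hμ⟩ := H.exists_mu
  have h2 := hμ _ (H.expo_ne hm h1)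
  have h3 := hμ _ (H.expo_ne (E.inv_mem hm) (inv_ne_one.2 h1))
  replace h3 := ((IsIrrCharacter.isClassFunction H.irr m u).symm.trans
    (congrArg χ (H.inverts hu hu' hu'' hodd hm))).trans h3
  have h4 : μ ⟨m, H.le hm⟩ ^ 2 = 1 := by
    rw [sq, mul_eq_one_iff_eq_inv, ← map_inv]; exact Units.ext (h2.symm.trans h3)
  obtain ⟨k, hk⟩ := hodd
  have h5 : (⟨m, H.le hm⟩ : Nx x) ^ (2 * k + 1) = 1 :=
    Subtype.ext (show m ^ _ = 1 from hk ▸ orderOf_dvd_iff_pow_eq_one.1 (E.orderOf_dvd_natCard hm))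
  have h6 := congrArg μ h5
  rw [map_pow, pow_succ, pow_mul, h4, one_pow, one_mul, map_one] at h6
  rw [h2, h6, Units.val_one]

theorem exists_succ (hodd : Odd (Nat.card E)) {ω : (ZMod p)ˣ →* ℂˣ} (hω : Function.Injective ω) :
    ∃ ψ, IsIrrCharacter G ψ ∧ ψ 1 = p + 1 ∧ (∀ j : ZMod p, j ≠ 0 → ψ (xp x j) = 1) ∧
      ∀ m : E, m ≠ 1 → ψ m = ω (H.ex m) + ω (H.ex m⁻¹) := by
  classical
  let θ := ω.comp H.ex
  let f : E → ℂ := (fun _ => 1) - fun m => (θ m : ℂ)
  have hf : IsGeneralizedCharacter E f := ⟨_, _, isCharacter_one, isCharacter_hom θ, rfl⟩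
  have hβ := isGeneralizedCharacter_indFun E hf
  have hχ := IsIrrCharacter.isGeneralizedCharacter H.irr
  have h1 : IsGeneralizedCharacter G fun _ => 1 := isGeneralizedCharacter_one
  have f1 : f 1 = 0 := by simp [f]
  have hv : ∀ m : E, indFun E f m = f m + f m⁻¹ := fun m => by
    by_cases hm : m = 1
    · simp [hm, indFun_one, f1]
    · rw [H.ind_val hu hu' hu'' f m hm]
      congr 2
      exact Subtype.ext (H.inverts hu hu' hu'' hodd m.2)
  obtain ⟨m₀, hm₀⟩ := (Subgroup.ne_bot_iff_exists_ne_one).1 H.ne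
  have hθ : ∀ m, θ m = 1 → m = 1 := (injective_iff_map_eq_one θ).1 (hω.comp H.ex_inj)
  have s1 := sum_hom_zero θ (mt (hθ _) hm₀)
  have s2 := sum_hom_zero (θ * θ) (g := m₀) fun h => sq_ne hodd m₀.2 (fun h => hm₀ (Subtype.ext h))
    (congrArg Subtype.val (hθ (m₀ * m₀) (by rwa [map_mul])))
  have s3 : ∑ m, (θ m⁻¹ : ℂ) = 0 := (Equiv.sum_comp (Equiv.inv E) fun m => (θ m : ℂ)).trans s1
  have hE := card_ne_zero' E
  have i1 : classInner (indFun E f) (fun _ => 1) = 1 := by
    rw [classInner_indFun_left _ _ (isClassFunction_const 1), classInner_one_right]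
    simp [f, Finset.sum_sub_distrib, s1]
  have i2 : classInner (indFun E f) χ = 1 := by
    rw [← i1, classInner_indFun_left _ _ (isClassFunction_const 1), classInner_one_right,
      classInner_indFun_left _ _ (IsIrrCharacter.isClassFunction H.irr),
      classInner_eq_sum_inv _ (IsGeneralizedCharacter.restrict hχ E)]
    refine congrArg _ (Finset.sum_congr rfl fun m _ => ?_)
    by_cases hm : m = 1
    · rw [hm, f1, zero_mul]
    · rw [H.chi_E hu hu' hu'' hodd m⁻¹.2 fun h => hm (inv_eq_one.1 (Subtype.ext h)), mul_one]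
  have i3 : classInner (indFun E f) (indFun E f) = 3 := by
    rw [classInner_indFun_left _ _ (indFun_isClassFunction E f),
      classInner_eq_sum_inv _ (IsGeneralizedCharacter.restrict hβ E), inv_mul_eq_iff_eq_mul₀ hE,
      Finset.sum_congr rfl fun m _ => show _ = 3 - 3 * (θ m : ℂ) - θ m⁻¹ + (θ * θ) m from ?_]
    · simp only [Finset.sum_add_distrib, Finset.sum_sub_distrib, ← Finset.mul_sum, s1, s2, s3]
      simp
    · have : (θ m : ℂ) * θ m⁻¹ = 1 := by rw [← Units.val_mul, ← map_mul]; simp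
      rw [hv, inv_inv]
      simp only [f, Pi.sub_apply, MonoidHom.mul_apply, Units.val_mul]
      linear_combination this
  have i4 : classInner (fun _ => 1) χ = 0 := IsIrrCharacter.classInner_eq_zero_of_ne isIrrCharacter_one H.irr
    fun h => hp.out.one_lt.ne (by exact_mod_cast (congrFun h 1).trans H.deg)
  have d1 : ((fun _ => 1) + χ - indFun E f : G → ℂ) 1 = p + 1 := by simp [indFun_one, f1, H.deg, add_comm]
  refine ⟨(fun _ => 1) + χ - indFun E f, IsGeneralizedCharacter.isIrrCharacter_of_pos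
    (IsGeneralizedCharacter.sub (IsGeneralizedCharacter.add h1 hχ) hβ) ?_ (by rw [d1]; simp; positivity), d1,
    fun j hj => ?_, fun m hm => ?_⟩
  · simp only [classInner_add_left, classInner_add_right, classInner_sub_left, classInner_sub_right]
    rw [IsGeneralizedCharacter.classInner_comm hχ h1, IsGeneralizedCharacter.classInner_comm hχ hβ,
      IsGeneralizedCharacter.classInner_comm h1 hβ, i1, i2, i3, i4, IsIrrCharacter.classInner_self H.irr,
      IsIrrCharacter.classInner_self isIrrCharacter_one]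
    ring
  · simp only [Pi.sub_apply, Pi.add_apply, H.chi_xp hj]
    rw [indFun_eq_zero_of_forall_not_mem _ _ fun g hg => H.notdvd (by
      simpa only [Small.orderOf_conj', orderOf_xp H.h.ord hj] using E.orderOf_dvd_natCard hg)]
    ring
  · rw [Pi.sub_apply, hv]
    simp only [Pi.sub_apply, Pi.add_apply, H.chi_E hu hu' hu'' hodd m.2 fun h => hm (Subtype.ext h), f, θ,
      MonoidHom.comp_apply]
    ring

omit hu hu' hu'' in
theorem sum_ne (hodd : Odd (Nat.card E)) {ω : (ZMod p)ˣ →* ℂˣ} (hω : Function.Injective ω) {ψ : G → ℂ}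
    (hψ : IsClassFunction G ψ) (h1 : ψ 1 = p + 1) (h2 : ∀ j : ZMod p, j ≠ 0 → ψ (xp x j) = 1)
    (h3 : ∀ m : E, m ≠ 1 → ψ m = ω (H.ex m) + ω (H.ex m⁻¹)) [Fintype (Nx x)] :
    ∑ n : Nx x, ω (expo H.h.ord n⁻¹) * ψ n ≠ 0 ∧ ∑ n : Nx x, ω (expo H.h.ord n) * ψ n ≠ 0 := by
  classical
  let θ := ω.comp (expo H.h.ord)
  have key : ∀ c : Nx x → ℂ, (∀ n, expo H.h.ord n = 1 → c n = 1) →
      ∑ n, c n * ψ n = ∑ n, c n * (θ n + θ n⁻¹) := fun c hc => by
    rw [← sub_eq_zero, ← Finset.sum_sub_distrib, ← Fintype.sum_of_injective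
      (fun j : ZMod p => (⟨xp x j, Subgroup.le_normalizer (xp_mem x j)⟩ : Nx x))
      (fun _ _ h => xp_injective H.h.ord (congrArg Subtype.val h)) (fun j => ψ (xp x j) - 2) _
      (fun n hn => ?_) fun j => ?_]
    · rw [← Finset.add_sum_erase _ _ (Finset.mem_univ 0), Finset.sum_congr rfl fun j hj => by
        rw [h2 j (Finset.ne_of_mem_erase hj)]]
      simp [h1, Nat.cast_sub hp.out.one_le]
      ring
    · obtain ⟨m, j, hj, hm⟩ := H.exists_ex n
      have h4 : m ≠ 1 := by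
        rintro rfl
        exact hn ⟨j, Subtype.ext (by simp [hj])⟩
      obtain ⟨i, hi⟩ := exists_conj_mul_xp H.h.ord (H.expo_ne m.2 fun h => h4 (Subtype.ext h)) j
      rw [hj, ← hi, hψ, h3 m h4, map_inv H.ex, hm]
      simp [θ]
    · simp [hc _ (H.expo_xp j _), θ, H.expo_xp j]
      ring
  obtain ⟨m₀, hm₀⟩ := (Subgroup.ne_bot_iff_exists_ne_one).1 H.ne
  have s2 := sum_hom_zero (θ * θ) (g := ⟨m₀, H.le m₀.2⟩) fun h => H.expo_ne (E.mul_mem m₀.2 m₀.2)
    (sq_ne hodd m₀.2 (fun h => hm₀ (Subtype.ext h))) (hω (by rw [map_one, ← h]; exact map_mul θ ⟨m₀, H.le m₀.2⟩ ⟨m₀, H.le m₀.2⟩))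
  have s3 : ∑ m, ((θ * θ) m⁻¹ : ℂ) = 0 := (Equiv.sum_comp (Equiv.inv _) fun m => ((θ * θ) m : ℂ)).trans s2
  have s4 : ∀ n, (θ n : ℂ) * θ n⁻¹ = 1 := fun n => by rw [← Units.val_mul, ← map_mul]; simp
  simp only [MonoidHom.mul_apply, Units.val_mul] at s2 s3
  constructor
  · rw [key _ fun n hn => by simp [hn]]
    change ∑ n, (θ n⁻¹ : ℂ) * _ ≠ 0
    simp only [mul_add, Finset.sum_add_distrib, s3, mul_comm (θ _⁻¹ : ℂ) (θ _), s4]
    simp
  · rw [key _ fun n hn => by simp [hn]]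
    change ∑ n, (θ n : ℂ) * _ ≠ 0
    simp only [mul_add, Finset.sum_add_distrib, s2, s4]
    simp

omit hu hu' hu'' in
theorem odd [FaithfulSMul G Ω] [IsPretransitive G Ω] (hodd : Odd (Nat.card E)) :
    (p = 7 ∨ p = 11) ∧ Nonempty (G ≃* Matrix.ProjectiveSpecialLinearGroup (Fin 2) (ZMod p)) := by
  classical
  have : Finite Ω := Finite.of_equiv _ e
  have := Fintype.ofFinite Ω
  have := H.simple
  obtain ⟨u, hu, hu', hu''⟩ := H.exists_u
  obtain ⟨M, _⟩ := exists_pMod p
  obtain ⟨ω, hω⟩ := exists_teich p M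
  have hω' : Function.Injective ω := fun a b h => Units.ext ((ZMod.castHom dvd_rfl (F M)).injective (by
    rw [ZMod.castHom_apply, ZMod.castHom_apply, ← ZMod.natCast_val, ← ZMod.natCast_val, ← hω, ← hω, h]))
  obtain ⟨ψ, h1, h2, h3, h4⟩ := H.exists_succ hu hu' hu'' hodd hω'
  obtain ⟨h5, h6⟩ := H.sum_ne hodd hω' (IsIrrCharacter.isClassFunction h1) h2 h3 h4
  obtain ⟨⟨m, hm⟩, hm'⟩ := (Subgroup.ne_bot_iff_exists_ne_one).1 H.ne
  have m1 : m ≠ 1 := fun h => hm' (Subtype.ext h)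
  have m2 := sq_ne hodd hm m1
  obtain ⟨a, ha⟩ := H.exists_fix hm m1
  have hS := (stabilizer G a).index_mul_card
  rw [index_stabilizer_of_transitive, card_Ω e] at hS
  have h7 := H.two_mul_le
  have h8 : 3 ≤ Nat.card E := by
    have := E.one_lt_card_iff_ne_bot.2 H.ne
    obtain ⟨k, hk⟩ := hodd
    omega
  have hH : ¬ p ∣ Nat.card (stabilizer G a) := fun h =>
    H.h.not_sq_dvd hp.out.pos (by rw [← hS, sq]; exact mul_dvd_mul_left _ h)
  obtain ⟨K, _, _, _, φ, hφ⟩ := exists_pgl_of_succ H.h (by omega) hH H.hc H.hna H.sup H.notdvd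
    (n₀ := ⟨m, H.le hm⟩) (fun h => H.expo_ne (E.mul_mem hm hm) m2 (by
      rw [map_inv, eq_inv_iff_mul_eq_one, ← map_mul] at h; exact h)) M hω h1 h2 (by
      have e1 := classInner_indFun_right (stabilizer G a) (fun _ => 1) (IsIrrCharacter.isClassFunction h1)
      rw [classInner_one_right, show indFun (stabilizer G a) (fun _ => 1) =
        (fun _ => 1) + fun g => (Nat.card (fixedBy Ω g) : ℂ) - 1 from funext fun g => by
          rw [← card_fixedBy_eq_indFun Ω a g, Pi.add_apply, add_sub_cancel], classInner_add_right,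
        IsIrrCharacter.classInner_eq_zero_of_ne h1 isIrrCharacter_one fun h => hp.out.ne_zero (by
          simpa [h2] using congrFun h 1),
        IsIrrCharacter.classInner_eq_zero_of_ne h1 H.irr_perm fun h => by
          have := congrFun h 1
          simp only [h2, fixedBy_one_eq_univ, Nat.card_univ, card_Ω e] at this
          norm_num [sub_eq_add_neg] at this] at e1
      exact (mul_eq_zero.1 (e1.symm.trans (add_zero 0))).resolve_left (inv_ne_zero (card_ne_zero' _))) h5 h6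
  have hφ' : Function.Injective φ := (MonoidHom.ker_eq_bot_iff φ).1
    ((IsSimpleGroup.eq_bot_or_eq_top_of_normal φ.ker inferInstance).resolve_right fun h => hφ (h ▸ Subgroup.mem_top x :))
  have hn := H.h.card_sylow_ne_one H.perfect
  obtain ⟨h9, h10⟩ := card_of_pgl H.h (by omega) hn φ hφ'
  rw [← H.card_E] at h10
  replace h10 := h10.resolve_left fun h => by
    have := hp.out.odd_of_ne_two (by omega)
    rw [← h] at this
    exact Nat.not_even_iff_odd.2 this hodd.add_one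
  refine ⟨?_, psl_of_pgl H.h (by omega) (core e) hn (H.card_E ▸ h10) φ hφ' (ZMod.card p)⟩
  rw [H.h.card_eq_bot, h9, ← H.card_E, ← mul_assoc, mul_comm] at hS
  replace hS := Nat.eq_of_mul_eq_mul_right hp.out.pos hS
  have hC : ∀ g : G, g * m = m * g → g ∈ E := fun g hg => by
    by_contra h
    have := H.conj_eq hu'' hm (H.cent_le hm m1 hg) h
    rw [H.inverts hu hu' hu'' hodd hm, hg, mul_inv_cancel_right, eq_inv_iff_mul_eq_one] at this
    exact m2 this
  rcases Classical.dickson_coprime (φ.comp (stabilizer G a).subtype) (hφ'.comp Subtype.val_injective)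
    (mt (CharP.cast_eq_zero_iff K p _).1 hH) with h | ⟨k, hk, ⟨f⟩⟩ | ⟨⟨f⟩⟩ | ⟨⟨f⟩⟩ | ⟨⟨f⟩⟩
  · have := Subgroup.card_le_of_le (show stabilizer G a ≤ E from fun g hg => hC g (congrArg Subtype.val
      (h.isMulCommutative.is_comm.comm (⟨g, hg⟩ : stabilizer G a) ⟨m, ha⟩)))
    nlinarith
  · have : NeZero k := ⟨by omega⟩
    have e1 := Nat.card_congr f.toEquiv
    rw [DihedralGroup.nat_card] at e1
    have e2 : k ≤ Nat.card E := by
      rcases hf : f ⟨m, ha⟩ with i | i
      · refine (Nat.card_zmod k).ge.trans (Nat.card_le_card_of_injective (fun j : ZMod k =>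
          (⟨f.symm (.r j), hC _ (congrArg Subtype.val (show f.symm (.r j) * ⟨m, ha⟩ = ⟨m, ha⟩ * f.symm (.r j)
            from f.injective (by simp [hf, add_comm])))⟩ : E)) fun i j h => ?_)
        simpa using f.symm.injective (Subtype.ext (congrArg (Subtype.val : E → G) h))
      · exact (m2 (congrArg Subtype.val (show (⟨m, ha⟩ * ⟨m, ha⟩ : stabilizer G a) = 1 from
          f.injective (by simp [hf])))).elim
    nlinarith
  all_goals
    have e1 := Nat.card_congr f.toEquiv
    simp only [Nat.card_perm, Nat.card_eq_fintype_card (α := Fin _), Fintype.card_fin, nat_card_alternatingGroup,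
      Nat.factorial] at e1
    rw [hS, ← h10] at e1
    have : Nat.card E ≤ 5 := by nlinarith
    generalize Nat.card E = d at *
    interval_cases d <;> omega

end Ito

end Cfsg.Agent.CH.Low
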